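import Cfsg.Agent.TT2.M22j
import Cfsg.Agent.TT2.Typ

/-!
# Groups of type `M̃(22)` are of type `M(22)`
-/

set_option autoImplicit false

namespace Cfsg.Agent.TT2

open Cfsg Subgroup

universe u

variable {G : Type u} [Group G] [Finite G] {d : G} {τ : P → G}

theorem Dbl.type22 (h : Dbl d τ) (hn : ∃ g, Commute d (g * d * g⁻¹) ∧ g * d * g⁻¹ ≠ d)
    [((zpowers d).subgroupOf (centralizer {d})).Normal] {K : Type} [Field K] [Fintype K]
    (hK : Fintype.card K = 4)
    (e : centralizer {d} ⧸ (zpowers d).subgroupOf (centralizer {d}) ≃* Cfsg.PSU 6 K 2) :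
    IsOfTypeM22 G (conjugatesOf d) := by
  have H := h.loc22 hn
  have hd : d ∈ conjugatesOf d := IsConj.refl d
  obtain ⟨ρ, R⟩ := H.loc d hd
  obtain ⟨c, hc, ⟨x, hx, h1, h2⟩, h3⟩ := H.exists_ncomm hd
  obtain ⟨e', -⟩ := exists_qt_equiv (H := closure (Fi.perp (conjugatesOf d) d)) (d := d)
    (le_antisymm ((closure_le _).2 fun y hy => mem_centralizer_singleton_iff.2 hy.2.2.symm)
      fun g hg => by
        have := R.dbl.gen (mem_centralizer_singleton_iff.1 hg).symm
        rwa [← R.perp_eq] at this)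
    fun z hz => h.center (hz d (mem_centralizer_singleton_iff.2 rfl)).symm fun i =>
      hz _ (mem_centralizer_singleton_iff.2 (h.comm i).symm)
  exact TT2.type22 (h.class hn) (H.center hd) hd hc h3 ⟨x, ⟨hx, fun e => h3 (e ▸ h2), h1⟩,
    hx, fun e => h3 (e ▸ h1), h2.symm⟩ hK (e'.trans e)

end Cfsg.Agent.TT2
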