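import Cfsg.Agent.TT2.Amb23

/-!
# Groups with an involution whose centraliser is `2 · M(22)`
-/

set_option autoImplicit false
set_option maxRecDepth 100000

namespace Cfsg.Agent.TT2

section
open Cfsg Cfsg.Agent.TT Cfsg.Agent.Fi Subgroup
variable {G : Type*} [Group G] {E Δ : Set G} {β : ℕ → G} {w : G}

theorem exists_comm_P2 (h : Lab R22 fs22 3510 E β) (hP : P2 E Δ) (hw : w ∈ E) :
    ∃ y ∈ Δ, Commute y w := by
  obtain ⟨β, h, m⟩ := CD h hP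
  obtain ⟨q, hq, rfl⟩ := h.surj w hw
  have hg : ∀ i ∈ [0, 1, 2, 3, 5, 6, 7, 8], β (gp i) ∈ Δ := fun i hi =>
    (m _ (h.gpl i ((by decide : ∀ i ∈ [0, 1, 2, 3, 5, 6, 7, 8], i ∈ fs22) i hi))).2
      ((by decide +kernel : ∀ i ∈ [0, 1, 2, 3, 5, 6, 7, 8], pt (R23 11 (gp i)) = gp i) i hi)
  obtain ⟨h1, h2⟩ := orb_sound (Pr := fun q => ∃ y ∈ Δ, Commute y (β q)) (fun v hv q hq => by
    obtain ⟨b, h3, h4⟩ := h.wds (Q := fun b => β b ∈ Δ) (W := gtr [0, 1, 2, 3, 5, 6, 7, 8])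
      (by decide +kernel) (by
        simpa only [gtr, List.map_map, List.forall_mem_map, Function.comp] using hg) v hv
    refine ⟨(h3.2 q hq).1, fun ⟨y, hy, hc⟩ => ⟨_, hP.star _ h4 y hy, ?_⟩⟩
    have e := h.inv h3.1
    rw [(h3.2 q hq).2] at hc
    have := (commute_conj_iff (β b)).2 hc
    rwa [e, ← mul_assoc, ← mul_assoc, h.sq _ h3.1, one_mul, mul_assoc (β q), h.sq _ h3.1,
      mul_one] at this) orbD11 q hq
  refine h2 ?_
  have := rng2_sound (f := fun q => (fun b => Nat.beq (pt (R23 11 b)) b ||' lany (fun i =>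
    Nat.beq (pt (R22 i b)) b) [0, 1, 2, 3, 5, 6, 7, 8]) (bse tbD11 q)) (lo := 0) (hi := 3510)
    (by decide +kernel) q (Nat.zero_le _) hq
  rw [bor_iff, lany_iff, beq_iff] at this
  rcases this with h3 | ⟨i, hi, h3⟩
  · exact ⟨_, (m _ h1).2 h3, Commute.refl _⟩
  · exact ⟨_, hg i hi, (h.comm_iff ((by decide : ∀ i ∈ [0, 1, 2, 3, 5, 6, 7, 8], i ∈ fs22) i hi)
      h1).2 ((beq_iff _ _).1 h3)⟩

end

open Cfsg Subgroup

universe u

variable {G : Type u} [Group G] {D E : Set G} {a d g x y w : G}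

theorem Dbl2.cases (h : Dbl2 d E) (hy : IsConj d y) (hc : Commute d y) :
    y = d ∨ y ∈ E ∨ d * y ∈ E := by
  have h2 : y * y = 1 := by
    obtain ⟨g, rfl⟩ := isConj_iff.1 hy
    exact (h.conj g).dd
  rcases h.classes hc h2 with e | e | e | ⟨u, e⟩
  exacts [Or.inl e, Or.inr (Or.inl e), Or.inr (Or.inr e), absurd e (nsq_of_isConj h.sq_ne hy u)]

theorem Dbl2.third (h : Dbl2 d E) (hy : y ∈ E) : ∃ w ∈ E, w ≠ y ∧ Commute y w :=
  let ⟨σ, _, e, _⟩ := h.local hy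
  ⟨σ 0, (e ▸ Set.mem_image_of_mem σ (Set.mem_univ 0) : σ 0 ∈ Fi.perp E y)⟩

theorem Dbl2.fuse (h : Dbl2 d E) (hn : ∃ g, Commute d (g * d * g⁻¹) ∧ g * d * g⁻¹ ≠ d) :
    ∃ E', Dbl2 d E' ∧ ∀ y ∈ E', IsConj d y := by
  obtain ⟨g, h1, h2⟩ := hn
  have hy : IsConj d (g * d * g⁻¹) := isConj_iff.2 ⟨g, rfl⟩
  have key : ∀ E, Dbl2 d E → g * d * g⁻¹ ∈ E → ∀ y ∈ E, IsConj d y := fun E h h3 y h4 =>
    let ⟨k, _, e⟩ := h.cls h3 h4; e ▸ isConj_conj hy k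
  rcases h.cases hy h1 with e | e | e
  exacts [absurd e h2, ⟨E, h, key E h e⟩,
    ⟨_, h.swap, key _ h.swap ⟨_, e, TT.sq_cancel h.dd _⟩⟩]

theorem Dbl2.perp_eq (h : Dbl2 d E) (hE : ∀ y ∈ E, IsConj d y) :
    Fi.perp (conjugatesOf d) d = E := by
  refine Set.Subset.antisymm (fun y ⟨h1, h2, h3⟩ => ?_)
    fun y hy => ⟨hE y hy, fun e => h.not_mem.2 (e ▸ hy), h.comm hy⟩
  refine ((h.cases h1 h3).resolve_left h2).elim id fun hv => False.elim ?_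
  have k1 : ∀ v ∈ E, IsConj d (d * v) := fun v h4 => by
    obtain ⟨k, h5, rfl⟩ := h.cls hv h4
    have := isConj_conj h1 k
    rwa [show d * (k * (d * y) * k⁻¹) = k * y * k⁻¹ by
      rw [← mul_assoc, ← mul_assoc, h5.eq, mul_assoc k, TT.sq_cancel h.dd]]
  have k2 : ∀ v, IsConj d v → v ≠ d → Commute d v → IsConj d (d * v) := fun v h4 h5 h6 =>
    ((h.cases h4 h6).resolve_left h5).elim (k1 v) (hE _)
  obtain ⟨w, h4, h5, h6⟩ := h.third hv
  obtain ⟨u, e⟩ := h.sq2 hv h4 h6 h5.symm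
  obtain ⟨k, h7⟩ := isConj_iff.1 (hE _ hv).symm
  have := isConj_conj (k2 (k * w * k⁻¹) (isConj_conj (hE w h4) k)
    (fun e => h5 (by simpa using e.trans h7.symm)) (h7 ▸ (TT.commute_conj_iff k).2 h6)) k⁻¹
  refine nsq_of_isConj h.sq_ne this u ?_
  rw [e]
  generalize d * y = v at *
  rw [← h7]; group

/-- the local structure of a class of type `M̃(23)` -/
structure Loc23 (D : Set G) : Prop where
  cj : ∀ g : G, ∀ a ∈ D, g * a * g⁻¹ ∈ D
  loc : ∀ a ∈ D, Dbl2 a (Fi.perp D a)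

theorem Dbl2.loc23 (h : Dbl2 d E) (hn : ∃ g, Commute d (g * d * g⁻¹) ∧ g * d * g⁻¹ ≠ d) :
    Loc23 (conjugatesOf d) := by
  obtain ⟨E, h, hE⟩ := h.fuse hn
  refine ⟨fun g a ha => isConj_conj ha g, fun a ha => ?_⟩
  obtain ⟨g, rfl⟩ := isConj_iff.1 ha
  rw [IsConj.conjugatesOf_eq ha, (h.conj g).perp_eq]
  · exact h.conj g
  · rintro _ ⟨y, hy, rfl⟩
    exact ha.symm.trans (isConj_conj (hE y hy) g)

theorem Loc23.lc3 (h : Loc23 D) : Lc3 D := by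
  have sq : ∀ a ∈ D, a * a = 1 := fun a ha => (h.loc a ha).dd
  refine ⟨sq, h.cj, fun x hx y hy hn => ?_, fun x hx y hy w hw hn hc => ?_⟩
  · obtain ⟨e, he, h1, h2⟩ := hn
    by_cases e1 : x = e
    · exact Or.inl (e1 ▸ h2)
    by_cases e2 : y = e
    · exact Or.inl (e2 ▸ h1)
    exact (h.loc e he).cube ⟨hx, e1, h1.symm⟩ ⟨hy, e2, h2⟩
  · by_cases h1 : Commute x y
    · exact ⟨y, hy, h1, hc⟩
    by_cases e : w = y
    · exact e ▸ hn
    obtain ⟨β, L⟩ := (h.loc y hy).lab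
    have st : ∀ a ∈ D, ∀ b ∈ D, a * b * a ∈ D := fun a ha b hb => by
      have := h.cj a b hb
      rwa [TT.inv_of_sq (sq a ha)] at this
    obtain ⟨u, h2, h3⟩ := exists_comm_P2 (Δ := Fi.perp D y ∩ Fi.perp D x) L
      ⟨Set.inter_subset_left, by
        obtain ⟨e, he, h2, h3⟩ := hn
        exact ⟨e, ⟨he, fun e' => h1 (e' ▸ h2), h3.symm⟩, he, fun e' => h1 (e' ▸ h3), h2⟩,
        fun a ha b hb => ⟨Fi.perp_star st sq a ha.1 b hb.1, Fi.perp_star st sq a ha.2 b hb.2⟩,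
        fun e he => by
          obtain ⟨β, L⟩ := (h.loc e he.1.1).lab
          rw [Fi.perp_perp_comm, Fi.perp_inter]
          exact Fi.L1 L ⟨hy, he.1.2.1.symm, he.1.2.2.symm⟩ ⟨hx, he.2.2.1.symm, he.2.2.2.symm⟩
            fun h => h1 h.symm⟩ ⟨hw, e, hc⟩
    exact ⟨u, h2.1.1, h2.2.2.2, h3⟩

theorem Loc23.gl3 [Finite G] (h : Loc23 D) : Gl3 D := by
  have n1 : 1 ∉ D := fun h1 => (h.loc 1 h1).dne rfl
  refine ⟨h.lc3, n1, fun x hx y hy hc hxy => ?_,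
    fun x hx y hy v hv w hw hc hne h1 h2 e => ?_,
    fun x hx s hs => h.lc3.fix_of_odd hx (fun y hy hc hne => ?_) hs,
    fun x hx y hy hc hne => ?_, fun v hv w hw w' hw' h1 h2 h3 n1 n2 n3 => ?_, fun x hx => ?_⟩
  · by_cases e : y = x
    · exact n1 (by rwa [e, h.lc3.sq x hx] at hxy)
    exact (h.loc x hx).rel2 ⟨hy, e, hc⟩
      ⟨hxy, fun e => n1 (by rwa [mul_eq_left.1 e] at hy), (Commute.refl x).mul_right hc⟩
  · by_contra! h3
    have e' : w = v * (x * y) := by rw [e, TT.sq_cancel (h.lc3.sq v hv)]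
    refine (h.loc x hx).rel3 ⟨hy, hne.symm, hc⟩ ⟨hv, h3.1, h1.symm⟩ ⟨hw, fun e1 => h3.2 ?_,
      e' ▸ h1.symm.mul_right ((Commute.refl x).mul_right hc)⟩
      (e' ▸ (Commute.refl v).mul_right (h1.mul_right h2)) e
    rw [e1, h1.eq] at e
    exact (mul_left_cancel e).symm
  · obtain ⟨σ, R, e, -⟩ := (h.loc x hx).local ⟨hy, hne.symm, hc⟩
    have : {e | e ∈ D ∧ e ≠ x ∧ e ≠ y ∧ Commute x e ∧ Commute y e} = σ '' Set.univ := by
      rw [e]; ext z; simp only [Fi.perp, Set.mem_ofPred_eq]; tauto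
    rw [this, Set.ncard_image_of_injective _ R.inj, Set.ncard_univ, Nat.card_fin]
    decide
  · obtain ⟨σ, R, e, r, hr, e'⟩ := (h.loc x hx).local ⟨hy, hne.symm, hc⟩
    refine ⟨y :: r.map σ, ?_, by rw [List.prod_cons, e', h.lc3.sq y hy], fun s hs => ?_⟩
    · rw [List.length_cons, List.length_map, (by decide : ∀ r ∈ hypL, r.length = 6) r hr]; decide
    · rcases List.mem_cons.1 hs with rfl | hs
      · exact ⟨hy, hc, Commute.refl _⟩
      · obtain ⟨i, -, rfl⟩ := List.mem_map.1 hs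
        have : σ i ∈ Fi.perp (Fi.perp D x) y := e ▸ Set.mem_image_of_mem σ (Set.mem_univ i)
        exact ⟨this.1.1, this.1.2.2, this.2.2⟩
  · obtain ⟨x, hx, c1, c2, m1, m2⟩ := (h.loc v hv).rel5 ⟨hw, n1.symm, h1⟩ ⟨hw', n2.symm, h2⟩ h3 n3
    refine ⟨x, hx.1, hx.2.2.symm, c1, c2, fun y hy y' hy' hne hc hall e => ?_⟩
    rw [← mul_assoc, ← hx.2.2.eq, mul_assoc] at e
    have a1 := hall x (by simp)
    have a2 := hall v (by simp)
    have a3 := hall w (by simp)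
    have a4 := hall w' (by simp)
    by_cases e1 : y = v
    · subst e1
      exact m1 (mul_left_cancel e ▸ ⟨hy', hne.symm, hc⟩)
    by_cases e2 : y' = v
    · subst e2
      exact m1 (mul_left_cancel (e.trans hc.eq) ▸ ⟨hy, hne, hc.symm⟩)
    exact m2 y ⟨hy, e1, a2.1⟩ y' ⟨hy', e2, a2.2⟩ a1.1 a3.1 a4.1 a3.2 e
  · obtain ⟨y, h1, h2, h3⟩ := (h.loc x hx).nonempty
    exact ⟨y, h1, h3, h2.symm⟩

theorem Loc23.near [Finite G] (h : Loc23 D) (hx : x ∈ D) (hy : y ∈ D) : Near D x y :=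
  h.gl3.near_all hx hy

theorem Loc23.ts [Finite G] (h : Loc23 D) : IsThreeTranspositionSet D :=
  ⟨fun a ha => TT.orderOf_eq_two (h.lc3.sq a ha) fun e => h.gl3.ne1 (e ▸ ha), fun a ha b hb =>
    (h.lc3.loc a ha b hb (h.near ha hb)).imp_left
      (TT.sq_of_commute (h.lc3.sq a ha) (h.lc3.sq b hb))⟩

theorem Loc23.gen (h : Loc23 D) (hx : x ∈ D) (hg : Commute x g) :
    g ∈ closure {a | a ∈ D ∧ Commute x a} :=
  Subgroup.closure_mono (fun _ hy => by exact ⟨hy.1, hy.2.2⟩) ((h.loc x hx).gen hg)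

theorem Loc23.top [Finite G] (h : Loc23 D) (hx : x ∈ D) : closure D = ⊤ := by
  have := h.lc3.stab_eq hx (fun e he y hy w hw h1 h2 h3 h4 =>
    let ⟨g, h5, h6⟩ := (h.loc e he).cls ⟨hy, h1, h3⟩ ⟨hw, h2, h4⟩; ⟨g, h.gen he h5, h6⟩)
    (fun y hy hc => by
      by_cases e : y = x
      · obtain ⟨z, h1, h2, h3⟩ := (h.loc x hx).nonempty
        exact ⟨z, h1, h2.symm, e ▸ h2.symm, h3.symm, e ▸ h3.symm⟩
      · obtain ⟨z, h1, h2, h3⟩ := (h.loc x hx).third ⟨hy, e, hc⟩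
        exact ⟨z, h1.1, h1.2.1.symm, h2.symm, h1.2.2.symm, h3.symm⟩) fun g => h.gen hx
  refine eq_top_iff.2 fun g _ => Subgroup.closure_mono (fun _ h => h.1) (this.le ?_)
  exact h.near hx (h.cj g x hx)

theorem Loc23.exists_ncomm (h : Loc23 D) (hx : x ∈ D) :
    ∃ c ∈ D, ¬ Commute x c ∧ (Fi.perp D x ∩ Fi.perp D c).Nonempty := by
  obtain ⟨y, h1, h2, h3⟩ := (h.loc x hx).nonempty
  have H := h.loc y h1
  by_contra hn
  have hxy : x ∈ Fi.perp D y := ⟨hx, h2.symm, h3.symm⟩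
  rcases H.center h3.symm fun c hc => by_contra fun h4 =>
    hn ⟨c, hc.1, h4, y, ⟨h1, h2, h3⟩, h1, hc.2.1.symm, hc.2.2.symm⟩ with e | e
  exacts [H.not_mem.1 (e ▸ hxy), h2 e.symm]

theorem Loc23.center (h : Loc23 D) (hx : x ∈ D) : center G = ⊥ := by
  obtain ⟨c, -, hc, -⟩ := h.exists_ncomm hx
  refine eq_bot_iff.2 fun z hz => ?_
  have := mem_center_iff.1 hz
  rcases (h.loc x hx).center (this x) fun y _ => (this y).symm with rfl | rfl
  exacts [one_mem _, absurd (this c).symm hc]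

theorem Dbl2.main [Finite G] (h : Dbl2 d E)
    (hn : ∃ g, Commute d (g * d * g⁻¹) ∧ g * d * g⁻¹ ≠ d) :
    IsThreeTranspositionClass (conjugatesOf d) ∧ IsOfTypeM23 G (conjugatesOf d) := by
  have H := h.loc23 hn
  have hd : d ∈ conjugatesOf d := IsConj.refl d
  have hC : IsThreeTranspositionClass (conjugatesOf d) := ⟨H.ts, ⟨d, hd, rfl⟩, H.top hd⟩
  obtain ⟨c, h1, h2, h3⟩ := H.exists_ncomm hd
  exact ⟨hC, type23 hC (H.center hd) hd h1 h2 h3 (H.loc d hd).type22⟩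

/-- an involution whose conjugates form a set of 3-transpositions is a member of the class -/
theorem Loc23.mem_of_ts [Finite G] (h : Loc23 D) (hx : x ∈ D) {s : G} (hs : orderOf s = 2)
    (h3 : ∀ g, (s * (g * s * g⁻¹)) ^ 2 = 1 ∨ (s * (g * s * g⁻¹)) ^ 3 = 1) : s ∈ D := by
  have K := h.gl3
  obtain ⟨a, ha, -, hc⟩ := K.h3 x hx s (TT.mul_self_of_orderOf hs) (h.near hx (h.cj s x hx))
  rcases (h.loc a ha).of_ts hc.symm hs h3 with rfl | e | hy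
  exacts [ha, e.1, by
    obtain ⟨e, h1, h2, h4⟩ := (h.loc a ha).third hy
    have e0 : a * (a * s) = s := TT.sq_cancel (K.sq a ha) s
    rcases (h.loc e h1.1).of_ts (e0 ▸ h1.2.2.symm.mul_right h4.symm) hs h3 with rfl | h5 | h5
    · exact h1.1
    · exact h5.1
    · exact absurd (K.h2b a ha _ hy.1 e h1.1 _ h5.1 hy.2.2 hy.2.1.symm h1.2.2.symm h4.symm
        (by rw [e0, TT.sq_cancel (K.sq e h1.1)])) (not_or.2 ⟨h1.2.1, h2⟩)]

theorem Dbl2.eq_class [Finite G] (h : Dbl2 d E)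
    (hn : ∃ g, Commute d (g * d * g⁻¹) ∧ g * d * g⁻¹ ≠ d) (hD : IsThreeTranspositionGroup D) :
    D = conjugatesOf d := by
  have H := h.loc23 hn
  have h1 : D ⊆ conjugatesOf d := fun s hs =>
    H.mem_of_ts (IsConj.refl d) (hD.1.1 s hs) fun g => hD.1.2 s hs _ (hD.2.1 g s hs)
  refine h1.antisymm fun y hy => ?_
  obtain ⟨s, hs⟩ : D.Nonempty := by
    by_contra hD'
    have := hD.2.2
    rw [Set.not_nonempty_iff_eq_empty.1 hD', Subgroup.closure_empty] at this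
    exact h.dne (mem_bot.1 (this ▸ mem_top d))
  obtain ⟨g, rfl⟩ := isConj_iff.1 ((h1 hs).symm.trans hy)
  exact hD.2.1 g s hs

theorem Dbl2.exists_elem' (h : Dbl2 d E) (hn : ∃ g, Commute d (g * d * g⁻¹) ∧ g * d * g⁻¹ ≠ d) :
    ∃ A : Subgroup G, UniqE d A ∧ (∀ a ∈ A, a * a = 1) ∧ d ∈ A ∧ Nat.card A = 2048 ∧
      {y | y ∈ A ∧ IsConj d y}.ncard = 23 := by
  obtain ⟨A, h1, h2, h3, h4, h5⟩ := ((h.loc23 hn).loc d (IsConj.refl d)).exists_elem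
  refine ⟨A, h1, h2, h3, h4, ?_⟩
  have : {y | y ∈ A ∧ IsConj d y} = insert d {y | y ∈ Fi.perp (conjugatesOf d) d ∧ y ∈ A} := by
    ext y
    constructor
    · rintro ⟨h6, h7⟩
      exact (eq_or_ne y d).imp_right fun e => ⟨⟨h7, e, commute_of_elem h2 h3 h6⟩, h6⟩
    · rintro (rfl | ⟨h6, h7⟩)
      exacts [⟨h3, IsConj.refl _⟩, ⟨h7, h6.1⟩]
  rw [this, Set.ncard_insert_of_notMem (fun h => h.1.2.1 rfl)
    (Set.finite_of_ncard_ne_zero (by rw [h5]; decide)), h5]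

end Cfsg.Agent.TT2
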