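import Cfsg.Agent.TT2.U6Grp

/-!
# Double covers: lifting classes of involutions; double covers of `PSU₆(2)`
-/

set_option autoImplicit false
set_option maxRecDepth 100000

namespace Cfsg.Agent.TT2

open Cfsg.Agent.M24 Subgroup

/-- `π` is onto with kernel generated by the central involution `z`. -/
structure Cov {C X : Type*} [Group C] [Group X] (π : C →* X) (z : C) : Prop where
  surj : Function.Surjective π
  ker : ∀ c, π c = 1 ↔ c = 1 ∨ c = z
  zz : z * z = 1
  zne : z ≠ 1
  comm : ∀ c, Commute z c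

section Cov
variable {C X : Type*} [Group C] [Group X] {π : C →* X} {z : C}

theorem Cov.map_z (V : Cov π z) : π z = 1 := (V.ker z).2 (Or.inr rfl)

theorem Cov.eq_iff (V : Cov π z) {a b : C} : π a = π b ↔ a = b ∨ a = z * b := by
  rw [← mul_inv_eq_one, ← map_inv, ← map_mul, V.ker, mul_inv_eq_one, mul_inv_eq_iff_eq_mul]

theorem Cov.commute_of (V : Cov π z) {a b a' b' : C} (h : Commute a b) (ha : π a' = π a)
    (hb : π b' = π b) : Commute a' b' := by
  rcases V.eq_iff.1 ha with rfl | rfl <;> rcases V.eq_iff.1 hb with rfl | rfl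
  · exact h
  · exact (V.comm _).symm.mul_right h
  · exact (V.comm _).mul_left h
  · exact (V.comm _).mul_left ((V.comm _).symm.mul_right h)

theorem Cov.card (V : Cov π z) : Nat.card C = 2 * Nat.card X := by
  have h : π.ker = zpowers z := by
    ext c; rw [MonoidHom.mem_ker, V.ker, TT.mem_zpowers_of_sq V.zz]
  rw [← card_mul_index π.ker, index_ker, MonoidHom.range_eq_top.2 V.surj, card_top, h,
    Nat.card_zpowers, TT.orderOf_eq_two V.zz V.zne]

theorem Cov.card_comap (V : Cov π z) (H : Subgroup X) : Nat.card (H.comap π) = 2 * Nat.card H := by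
  have hz : z ∈ H.comap π := by rw [mem_comap, V.map_z]; exact one_mem _
  refine Cov.card (π := (π.subgroupComap H)) (z := ⟨z, hz⟩) ⟨fun x => ?_, fun c => ?_,
    Subtype.ext V.zz, fun h => V.zne (congrArg Subtype.val h), fun c => Subtype.ext (V.comm c)⟩
  · obtain ⟨c, hc⟩ := V.surj x
    exact ⟨⟨c, by rw [mem_comap, hc]; exact x.2⟩, Subtype.ext hc⟩
  · rw [Subtype.ext_iff, Subtype.ext_iff, Subtype.ext_iff]
    exact V.ker c

theorem Cov.exists_lift (V : Cov π z) {E : Set X} (hsq : ∀ a ∈ E, a * a = 1)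
    (hcl : ∀ a ∈ E, ∀ b ∈ E, ∃ x, x * a * x⁻¹ = b)
    (hpair : ∀ a ∈ E, ∀ b ∈ E, ∀ a' ∈ E, ∀ b' ∈ E, a ≠ b → a' ≠ b' → Commute a b → Commute a' b' →
      ∃ x, x * a * x⁻¹ = a' ∧ x * b * x⁻¹ = b')
    {a0 : X} (ha0 : a0 ∈ E) {L : List X} (hL : ∀ b ∈ L, b ∈ E ∧ b ≠ a0 ∧ Commute a0 b)
    (hLo : Odd L.length) (hLp : L.prod = 1 ∨ L.prod = a0)
    {L' : List X} (hL' : ∀ b ∈ L', b ∈ E) (hLc : ∀ a ∈ L', ∀ b ∈ L', Commute a b)
    (hLo' : Odd L'.length) (hLp' : L'.prod = 1)
    (hcent : ∀ g, Commute g a0 → g ∈ closure {b | b ∈ E ∧ Commute a0 b}) :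
    ∃ s : X → C, (∀ a ∈ E, π (s a) = a) ∧ (∀ a ∈ E, s a * s a = 1) ∧
      ∀ c, ∀ a ∈ E, c * s a * c⁻¹ = s (π c * a * (π c)⁻¹) := by
  classical
  obtain ⟨r, hr⟩ : ∃ r : X → C, ∀ x, π (r x) = x := ⟨_, Function.surjInv_eq V.surj⟩
  have hprod : ∀ L : List X, π (L.map r).prod = L.prod := fun L => by
    rw [map_list_prod, List.map_map, List.map_congr_left (f := π ∘ r) (g := id) fun x _ => hr x, List.map_id]
  have hzodd : ∀ {n : ℕ}, Odd n → z ^ n = z := by
    rintro _ ⟨k, rfl⟩; rw [pow_succ, pow_mul, pow_two, V.zz, one_pow, one_mul]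
  have hcomm : ∀ a ∈ E, ∀ b ∈ E, Commute a b → Commute (r a) (r b) := by
    by_contra h
    push Not at h
    obtain ⟨a, ha, b, hb, hab, hn⟩ := h
    have hne : a ≠ b := by rintro rfl; exact hn (Commute.refl _)
    have h1 : ∀ b' ∈ L, r a0 * r b' = z * (r b' * r a0) := by
      intro b' hb'
      obtain ⟨h2, h3, h4⟩ := hL b' hb'
      refine (V.eq_iff.1 (by rw [map_mul, map_mul, hr, hr, h4.eq])).resolve_left fun h5 => hn ?_
      obtain ⟨x, e1, e2⟩ := hpair a0 ha0 b' h2 a ha b hb h3.symm hne h4 hab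
      refine V.commute_of ((TT.commute_conj_iff (r x)).2 h5) ?_ ?_ <;>
        simp only [map_mul, map_inv, hr, e1, e2]
    have h2 : ∀ L : List X, (∀ b' ∈ L, r a0 * r b' = z * (r b' * r a0)) →
        r a0 * (L.map r).prod = z ^ L.length * ((L.map r).prod * r a0) := by
      intro L hL
      induction L with
      | nil => simp
      | cons b L ih =>
        rw [List.map_cons, List.prod_cons, ← mul_assoc, hL b List.mem_cons_self, mul_assoc,
          mul_assoc, ih fun b' hb' => hL b' (List.mem_cons_of_mem _ hb'), List.length_cons,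
          pow_succ', mul_assoc, ← mul_assoc (r b), ← ((V.comm (r b)).pow_left _).eq]
        simp only [mul_assoc]
    have h3 := h2 L h1
    have h4 : Commute (r a0) (L.map r).prod := by
      rcases hLp with h | h
      · exact V.commute_of (Commute.one_right (r a0)) rfl (by rw [hprod, h, map_one])
      · exact V.commute_of (Commute.refl (r a0)) rfl (by rw [hprod, h, hr])
    rw [hzodd hLo, h4.eq] at h3
    exact V.zne (by simpa using h3)
  have hsqz : ∀ c c' : C, π c' = π c → c' * c' = c * c := by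
    intro c c' h
    rcases V.eq_iff.1 h with rfl | rfl
    · rfl
    · rw [mul_assoc, ← mul_assoc c, ← (V.comm c).eq, mul_assoc, TT.sq_cancel V.zz]
  have hsq0 : r a0 * r a0 = 1 := by
    by_contra h
    have h0 := ((V.ker _).1 (by rw [map_mul, hr, hsq a0 ha0])).resolve_left h
    have h1 : ∀ b ∈ E, r b * r b = z := fun b hb => by
      obtain ⟨x, hx⟩ := hcl a0 ha0 b hb
      rw [hsqz (r x * r a0 * (r x)⁻¹) _ (by simp only [map_mul, map_inv, hr, hx])]
      calc _ = r x * (r a0 * r a0) * (r x)⁻¹ := by group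
        _ = z := by rw [h0, ← (V.comm _).eq, mul_inv_cancel_right]
    have h2 : ∀ L : List X, (∀ b ∈ L, b ∈ E) → (∀ a ∈ L, ∀ b ∈ L, Commute a b) →
        (L.map r).prod * (L.map r).prod = z ^ L.length := by
      intro L hL hc
      induction L with
      | nil => simp
      | cons b L ih =>
        have hb : Commute (r b) (L.map r).prod := Commute.list_prod_right _ _ fun x hx => by
          obtain ⟨y, hy, rfl⟩ := List.mem_map.1 hx
          exact hcomm b (hL b List.mem_cons_self) y (hL y (List.mem_cons_of_mem _ hy))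
            (hc b List.mem_cons_self y (List.mem_cons_of_mem _ hy))
        rw [List.map_cons, List.prod_cons, mul_assoc, ← mul_assoc (L.map r).prod, ← hb.eq,
          mul_assoc, ih (fun b' hb' => hL b' (List.mem_cons_of_mem _ hb')) (fun a ha b hb =>
            hc a (List.mem_cons_of_mem _ ha) b (List.mem_cons_of_mem _ hb)), ← mul_assoc,
          h1 b (hL b List.mem_cons_self), List.length_cons, pow_succ']
    have h3 := h2 L' hL' hLc
    rw [hzodd hLo', hsqz 1 _ (by rw [hprod, hLp', map_one]), mul_one] at h3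
    exact V.zne h3.symm
  have hc0 : ∀ c, Commute (π c) a0 → Commute c (r a0) := by
    intro c hc
    have : ∀ g ∈ closure {b | b ∈ E ∧ Commute a0 b}, Commute (r g) (r a0) := by
      intro g hg
      induction hg using closure_induction with
      | mem x hx => exact hcomm x hx.1 a0 ha0 hx.2.symm
      | one => exact V.commute_of (Commute.one_left _) (by rw [hr, map_one]) rfl
      | mul x y _ _ hx hy => exact V.commute_of (hx.mul_left hy) (by simp only [map_mul, hr]) rfl
      | inv x _ hx => exact V.commute_of hx.inv_left (by simp only [map_inv, hr]) rfl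
    exact V.commute_of (this _ (hcent _ hc)) (hr _).symm rfl
  have hconj : ∀ c c' : C, π c * a0 * (π c)⁻¹ = π c' * a0 * (π c')⁻¹ →
      c * r a0 * c⁻¹ = c' * r a0 * c'⁻¹ := by
    intro c c' h
    have := hc0 (c'⁻¹ * c) (by
      rw [TT.commute_iff_conj, map_mul, map_inv]
      calc _ = (π c')⁻¹ * (π c * a0 * (π c)⁻¹) * π c' := by group
        _ = a0 := by rw [h]; group)
    rw [TT.commute_iff_conj] at this
    calc _ = c' * (c'⁻¹ * c * r a0 * (c'⁻¹ * c)⁻¹) * c'⁻¹ := by group
      _ = _ := by rw [this]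
  let y : X → C := fun a => if h : ∃ x, x * a0 * x⁻¹ = a then r h.choose else 1
  have hy : ∀ a, (∃ x, x * a0 * x⁻¹ = a) → π (y a) * a0 * (π (y a))⁻¹ = a := fun a h => by
    simp only [y, dif_pos h, hr]; exact h.choose_spec
  refine ⟨fun a => y a * r a0 * (y a)⁻¹, fun a ha => ?_, fun a _ => TT.conj_mul_self _ hsq0,
    fun c a ha => ?_⟩
  · rw [map_mul, map_mul, map_inv, hr, hy a (hcl a0 ha0 a ha)]
  · have h1 := hy a (hcl a0 ha0 a ha)
    have h2 : π (c * y a) * a0 * (π (c * y a))⁻¹ = π c * a * (π c)⁻¹ := by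
      conv_rhs => rw [← h1]
      rw [map_mul]; group
    beta_reduce
    rw [← hconj (c * y a) _ (h2.trans (hy _ ⟨_, h2⟩).symm)]
    group

/-- an involution of a perfect group acting on `2 mod 4` points has a fixed point -/
theorem exists_fixed_of_perfect {G : Type*} [Group G] (hp : Group.IsPerfect G) {Y : Type*}
    [Finite Y] [MulAction G Y] (hY : Nat.card Y % 4 = 2) {g : G} (hg : g * g = 1) :
    ∃ y : Y, g • y = y := by
  classical
  by_contra hz
  push Not at hz
  have := Fintype.ofFinite Y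
  have h1 : Equiv.Perm.sign (MulAction.toPermHom G Y g) = 1 := by
    have : g ∈ commutator G := by rw [hp.commutator_eq_top]; trivial
    exact Abelianization.commutator_subset_ker
      (Equiv.Perm.sign.comp (MulAction.toPermHom G Y)) this
  have h2 : MulAction.toPermHom G Y g ^ 2 = 1 := by rw [← map_pow, pow_two, hg, map_one]
  have h3 : IsEmpty (Function.fixedPoints (MulAction.toPermHom G Y g)) := ⟨by
    rintro ⟨x, hx⟩
    exact hz x hx⟩
  rw [Equiv.Perm.sign_of_pow_two_eq_one h2, Fintype.card_eq_zero (α := Function.fixedPoints _), Nat.sub_zero,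
    ← Nat.card_eq_fintype_card] at h1
  have : Odd (Nat.card Y / 2) := by rw [Nat.odd_iff]; omega
  rw [this.neg_one_pow] at h1
  exact absurd h1 (by decide)

/-- a perfect group has no subgroup of index `2 mod 4` avoiding a central involution -/
theorem not_mem_of_perfect [Finite C] (hp : Group.IsPerfect C) (hzz : z * z = 1)
    (hc : ∀ c, Commute z c) {H : Subgroup C} (hi : H.index % 4 = 2) : z ∈ H := by
  obtain ⟨x, hx⟩ := exists_fixed_of_perfect hp (Y := C ⧸ H) hi hzz
  obtain ⟨g, rfl⟩ := QuotientGroup.mk_surjective x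
  have : (QuotientGroup.mk (z * g) : C ⧸ H) = QuotientGroup.mk g := hx
  rw [QuotientGroup.eq, (hc g).eq, mul_inv_rev, inv_mul_cancel_right] at this
  exact inv_mem_iff.1 this

end Cov

/-! ### a chain of 2-subgroups -/

/-- all points of the list are pairwise perpendicular -/
def Clq (L : List P) : Prop := ∀ i ∈ L, ∀ j ∈ L, perp i j

noncomputable instance decClq (L : List P) : Decidable (Clq L) :=
  inferInstanceAs (Decidable (∀ i ∈ L, ∀ j ∈ L, perp i j))

section Chain
variable {C X : Type*} [Group C] [Group X] {π : C →* X} {t : P → X} {ρ : P → C}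

/-- hypotheses for the construction of a subgroup of order `2 ^ 15` -/
structure Spl (U : U6 t) (π : C →* X) (ρ : P → C) : Prop where
  map : ∀ i, π (ρ i) = t i
  sq : ∀ i, ρ i * ρ i = 1
  eqv : ∀ c i, c * ρ i * c⁻¹ = ρ (U.act (π c) i)
  key : ∀ L, Clq L → (L.map t).prod = 1 → (L.map ρ).prod = 1

/-- the subgroups of the chain -/
def HS (ρ : P → C) (WL : List (List P)) : Subgroup C :=
  closure (ρ '' {k | (k : ℕ) < 21} ∪ {g | ∃ w ∈ WL, (w.map ρ).prod = g})

variable {U : U6 t}

theorem Spl.map_prod (S : Spl U π ρ) (w : List P) : π (w.map ρ).prod = (w.map t).prod := by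
  rw [map_list_prod, List.map_map]
  exact congrArg _ (List.map_congr_left fun i _ => S.map i)

theorem Spl.preserve (S : Spl U π ρ) {WL : List (List P)} {W : Set P}
    (hW : ∀ y ∈ W, (y : ℕ) < 21) (h : ∀ w ∈ WL, ∀ y ∈ W, wact w y ∈ W) {c : C} (hc : c ∈ HS ρ WL) :
    ∀ y ∈ W, U.act (π c) y ∈ W := by
  induction hc using closure_induction with
  | mem x hx =>
    rcases hx with ⟨i, hi, rfl⟩ | ⟨w, hw, rfl⟩
    · intro y hy
      rw [S.map, U.act_t, perp_of_lt hi (hW y hy)]; exact hy
    · intro y hy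
      rw [S.map_prod, U.act_word]; exact h w hw y hy
  | one => simp
  | mul x y _ _ hx hy => intro a ha; rw [map_mul, map_mul]; exact hx _ (hy a ha)
  | inv x _ hx =>
    intro y hy
    have hs := Set.eq_of_subset_of_ncard_le (s := U.act (π x) '' W) (t := W)
      (by rintro _ ⟨y, hy, rfl⟩; exact hx y hy)
      (by rw [Set.ncard_image_of_injective _ (U.act (π x)).injective])
    obtain ⟨y', hy', e⟩ : y ∈ U.act (π x) '' W := hs.symm ▸ hy
    rw [← e]; simpa using hy'

theorem Spl.base (S : Spl U π ρ) :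
    (∀ h ∈ HS ρ [], π h = 1 → h = 1) ∧ Nat.card (HS ρ []) = 512 := by
  have e : HS ρ [] = Apl ρ := by simp [HS, Apl]
  rw [e]
  have h1 : ∀ h ∈ Apl ρ, π h = 1 → h = 1 := by
    intro h hh h1
    obtain ⟨L, hL, rfl⟩ := exists_list_of_mem_closure S.sq hh
    exact S.key L (fun i hi j hj => perp_of_lt (hL i hi) (hL j hj)) (by rwa [S.map_prod] at h1)
  refine ⟨h1, ?_⟩
  have h2 : (Apl ρ).map π = Apl t := by
    rw [Apl, MonoidHom.map_closure, ← Set.image_comp]
    exact congrArg _ (Set.image_congr fun i _ => S.map i)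
  rw [← U.card_Apl, ← h2]
  refine Nat.card_eq_of_bijective (π.subgroupMap (Apl ρ)) ⟨?_, π.subgroupMap_surjective _⟩
  rw [injective_iff_map_eq_one]
  exact fun a ha => Subtype.ext (h1 a a.2 (congrArg Subtype.val ha))

theorem Spl.step [Finite C] (S : Spl U π ρ) {WL : List (List P)} {n : ℕ}
    (ih : (∀ h ∈ HS ρ WL, π h = 1 → h = 1) ∧ Nat.card (HS ρ WL) = n) (u v : P) (huv : perp u v)
    (h2 : ∀ k ∈ U21, (wact [u, v] k : ℕ) < 21)
    (cs : List ℕ) (h3 : ∀ w ∈ WL, ∃ c ∈ cs, Clq (w.map (wact [u, v]) ++ (sub WL c).flatten) ∧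
      ∀ i ∈ gensL, wact (w.map (wact [u, v]) ++ (sub WL c).flatten) i = i)
    (W : List P) (x : P) (h4 : (∀ y ∈ W, (y : ℕ) < 21) ∧ x ∈ W ∧ wact [u, v] x ∉ W ∧
      ∀ w ∈ WL, ∀ y ∈ W, wact w y ∈ W) :
    (∀ h ∈ HS ρ ([u, v] :: WL), π h = 1 → h = 1) ∧ Nat.card (HS ρ ([u, v] :: WL)) = 2 * n := by
  set g := (([u, v] : List P).map ρ).prod with hg
  have hact : ∀ i, U.act (π g) i = wact [u, v] i := fun i => by rw [hg, S.map_prod, U.act_word]
  have e : HS ρ ([u, v] :: WL) = HS ρ WL ⊔ zpowers g := by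
    rw [HS, HS, zpowers_eq_closure, ← Subgroup.closure_union]
    congr 1
    ext y
    simp only [Set.mem_union, List.mem_cons, Set.mem_ofPred_eq, exists_eq_or_imp,
      Set.mem_singleton_iff, ← hg, eq_comm (a := g)]
    rw [or_assoc, or_comm (a := y = g)]
  have hc : Commute (ρ u) (ρ v) := by
    rw [TT.commute_iff_conj, S.eqv, S.map, U.act_t, huv]
  have hgg : g * g = 1 := by
    simp only [hg, List.map_cons, List.map_nil, List.prod_cons, List.prod_nil, mul_one]
    exact TT.mul_self_of_commute (S.sq u) (S.sq v) hc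
  have hn : ∀ h ∈ HS ρ WL, g * h * g⁻¹ ∈ HS ρ WL := by
    intro h hh
    induction hh using closure_induction with
    | mem x hx =>
      rcases hx with ⟨i, hi, rfl⟩ | ⟨w, hw, rfl⟩
      · rw [S.eqv, hact]
        exact subset_closure (Or.inl ⟨_, lt21_cases h2 hi, rfl⟩)
      · obtain ⟨c, -, h5, h6⟩ := h3 w hw
        have h7 := S.key _ h5 (U.word_eq_one h6)
        rw [List.map_append, List.prod_append, mul_eq_one_iff_eq_inv] at h7
        rw [conj_prod (S.eqv g), show (U.act (π g) : P → P) = wact [u, v] from funext hact, h7]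
        refine inv_mem ?_
        have : ∀ L : List (List P), (∀ r ∈ L, r ∈ WL) → (L.flatten.map ρ).prod ∈ HS ρ WL := by
          intro L hL
          induction L with
          | nil => simp
          | cons a L ih =>
            rw [List.flatten_cons, List.map_append, List.prod_append]
            exact mul_mem (subset_closure (Or.inr ⟨a, hL a List.mem_cons_self, rfl⟩))
              (ih fun r hr => hL r (List.mem_cons_of_mem _ hr))
        exact this _ fun r hr => mem_of_mem_sub hr
    | one => simp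
    | mul x y _ _ hx hy =>
      have := mul_mem hx hy
      rwa [show g * x * g⁻¹ * (g * y * g⁻¹) = g * (x * y) * g⁻¹ by group] at this
    | inv x _ hx =>
      have := inv_mem hx
      rwa [show (g * x * g⁻¹)⁻¹ = g * x⁻¹ * g⁻¹ by group] at this
  have hne : ∀ h ∈ HS ρ WL, π h ≠ π g := fun h hh he => h4.2.2.1 (by
    have := S.preserve (W := {y | y ∈ W}) h4.1 h4.2.2.2 hh x h4.2.1
    rwa [he, hact] at this)
  obtain ⟨h5, h6⟩ := card_sup_zpowers hgg hn fun h => hne g h rfl
  rw [e]
  refine ⟨fun h hh h1 => ?_, by rw [h6, ih.2]⟩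
  rcases (h5 h).1 hh with h7 | h7
  · exact ih.1 h h7 h1
  · exact absurd (by rw [map_mul, h1, one_mul]) (hne _ h7)

theorem Spl.chain [Finite C] (S : Spl U π ρ) : ∃ H : Subgroup C, (∀ h ∈ H, π h = 1 → h = 1) ∧
    Nat.card H = 2 ^ 15 ∧ ∀ h ∈ H, ∀ k : P, (k : ℕ) < 21 → (U.act (π h) k : ℕ) < 21 := by
  have s1 := S.step S.base 430 477 (by decide +kernel) (by decide +kernel)
    [] (by decide +kernel) [5] 5 (by decide +kernel)
  have s2 := S.step s1 430 480 (by decide +kernel) (by decide +kernel)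
    [1] (by decide +kernel) [5, 9] 5 (by decide +kernel)
  have s3 := S.step s2 435 621 (by decide +kernel) (by decide +kernel)
    [1, 2] (by decide +kernel) [5, 6, 9, 10] 5 (by decide +kernel)
  have s4 := S.step s3 435 627 (by decide +kernel) (by decide +kernel)
    [1, 2, 4] (by decide +kernel) [5, 6, 9, 10, 13, 14, 17, 18] 5 (by decide +kernel)
  have s5 := S.step s4 132 217 (by decide +kernel) (by decide +kernel)
    [9, 14, 4, 8] (by decide +kernel) [1] 1 (by decide +kernel)
  have s6 := S.step s5 132 220 (by decide +kernel) (by decide +kernel)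
    [1, 10, 20, 8, 16] (by decide +kernel) [1, 4] 1 (by decide +kernel)
  refine ⟨_, s6.1, s6.2, fun h hh k hk => ?_⟩
  have h1 : ∀ w ∈ ([[132, 220], [132, 217], [435, 627], [435, 621], [430, 480], [430, 477]] : List (List P)), ∀ y ∈ U21, wact w y ∈ U21 := by
    decide +kernel
  exact mem_U21.1 (S.preserve (W := {y | y ∈ U21}) (fun y hy => mem_U21.1 hy) h1 hh k
    (mem_U21.2 hk))

end Chain

end Cfsg.Agent.TT2
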