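import Cfsg.Agent.TT2.Near
import Cfsg.Agent.TT2.U6Cov

/-!
# Components of the commuting graph: counting, generation, fixed points
-/

set_option autoImplicit false

namespace Cfsg.Agent.TT2

open Subgroup

variable {G : Type*} [Group G] {D : Set G} {a b c e g s t u v w x y z : G}

theorem ncard_near [Finite G] (hx : x ∈ D) {k m n : ℕ}
    (hk : {y | y ∈ D ∧ y ≠ x ∧ Commute x y}.ncard = k)
    (hm : ∀ y ∈ D, y ≠ x → Commute x y → {w | w ∈ D ∧ Commute y w ∧ ¬ Commute x w}.ncard = m)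
    (hn : ∀ w ∈ D, Near D x w → ¬ Commute x w →
      {y | y ∈ D ∧ Commute x y ∧ Commute y w}.ncard = n) :
    ∃ r, {y | y ∈ D ∧ Near D x y}.ncard = 1 + k + r ∧ k * m = r * n := by
  classical
  have := Fintype.ofFinite G
  let S : Finset G := Finset.univ.filter fun y => y ∈ D ∧ y ≠ x ∧ Commute x y
  let T : Finset G := Finset.univ.filter fun w => w ∈ D ∧ Near D x w ∧ ¬ Commute x w
  have hS : S.card = k := by rw [← hk, ← Set.ncard_coe_finset]; congr 1; ext; simp [S]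
  refine ⟨T.card, ?_, ?_⟩
  · have e : {y | y ∈ D ∧ Near D x y} = ((insert x S ∪ T : Finset G) : Set G) := by
      ext y
      simp only [S, T, Set.mem_ofPred_eq, Finset.coe_union, Finset.coe_insert, Finset.coe_filter,
        Finset.mem_univ, true_and, Set.mem_union, Set.mem_insert_iff]
      constructor
      · rintro ⟨h1, h2⟩
        by_cases h3 : Commute x y
        · by_cases h4 : y = x
          exacts [Or.inl (Or.inl h4), Or.inl (Or.inr ⟨h1, h4, h3⟩)]
        · exact Or.inr ⟨h1, h2, h3⟩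
      · rintro ((rfl | h) | h)
        exacts [⟨hx, near_refl hx⟩, ⟨h.1, near_of_commute hx h.2.2⟩, ⟨h.1, h.2.1⟩]
    rw [e, Set.ncard_coe_finset, Finset.card_union_of_disjoint, Finset.card_insert_of_notMem
      (by simp [S]), hS, add_comm k]
    rw [Finset.disjoint_left]
    intro y h1 h2
    simp only [S, T, Finset.mem_insert, Finset.mem_filter, Finset.mem_univ, true_and] at h1 h2
    rcases h1 with rfl | h1
    exacts [h2.2.2 (Commute.refl _), h2.2.2 h1.2.2]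
  · rw [← hS]
    refine Finset.card_mul_eq_card_mul (fun y w => Commute y w) (fun y hy => ?_) fun w hw => ?_
    · simp only [S, Finset.mem_filter, Finset.mem_univ, true_and] at hy
      rw [← hm y hy.1 hy.2.1 hy.2.2, ← Set.ncard_coe_finset]
      congr 1; ext w
      simp only [T, Finset.mem_coe, Finset.mem_bipartiteAbove, Finset.mem_filter, Finset.mem_univ,
        true_and, Set.mem_ofPred_eq]
      exact ⟨fun h => ⟨h.1.1, h.2, h.1.2.2⟩, fun h => ⟨⟨h.1, ⟨y, hy.1, hy.2.2, h.2.1⟩, h.2.2⟩, h.2.1⟩⟩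
    · simp only [T, Finset.mem_filter, Finset.mem_univ, true_and] at hw
      rw [← hn w hw.1 hw.2.1 hw.2.2, ← Set.ncard_coe_finset]
      congr 1; ext y
      simp only [S, Finset.mem_coe, Finset.mem_bipartiteBelow, Finset.mem_filter, Finset.mem_univ,
        true_and, Set.mem_ofPred_eq]
      exact ⟨fun h => ⟨h.1.1, h.1.2.2, h.2⟩, fun h => ⟨⟨h.1, fun e => hw.2.2 (e ▸ h.2.2), h.2.1⟩, h.2.2⟩⟩

/-- the stabiliser of a component is generated by the component -/
theorem Lc3.stab_eq (h : Lc3 D) (hx : x ∈ D)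
    (h1 : ∀ e ∈ D, ∀ y ∈ D, ∀ w ∈ D, y ≠ e → w ≠ e → Commute e y → Commute e w →
      ∃ g ∈ closure {a | a ∈ D ∧ Commute e a}, g * y * g⁻¹ = w)
    (h2 : ∀ y ∈ D, Commute x y → ∃ e ∈ D, x ≠ e ∧ y ≠ e ∧ Commute e x ∧ Commute e y)
    (h3 : ∀ g, Commute x g → g ∈ closure {a | a ∈ D ∧ Commute x a}) :
    h.stab hx = closure {y | y ∈ D ∧ Near D x y} := by
  refine le_antisymm (fun g hg => ?_) ((closure_le _).2 fun y hy => h.mem_stab_of_near hx hy.1 hy.2)
  have hy := h.cj g x hx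
  obtain ⟨e, he, e1, e2, e3, e4⟩ : ∃ e ∈ D, x ≠ e ∧ g * x * g⁻¹ ≠ e ∧ Commute e x ∧
      Commute e (g * x * g⁻¹) := by
    by_cases hc : Commute x (g * x * g⁻¹)
    · exact h2 _ hy hc
    · obtain ⟨e, he, e1, e2⟩ := hg
      exact ⟨e, he, fun e' => hc (e' ▸ e2), fun e' => hc (e' ▸ e1), e1.symm, e2⟩
  obtain ⟨k, hk, e5⟩ := h1 e he x hx _ hy e1 e2 e3 e4
  have h4 : k⁻¹ * g ∈ closure {a | a ∈ D ∧ Commute x a} := h3 _ (by
    rw [Commute.symm_iff, TT.commute_iff_conj]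
    calc k⁻¹ * g * x * (k⁻¹ * g)⁻¹ = k⁻¹ * (g * x * g⁻¹) * k := by group
      _ = x := by rw [← e5]; group)
  rw [← mul_inv_cancel_left k g]
  refine mul_mem (Subgroup.closure_mono ?_ hk) (Subgroup.closure_mono ?_ h4)
  exacts [fun a ha => ⟨ha.1, e, he, e3.symm, ha.2⟩, fun a ha => ⟨ha.1, near_of_commute hx ha.2⟩]

theorem Lc3.fix_of_perfect [Finite G] (h : Lc3 D) (hx : x ∈ D)
    (he : h.stab hx = closure {y | y ∈ D ∧ Near D x y})
    (hp : ∀ a ∈ D, a ∈ ⁅centralizer {a}, centralizer {a}⁆)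
    (hc : {y | y ∈ D ∧ Near D x y}.ncard % 4 = 2) (hs : s * s = 1)
    (hn : Near D x (s * x * s⁻¹)) : ∃ y ∈ D, Near D x y ∧ Commute s y := by
  have hper : Group.IsPerfect (h.stab hx) := by
    rw [isPerfect_iff]
    refine le_antisymm ((commutator_le_sup _ _).trans (sup_idem _).le) ?_
    refine he.le.trans ((closure_le _).2 fun y hy => ?_)
    have : centralizer {y} ≤ h.stab hx := fun g hg =>
      h.mem_stab_of_commute hx hy.1 hy.2 (mem_centralizer_singleton_iff.1 hg)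
    exact commutator_mono this this (hp y hy.1)
  let _ : MulAction (h.stab hx) {y | y ∈ D ∧ Near D x y} :=
    { smul := fun g y => ⟨g * y * (g : G)⁻¹, h.cj g y y.2.1, h.stab_near hx g.2 y.2.1 y.2.2⟩
      one_smul := fun y => Subtype.ext (by change 1 * (y : G) * 1⁻¹ = y; simp)
      mul_smul := fun g g' y => Subtype.ext (by
        change (g * g' : G) * y * (g * g' : G)⁻¹ = g * (g' * y * (g' : G)⁻¹) * (g : G)⁻¹; group) }
  obtain ⟨y, hy⟩ := exists_fixed_of_perfect hper (Y := {y | y ∈ D ∧ Near D x y}) hc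
    (g := ⟨s, hn⟩) (Subtype.ext hs)
  exact ⟨y, y.2.1, y.2.2, TT.commute_iff_conj.2 (congrArg Subtype.val hy)⟩

theorem exists_fix_of_odd [Finite G] {W : Set G} (hW : Odd W.ncard) (hs : s * s = 1)
    (h : ∀ w ∈ W, s * w * s⁻¹ ∈ W) : ∃ w ∈ W, Commute s w := by
  classical
  have : Fact (Nat.Prime 2) := ⟨Nat.prime_two⟩
  have := Fintype.ofFinite W
  have hi : Function.Involutive fun w : W => (⟨_, h w w.2⟩ : W) := fun w => Subtype.ext (by
    change s * (s * w * s⁻¹) * s⁻¹ = w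
    rw [TT.inv_of_sq hs, ← mul_assoc, ← mul_assoc, hs, one_mul, mul_assoc, hs, mul_one])
  obtain ⟨w, hw⟩ := Equiv.Perm.exists_fixed_point_of_prime (p := 2) (n := 1) (σ := hi.toPerm) (by
    rw [← Nat.card_eq_fintype_card, Nat.two_dvd_ne_zero, ← Nat.odd_iff]; exact hW)
    (by ext w; simp [pow_two, hi w])
  exact ⟨w, w.2, TT.commute_iff_conj.2 (congrArg Subtype.val hw)⟩

theorem Lc3.fix_of_odd [Finite G] (h : Lc3 D) (hx : x ∈ D)
    (ho : ∀ y ∈ D, Commute x y → x ≠ y →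
      Odd {e | e ∈ D ∧ e ≠ x ∧ e ≠ y ∧ Commute x e ∧ Commute y e}.ncard) (hs : s * s = 1)
    (hn : Near D x (s * x * s⁻¹)) : ∃ y ∈ D, Near D x y ∧ Commute s y := by
  have hy := h.cj s x hx
  have e : s * (s * x * s⁻¹) * s⁻¹ = x := by
    rw [TT.inv_of_sq hs, ← mul_assoc, ← mul_assoc, hs, one_mul, mul_assoc, hs, mul_one]
  generalize e0 : s * x * s⁻¹ = y at hy e hn
  by_cases h1 : x = y
  · exact ⟨x, hx, near_refl hx, TT.commute_iff_conj.2 (e0.trans h1.symm)⟩
  rcases h.loc x hx y hy hn with h2 | h2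
  · obtain ⟨w, hw, hc⟩ := exists_fix_of_odd (ho y hy h2 h1) hs fun w hw =>
      ⟨h.cj s w hw.1, fun e' => hw.2.2.1 ((TT.conj_inj_iff s).1 (e'.trans e.symm)),
        fun e' => hw.2.1 ((TT.conj_inj_iff s).1 (e'.trans e0.symm)),
        e ▸ (TT.commute_conj_iff s).2 hw.2.2.2.2, e0 ▸ (TT.commute_conj_iff s).2 hw.2.2.2.1⟩
    exact ⟨w, hw.1, near_of_commute hx hw.2.2.2.1, hc⟩
  · refine ⟨_, h.cj x y hy, h.stab_near hx (h.mem_stab_of_near hx hx (near_refl hx)) hy hn, ?_⟩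
    rw [TT.commute_iff_conj, TT.inv_of_sq (h.sq x hx)]
    calc s * (x * y * x) * s⁻¹ = s * x * s⁻¹ * (s * y * s⁻¹) * (s * x * s⁻¹) := by group
      _ = _ := by rw [e, e0, TT.braid_of_cube (h.sq x hx) (h.sq y hy) h2]

end Cfsg.Agent.TT2
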