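import Cfsg.Agent.TT.Basic
import Cfsg.Prelude.Def_Transfer

/-!
# Thompson subgroups of Sylow 2-subgroups with a unique large elementary abelian subgroup
-/

set_option autoImplicit false

namespace Cfsg.Agent.TT2

open Subgroup

variable {G : Type*} [Group G] {d : G} {A B S : Subgroup G}

theorem invol_lift (hd : orderOf d = 2) [((zpowers d).subgroupOf (centralizer {d})).Normal]
    (h : ∀ g : G, g * g ≠ d) :
    (∀ x : centralizer {d} ⧸ (zpowers d).subgroupOf (centralizer {d}), orderOf x = 2 →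
      ∃ y : centralizer {d}, orderOf y = 2 ∧ (QuotientGroup.mk y :
        centralizer {d} ⧸ (zpowers d).subgroupOf (centralizer {d})) = x) ∧
      ¬ ∃ g : G, g ^ 2 = d := by
  refine ⟨fun x hx => ?_, fun ⟨g, hg⟩ => h g (by rwa [← pow_two])⟩
  obtain ⟨y, rfl⟩ := QuotientGroup.mk_surjective x
  refine ⟨y, TT.orderOf_eq_two (Subtype.ext ?_) fun e => TT.ne_one_of_orderOf hx (by rw [e]; rfl),
    rfl⟩
  have := TT.mul_self_of_orderOf hx
  rw [← QuotientGroup.mk_mul, QuotientGroup.eq_one_iff, mem_subgroupOf,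
    TT.mem_zpowers_of_sq (TT.mul_self_of_orderOf hd)] at this
  exact this.resolve_right (h y)

theorem commute_of_elem (h : ∀ a ∈ A, a * a = 1) {a b : G} (ha : a ∈ A) (hb : b ∈ A) :
    Commute a b :=
  TT.commute_of_sq (h a ha) (h b hb) (by rw [pow_two]; exact h _ (mul_mem ha hb))

theorem isElem_iff : IsElementaryAbelian 2 A ↔ ∀ a ∈ A, a * a = 1 :=
  ⟨fun h a ha => by rw [← pow_two]; exact h.2 a ha, fun h =>
    ⟨⟨⟨fun a b => Subtype.ext (commute_of_elem h a.2 b.2).eq⟩⟩, fun a ha => by rw [pow_two, h a ha]⟩⟩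

theorem isPGroup_of_elem (h : ∀ a ∈ A, a * a = 1) : IsPGroup 2 A :=
  TT.isPGroup_of_forall fun x hx => ⟨1, by rw [pow_one, pow_two, h x hx]⟩

theorem thompson_eq [Finite G] (hA : A ≤ S) (h2 : ∀ a ∈ A, a * a = 1)
    (hu : ∀ B ≤ S, (∀ b ∈ B, b * b = 1) → Nat.card A ≤ Nat.card B → B = A) :
    thompsonSubgroupOf 2 S = A := by
  have hc : Nat.card (A.subgroupOf S) = Nat.card A :=
    Nat.card_congr (subgroupOfEquivOfLe hA).toEquiv
  have key : ∀ B : Subgroup S, IsElementaryAbelian 2 B → Nat.card A ≤ Nat.card B →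
      B = A.subgroupOf S := fun B hB h => by
    rw [← hu (B.map S.subtype) (map_subtype_le B) (by
      rintro _ ⟨b, hb, rfl⟩
      rw [← map_mul, isElem_iff.1 hB b hb, map_one]) (by rwa [card_subtype]),
      subgroupOf, comap_map_eq_self_of_injective (subtype_injective S)]
  have h1 : IsElementaryAbelian 2 (A.subgroupOf S) :=
    isElem_iff.2 fun a ha => Subtype.ext (h2 a ha)
  have : maxElementaryAbelianSubgroups 2 S = {A.subgroupOf S} := by
    ext B
    refine ⟨fun hB => key B hB.1 (hc ▸ hB.2 _ h1), ?_⟩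
    rintro rfl
    refine ⟨h1, fun B hB => ?_⟩
    by_contra h
    push Not at h
    rw [key B hB (hc ▸ h.le)] at h
    exact h.false
  rw [thompsonSubgroupOf, thompsonSubgroup, this, sSup_singleton, map_subgroupOf_eq_of_le hA]

/-- every 2-subgroup of the centraliser of `d` has at most one elementary abelian subgroup of order
at least `|A|`, and it is conjugate to `A` -/
def UniqE (d : G) (A : Subgroup G) : Prop :=
  ∀ S : Subgroup G, IsPGroup 2 S → (∀ s ∈ S, Commute d s) → ∃ x, Commute d x ∧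
    ∀ B ≤ S, (∀ b ∈ B, b * b = 1) → Nat.card A ≤ Nat.card B → ∀ b, b ∈ B ↔ x * b * x⁻¹ ∈ A

theorem card_of_conj {x : G} (h : ∀ b, b ∈ B ↔ x * b * x⁻¹ ∈ A) : Nat.card B = Nat.card A := by
  have : B = A.comap (MulAut.conj x).toMonoidHom := by ext b; exact h b
  rw [this, comap_equiv_eq_map_symm', card_map_of_injective (MulEquiv.injective _)]

theorem UniqE.norm (h : UniqE d A) (h2 : ∀ a ∈ A, a * a = 1) {y : G} (hy : y ∈ A)
    (hc : IsConj d y) : ∃ n ∈ normalizer (A : Set G), n * y * n⁻¹ = d := by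
  obtain ⟨g, rfl⟩ := isConj_iff.1 hc
  have e : ∀ b, b ∈ A.comap (MulAut.conj g).toMonoidHom ↔ g * b * g⁻¹ ∈ A := fun b => Iff.rfl
  have h3 : ∀ b ∈ A.comap (MulAut.conj g).toMonoidHom, b * b = 1 := fun b hb => by
    simpa [mul_assoc] using TT.conj_mul_self g⁻¹ (h2 _ hb)
  obtain ⟨x, hx, H⟩ := h _ (isPGroup_of_elem h3) fun s hs =>
    (TT.commute_conj_iff g).1 (commute_of_elem h2 hy hs)
  refine ⟨x * g⁻¹, mem_normalizer_iff.2 fun a => ?_, ?_⟩
  · have := H _ le_rfl h3 (card_of_conj e).ge (g⁻¹ * a * g)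
    rw [e] at this
    simpa [mul_assoc] using this
  · calc _ = x * d * x⁻¹ := by group
      _ = d := TT.commute_iff_conj.1 hx.symm

theorem UniqE.thompson [Finite G] (h : UniqE d A) (h2 : ∀ a ∈ A, a * a = 1) (hd : d ∈ A)
    (S : Sylow 2 (centralizer ({d} : Set G))) : ∃ x, Commute d x ∧
      (∀ b, b ∈ (thompsonSubgroupOf 2 (S : Subgroup (centralizer ({d} : Set G)))).map
        (centralizer {d}).subtype ↔ x * b * x⁻¹ ∈ A) ∧ ∀ B ≤ (S : Subgroup _).map (centralizer {d}).subtype,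
        (∀ b ∈ B, b * b = 1) → Nat.card A ≤ Nat.card B → ∀ b, b ∈ B ↔ x * b * x⁻¹ ∈ A := by
  have : Fact (Nat.Prime 2) := ⟨Nat.prime_two⟩
  have hAC : A ≤ centralizer {d} := fun a ha =>
    mem_centralizer_singleton_iff.2 (commute_of_elem h2 ha hd)
  obtain ⟨x, hx, H⟩ := h ((S : Subgroup _).map (centralizer {d}).subtype) (S.2.map _) (by
    rintro _ ⟨s, -, rfl⟩; exact (mem_centralizer_singleton_iff.1 s.2).symm)
  refine ⟨x, hx, ?_, H⟩
  obtain ⟨Q, hQ⟩ := (isPGroup_of_elem (A := A.subgroupOf (centralizer {d}))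
    fun a ha => Subtype.ext (h2 a ha)).exists_le_sylow
  obtain ⟨c, rfl⟩ := MulAction.exists_smul_eq (centralizer ({d} : Set G)) S Q
  let A' := (A.subgroupOf (centralizer {d})).comap (MulAut.conj c).toMonoidHom
  have e1 : Nat.card A' = Nat.card A := (card_of_conj fun b => Iff.rfl).trans
    (Nat.card_congr (subgroupOfEquivOfLe hAC).toEquiv)
  have e2 : A' ≤ S := fun b hb => by
    have := hQ hb
    rw [Sylow.coe_subgroup_smul, mem_pointwise_smul_iff_inv_smul_mem] at this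
    simpa [mul_assoc] using this
  have e3 : ∀ b ∈ A', b * b = 1 := fun b hb => by
    simpa [mul_assoc] using TT.conj_mul_self c⁻¹ (Subtype.ext (h2 _ hb) : c * b * c⁻¹ * (c * b * c⁻¹) = 1)
  have key : ∀ B ≤ (S : Subgroup _), (∀ b ∈ B, b * b = 1) → Nat.card A' ≤ Nat.card B →
      ∀ b, b ∈ B.map (centralizer {d}).subtype ↔ x * b * x⁻¹ ∈ A := fun B hB h3 h4 =>
    H _ (map_mono hB) (by rintro _ ⟨b, hb, rfl⟩; rw [← map_mul, h3 b hb, map_one])
      (by rwa [card_subtype, ← e1])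
  rw [thompson_eq e2 e3 fun B hB h3 h4 => map_injective (subtype_injective _) (Subgroup.ext fun b =>
    (key B hB h3 h4 b).trans (key A' e2 e3 le_rfl b).symm)]
  exact key A' e2 e3 le_rfl

theorem UniqE.main [Finite G] (h : UniqE d A) (h2 : ∀ a ∈ A, a * a = 1) (hd : d ∈ A)
    (S : Sylow 2 (centralizer ({d} : Set G))) (hB : B = (thompsonSubgroupOf 2
      (S : Subgroup (centralizer ({d} : Set G)))).map (centralizer {d}).subtype) :
    IsElementaryAbelian 2 B ∧ Nat.card B = Nat.card A ∧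
      {x | x ∈ B ∧ IsConj d x}.ncard = {x | x ∈ A ∧ IsConj d x}.ncard ∧
      ∀ x ∈ B, ∀ y ∈ B, IsConj d x → IsConj d y →
        ∃ n ∈ normalizer (B : Set G), n * x * n⁻¹ = y := by
  obtain ⟨k, -, H, -⟩ := h.thompson h2 hd S
  rw [← hB] at H
  have hc : ∀ x, IsConj d (k * x * k⁻¹) ↔ IsConj d x := fun x =>
    ⟨fun h => h.trans (isConj_iff.2 ⟨k, rfl⟩).symm, fun h => h.trans (isConj_iff.2 ⟨k, rfl⟩)⟩
  refine ⟨isElem_iff.2 fun b hb => by simpa [mul_assoc] using TT.conj_mul_self k⁻¹ (h2 _ ((H b).1 hb)),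
    card_of_conj H, ?_, fun x hx y hy h3 h4 => ?_⟩
  · rw [← Set.ncard_preimage_of_injective_subset_range (MulAut.conj k).injective
      (s := {x | x ∈ A ∧ IsConj d x}) (by simp)]
    congr 1; ext x
    simp only [Set.mem_ofPred_eq, Set.mem_preimage, MulAut.conj_apply, H, hc]
  · obtain ⟨n, hn, e⟩ := h.norm h2 ((H x).1 hx) ((hc x).2 h3)
    obtain ⟨n', hn', e'⟩ := h.norm h2 ((H y).1 hy) ((hc y).2 h4)
    refine ⟨k⁻¹ * (n'⁻¹ * n) * k, mem_normalizer_iff.2 fun a => ?_, ?_⟩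
    · rw [H, H, mem_normalizer_iff.1 (mul_mem (inv_mem hn') hn)]
      simp [mul_assoc]
    · calc _ = k⁻¹ * n'⁻¹ * (n * (k * x * k⁻¹) * n⁻¹) * n' * k := by group
        _ = _ := by rw [e, ← e']; group

end Cfsg.Agent.TT2
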