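import Cfsg.Agent.TT2.U6Dbl

/-!
# Involutions whose centraliser is a perfect double cover of `PSU₆(2)`
-/

set_option autoImplicit false
set_option maxRecDepth 100000

namespace Cfsg.Agent.TT2

open Subgroup

universe u

variable {G : Type u} [Group G] {d g : G} {τ : P → G}

/-- The centraliser of `d` is a perfect double cover of `PSU₆(2)`, and `τ` are the canonical lifts of
the transvections. -/
def Dbl (d : G) (τ : P → G) : Prop :=
  ∃ (C : Type u) (X : Type) (_ : Group C) (_ : Group X) (t : P → X) (U : U6 t) (π : C →* X) (z : C)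
    (σ : P → C) (ι : C →* G), Lift U π z σ ∧ Group.IsPerfect C ∧ Function.Injective ι ∧ d = ι z ∧
      (τ = fun i => ι (σ i)) ∧ ∀ g, Commute d g → ∃ c, ι c = g

theorem map_prod_comp {C : Type*} [Group C] (ι : C →* G) (σ : P → C) (w : List P) :
    (w.map fun i => ι (σ i)).prod = ι (w.map σ).prod := by
  rw [map_list_prod, List.map_map]; rfl

theorem map_closure_comp {C : Type*} [Group C] (ι : C →* G) (σ : P → C) (S : Set P) :
    closure ((fun i => ι (σ i)) '' S) = (closure (σ '' S)).map ι := by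
  rw [MonoidHom.map_closure, Set.image_image]

theorem cov_cent (hd : orderOf d = 2) [((zpowers d).subgroupOf (centralizer {d})).Normal]
    {X : Type*} [Group X] (e : centralizer {d} ⧸ (zpowers d).subgroupOf (centralizer {d}) ≃* X) :
    Cov (e.toMonoidHom.comp (QuotientGroup.mk' _))
      (⟨d, mem_centralizer_singleton_iff.2 rfl⟩ : centralizer {d}) := by
  have h2 := TT.mul_self_of_orderOf hd
  refine ⟨e.surjective.comp (QuotientGroup.mk'_surjective _), fun c => ?_, Subtype.ext h2,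
    fun h => TT.ne_one_of_orderOf hd (congrArg Subtype.val h),
    fun c => Subtype.ext (mem_centralizer_singleton_iff.1 c.2).symm⟩
  rw [Subtype.ext_iff, Subtype.ext_iff]
  exact e.map_eq_one_iff.trans ((QuotientGroup.eq_one_iff c).trans (TT.mem_zpowers_of_sq h2))

theorem exists_Dbl (hd : orderOf d = 2) (hq : Group.IsPerfect (centralizer {d}))
    [((zpowers d).subgroupOf (centralizer {d})).Normal] {K : Type} [Field K] [Fintype K]
    (hK : Fintype.card K = 4)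
    (e : centralizer {d} ⧸ (zpowers d).subgroupOf (centralizer {d}) ≃* Cfsg.PSU 6 K 2) :
    ∃ τ, Dbl d τ := by
  obtain ⟨t, U⟩ := exists_U6 hK
  obtain ⟨σ, L⟩ := exists_Lift U (cov_cent hd e)
  exact ⟨_, _, _, _, _, t, U, _, _, σ, (centralizer {d}).subtype, L, hq, subtype_injective _, rfl, rfl,
    fun g hg => ⟨⟨g, mem_centralizer_singleton_iff.2 hg.symm⟩, rfl⟩⟩

theorem Dbl.conj (h : Dbl d τ) (g : G) : Dbl (g * d * g⁻¹) fun i => g * τ i * g⁻¹ := by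
  obtain ⟨C, X, _, _, t, U, π, z, σ, ι, L, hp, hι, rfl, rfl, hC⟩ := h
  refine ⟨C, X, _, _, t, U, π, z, σ, (MulAut.conj g).toMonoidHom.comp ι, L, hp,
    (MulAut.conj g).injective.comp hι, rfl, rfl, fun k hk => ?_⟩
  obtain ⟨c, hc⟩ := hC (g⁻¹ * k * g) ((TT.commute_conj_iff g).1 (by simpa [mul_assoc] using hk))
  exact ⟨c, by simp [hc, mul_assoc]⟩

theorem Dbl.rep (h : Dbl d τ) : Rep τ := by
  obtain ⟨C, X, _, _, t, U, π, z, σ, ι, L, hp, hι, rfl, rfl, hC⟩ := h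
  exact ⟨hι.comp L.rep.inj, fun i => by rw [← map_mul, L.sq, map_one],
    fun i j => by rw [← map_mul, ← map_mul, L.rep.conj]⟩

theorem Dbl.dd (h : Dbl d τ) : d * d = 1 := by
  obtain ⟨C, X, _, _, t, U, π, z, σ, ι, L, hp, hι, rfl, rfl, hC⟩ := h
  rw [← map_mul, L.zz, map_one]

theorem Dbl.dne (h : Dbl d τ) : d ≠ 1 := by
  obtain ⟨C, X, _, _, t, U, π, z, σ, ι, L, hp, hι, rfl, rfl, hC⟩ := h
  exact fun e => L.zne (hι (by rw [e, map_one]))

theorem Dbl.comm (h : Dbl d τ) (i : P) : Commute d (τ i) := by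
  obtain ⟨C, X, _, _, t, U, π, z, σ, ι, L, hp, hι, rfl, rfl, hC⟩ := h
  exact (L.comm _).map ι

theorem Dbl.line (h : Dbl d τ) : (([0, 1, 2, 3, 4] : List P).map τ).prod = d := by
  obtain ⟨C, X, _, _, t, U, π, z, σ, ι, L, hp, hι, rfl, rfl, hC⟩ := h
  rw [map_prod_comp, L.line]

theorem Dbl.hyp (h : Dbl d τ) : ∃ r ∈ hypL, (r.map τ).prod = d := by
  obtain ⟨C, X, _, _, t, U, π, z, σ, ι, L, hp, hι, rfl, rfl, hC⟩ := h
  obtain ⟨r, hr, e⟩ := L.exists_hyp hp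
  exact ⟨r, hr, by rw [map_prod_comp, e]⟩

theorem Dbl.gen (h : Dbl d τ) (hg : Commute d g) : g ∈ closure (τ '' Set.univ) := by
  obtain ⟨C, X, _, _, t, U, π, z, σ, ι, L, hp, hι, rfl, rfl, hC⟩ := h
  obtain ⟨c, rfl⟩ := hC g hg
  rw [map_closure_comp, Set.image_univ, L.gen]
  exact mem_map_of_mem _ trivial

theorem Dbl.sq_ne (h : Dbl d τ) (g : G) : g * g ≠ d := by
  obtain ⟨C, X, _, _, t, U, π, z, σ, ι, L, hp, hι, rfl, rfl, hC⟩ := h
  intro e
  obtain ⟨c, rfl⟩ := hC g (e ▸ (Commute.refl g).mul_left (Commute.refl g))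
  exact L.sq_ne c (hι (by rw [map_mul, e]))

theorem Dbl.invol (h : Dbl d τ) (hg : Commute d g) (h2 : g * g = 1) :
    ∃ x, Commute d x ∧ x * g * x⁻¹ ∈ Apl τ := by
  obtain ⟨C, X, _, _, t, U, π, z, σ, ι, L, hp, hι, rfl, rfl, hC⟩ := h
  obtain ⟨c, rfl⟩ := hC g hg
  obtain ⟨x, hx⟩ := L.exists_conj_Apl (c := c) (Or.inl (hι (by rw [map_mul, h2, map_one])))
  refine ⟨ι x, (L.comm x).map ι, ?_⟩
  rw [Apl, map_closure_comp, ← map_inv, ← map_mul, ← map_mul]
  exact mem_map_of_mem _ hx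

theorem Dbl.word (h : Dbl d τ) : ∃ (X : Type) (_ : Group X) (t : P → X) (_ : U6 t),
    ∀ w w' : List P, (w.map t).prod = (w'.map t).prod ↔
      (w.map τ).prod = (w'.map τ).prod ∨ (w.map τ).prod = d * (w'.map τ).prod := by
  obtain ⟨C, X, _, _, t, U, π, z, σ, ι, L, hp, hι, rfl, rfl, hC⟩ := h
  refine ⟨X, _, t, U, fun w w' => ?_⟩
  rw [← L.map_prod, ← L.map_prod, L.eq_iff, map_prod_comp, map_prod_comp, ← map_mul, hι.eq_iff,
    hι.eq_iff]

theorem Dbl.card_Apl (h : Dbl d τ) : Nat.card (Apl τ) = 1024 := by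
  obtain ⟨C, X, _, _, t, U, π, z, σ, ι, L, hp, hι, rfl, rfl, hC⟩ := h
  rw [Apl, map_closure_comp, card_map_of_injective hι]
  exact L.card_Apl

theorem Dbl.card (h : Dbl d τ) : Nat.card (centralizer {d}) = 2 * 9196830720 := by
  obtain ⟨C, X, _, _, t, U, π, z, σ, ι, L, hp, hι, rfl, rfl, hC⟩ := h
  have : centralizer {ι z} = (⊤ : Subgroup C).map ι := by
    ext g
    rw [mem_centralizer_singleton_iff]
    exact ⟨fun hg => let ⟨c, hc⟩ := hC g (Commute.symm hg); ⟨c, trivial, hc⟩,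
      by rintro ⟨c, -, rfl⟩; exact ((L.comm c).map ι).symm⟩
  rw [this, card_map_of_injective hι, card_top, L.card, U.card]

theorem Dbl.perf (h : Dbl d τ) : d ∈ ⁅centralizer {d}, centralizer {d}⁆ := by
  obtain ⟨C, X, _, _, t, U, π, z, σ, ι, L, hp, hι, rfl, rfl, hC⟩ := h
  have h1 : (⊤ : Subgroup C).map ι ≤ centralizer {ι z} := by
    rintro _ ⟨c, -, rfl⟩; exact mem_centralizer_singleton_iff.2 ((L.comm c).map ι).symm
  refine commutator_mono h1 h1 ?_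
  rw [← map_commutator]
  exact mem_map_of_mem _ (hp.mem_commutator (g := z))

theorem Dbl.center (h : Dbl d τ) (hg : Commute d g) (h2 : ∀ i, Commute g (τ i)) : g = 1 ∨ g = d := by
  obtain ⟨C, X, _, _, t, U, π, z, σ, ι, L, hp, hι, rfl, rfl, hC⟩ := h
  obtain ⟨c, rfl⟩ := hC g hg
  rcases (L.ker c).1 (U.eq_one fun i _ => L.act_eq_iff.2 ((h2 i).of_map hι)) with rfl | rfl
  exacts [Or.inl (map_one ι), Or.inr rfl]

theorem Dbl.syl (h : Dbl d τ) {S : Subgroup G} (hS : IsPGroup 2 S) (hd : ∀ s ∈ S, Commute d s) :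
    ∃ x, Commute d x ∧ ∀ B ≤ S, (∀ b ∈ B, b * b = 1) → 1024 ≤ Nat.card B →
      ∀ b, b ∈ B ↔ x * b * x⁻¹ ∈ Apl τ := by
  obtain ⟨C, X, _, _, t, U, π, z, σ, ι, L, hp, hι, rfl, rfl, hC⟩ := h
  obtain ⟨x, hx⟩ := L.sylow (hS.comap_of_injective ι hι)
  refine ⟨ι x, (L.comm x).map ι, fun B hB h1 h2 b => ?_⟩
  have e := L.eq_Apl (B := (B.comap ι).map (MulAut.conj x).toMonoidHom) (by
    rintro _ ⟨c, hc, rfl⟩
    rw [← map_mul, show c * c = 1 from hι (by rw [map_mul, h1 _ hc, map_one]), map_one]) (by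
    rw [card_map_of_injective (MulAut.conj x).injective, ← card_map_of_injective hι,
      map_comap_eq_self fun b hb => hC b (hd b (hB hb))]
    exact h2) (by
    rintro _ ⟨c, hc, rfl⟩
    exact hx c (hB hc))
  rw [Apl, map_closure_comp]
  change _ ↔ _ ∈ (Apl σ).map ι
  rw [← e]
  constructor
  · intro hb
    obtain ⟨c, rfl⟩ := hC b (hd b (hB hb))
    exact ⟨_, ⟨c, hb, rfl⟩, by simp⟩
  · rintro ⟨_, ⟨c, hc, rfl⟩, e⟩
    have : ι c = b := by simpa using e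
    exact this ▸ hc

/-! ### Consequences -/

theorem Dbl.comm_gen (h : Dbl d τ) {S : Set P} (hg : g ∈ closure (τ '' S)) : Commute d g := by
  obtain ⟨w, -, rfl⟩ := exists_list_of_mem_closure h.rep.sq hg
  refine Commute.list_prod_right _ _ fun x hx => ?_
  obtain ⟨i, -, rfl⟩ := List.mem_map.1 hx
  exact h.comm i

theorem Dbl.conj' (h : Dbl d τ) (hg : Commute d g) : Dbl d fun i => g * τ i * g⁻¹ := by
  have := h.conj g
  rwa [TT.commute_iff_conj.1 hg.symm] at this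

theorem Dbl.comp (h : Dbl d τ) {σ : Equiv.Perm P} (hσ : σ ∈ TG Set.univ) : Dbl d (τ ∘ σ) := by
  obtain ⟨g, hg, e⟩ := h.rep.lift hσ
  have := h.conj' (h.comm_gen hg)
  rwa [funext e] at this

theorem Dbl.act (h : Dbl d τ) (hg : Commute d g) :
    ∃ σ ∈ TG Set.univ, ∀ j, g * τ j * g⁻¹ = τ (σ j) := by
  obtain ⟨w, -, rfl⟩ := exists_list_of_mem_closure h.rep.sq (h.gen hg)
  exact ⟨wp w, wp_mem fun _ _ => trivial, fun j => by rw [h.rep.conj_word, wp_apply]⟩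

theorem Dbl.d_mem (h : Dbl d τ) : d ∈ Apl τ :=
  h.line ▸ prod_mem_closure (S := {k | (k : ℕ) < 21})
    (show ∀ i ∈ ([0, 1, 2, 3, 4] : List P), (i : ℕ) < 21 by decide)

theorem Dbl.ne (h : Dbl d τ) (i : P) : τ i ≠ d := fun e => by
  obtain ⟨j, hj⟩ := exists_not_perp i
  exact hj (h.rep.commute_iff.1 (e ▸ h.comm j))

theorem Dbl.mul_ne (h : Dbl d τ) (i j : P) : d * τ i ≠ τ j := fun e => by
  obtain ⟨X, _, t, U, H⟩ := h.word
  have : j = i := U.inj (by simpa using (H [j] [i]).2 (Or.inr (by simpa using e.symm)))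
  exact h.dne (by simpa [this] using e)

theorem Dbl.xm_eq (h : Dbl d τ) {w w' : List P} (hw : ∀ i ∈ w, (i : ℕ) < 21)
    (hw' : ∀ i ∈ w', (i : ℕ) < 21) : xm w = xm w' ↔
      (w.map τ).prod = (w'.map τ).prod ∨ (w.map τ).prod = d * (w'.map τ).prod := by
  obtain ⟨X, _, t, U, H⟩ := h.word
  rw [← H, U.prod_eq_iff hw hw']

theorem Dbl.mem_Apl_iff (h : Dbl d τ) {k : P} : τ k ∈ Apl τ ↔ (k : ℕ) < 21 :=
  ⟨fun hk => lt21 (h.rep.commute_iff.1 (h.rep.Apl_comm (mem_Apl (by decide)) hk))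
    (h.rep.commute_iff.1 (h.rep.Apl_comm (mem_Apl (by decide)) hk))
    (h.rep.commute_iff.1 (h.rep.Apl_comm (mem_Apl (by decide)) hk)), mem_Apl⟩

/-- the six types of involutions in the centraliser -/
theorem Dbl.classes (h : Dbl d τ) (hg : Commute d g) (h2 : g * g = 1) :
    ∃ x, Commute d x ∧ ∃ w ∈ ([[], [0], [0, 1], [0, 1, 5]] : List (List P)),
      x * g * x⁻¹ = (w.map τ).prod ∨ x * g * x⁻¹ = d * (w.map τ).prod := by
  obtain ⟨x, hx, h3⟩ := h.invol hg h2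
  obtain ⟨w, hw, e⟩ := exists_list_of_mem_closure h.rep.sq h3
  obtain ⟨X, _, t, U, H⟩ := h.word
  obtain ⟨σ, hσ, w', hw', e'⟩ : ∃ σ ∈ TG Set.univ,
      ∃ w' ∈ ([[], [0], [0, 1], [0, 1, 5]] : List (List P)),
        (w.map t).prod = ((w'.map σ).map t).prod := by
    rcases U.cases_Apl (prod_mem_closure (S := {k | (k : ℕ) < 21}) hw) with
      e' | ⟨i, -, e'⟩ | ⟨i, j, hi, hj, hne, e'⟩ | ⟨i, j, k, -, -, -, hT, e'⟩
    · exact ⟨1, one_mem _, [], by simp, e'⟩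
    · obtain ⟨σ, hσ, rfl⟩ := trans0 i
      exact ⟨σ, hσ, [0], by simp, by simpa using e'⟩
    · obtain ⟨σ, hσ, rfl, rfl⟩ := pair_trans (perp_of_lt hi hj) hne
      exact ⟨σ, hσ, [0, 1], by simp, by simpa using e'⟩
    · obtain ⟨σ, hσ, rfl, rfl, rfl⟩ := tri_trans hT
      exact ⟨σ, hσ, [0, 1, 5], by simp, by simpa using e'⟩
  obtain ⟨y, hy, hy'⟩ := h.rep.lift hσ
  have hc := h.comm_gen hy
  refine ⟨y⁻¹ * x, hc.inv_right.mul_right hx, w', hw', ?_⟩
  rw [H, e, ← conj_prod hy'] at e'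
  rcases e' with e' | e'
  · exact Or.inl (by
      calc _ = y⁻¹ * (x * g * x⁻¹) * y := by group
        _ = _ := by rw [e']; group)
  · exact Or.inr (by
      calc _ = y⁻¹ * (x * g * x⁻¹) * y := by group
        _ = y⁻¹ * (d * y) * (w'.map τ).prod := by rw [e']; group
        _ = _ := by rw [hc.eq]; group)

theorem Dbl.sq_mul (h : Dbl d τ) {i j : P} (hp : perp i j) : ∃ u, u * u = τ i * τ j := by
  by_cases hne : i = j
  · exact ⟨1, by rw [hne, h.rep.sq, mul_one]⟩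
  obtain ⟨σ, hσ, rfl, rfl⟩ := pair_trans hp hne
  obtain ⟨u, -, e⟩ := (h.comp hσ).rep.sq_01
  exact ⟨u, e⟩

theorem Dbl.sq_d01 (h : Dbl d τ) : ∃ u, u * u = d * (τ 0 * τ 1) := by
  obtain ⟨r, hr, e⟩ := h.hyp
  obtain ⟨w, hw, v, h1, h2⟩ : ∃ w : List P, Clq w ∧ ∃ v : List P,
      (∀ i ∈ v.map (wact w) ++ v, (i : ℕ) < 21) ∧ xl (v.map (wact w) ++ v) = xl (r ++ [0, 1]) := by
    simp only [hypL, List.mem_cons, List.not_mem_nil, or_false] at hr
    rcases hr with rfl | rfl | rfl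
    · exact ⟨[525, 573, 22, 23], by decide +kernel, [5, 18], by decide +kernel⟩
    · exact ⟨[531, 579, 406, 380], by decide +kernel, [5, 14], by decide +kernel⟩
    · exact ⟨[396, 374, 150, 261], by decide +kernel, [5, 16], by decide +kernel⟩
  refine ⟨_, (h.rep.isSq_word hw v).trans ?_⟩
  rw [prod_eq_of_xl h.rep.comm21 h.rep.sq h1
    ((by decide : ∀ r ∈ hypL, ∀ i : P, i ∈ r ++ [0, 1] → (i : ℕ) < 21) r hr) h2, List.map_append,
    List.prod_append, e]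
  simp

theorem Dbl.sq_dmul (h : Dbl d τ) {i j : P} (hp : perp i j) (hne : i ≠ j) :
    ∃ u, u * u = d * (τ i * τ j) := by
  obtain ⟨σ, hσ, rfl, rfl⟩ := pair_trans hp hne
  exact (h.comp hσ).sq_d01

theorem Dbl.conj_d015 (h : Dbl d τ) : ∃ x, Commute d x ∧
    x * (τ 0 * (τ 1 * τ 5)) * x⁻¹ = d * (τ 0 * (τ 1 * τ 5)) := by
  obtain ⟨r, hr, e⟩ := h.hyp
  obtain ⟨w, h1, h2⟩ : ∃ w : List P, (∀ i ∈ List.map (wact w) [0, 1, 5], (i : ℕ) < 21) ∧
      xl (List.map (wact w) [0, 1, 5]) = xl (r ++ [0, 1, 5]) := by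
    simp only [hypL, List.mem_cons, List.not_mem_nil, or_false] at hr
    rcases hr with rfl | rfl | rfl
    · exact ⟨[127, 45, 545, 27], by decide +kernel⟩
    · exact ⟨[181, 21, 661, 421], by decide +kernel⟩
    · exact ⟨[184, 21, 428, 421], by decide +kernel⟩
  refine ⟨(w.map τ).prod, h.comm_gen (prod_mem_closure (S := Set.univ) fun _ _ => trivial), ?_⟩
  have := conj_prod (h.rep.conj_word w) [0, 1, 5]
  rw [prod_eq_of_xl h.rep.comm21 h.rep.sq h1
    ((by decide : ∀ r ∈ hypL, ∀ i : P, i ∈ r ++ [0, 1, 5] → (i : ℕ) < 21) r hr) h2, List.map_append,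
    List.prod_append, e] at this
  simpa using this

theorem nsq_of_isConj {y : G} (h : ∀ g, g * g ≠ d) (hy : IsConj d y) (u : G) : u * u ≠ y := by
  obtain ⟨c, rfl⟩ := isConj_iff.1 hy
  exact fun e => h (c⁻¹ * u * c) (by
    calc _ = c⁻¹ * (u * u) * c := by group
      _ = d := by rw [e]; group)

theorem isConj_conj {y : G} (hy : IsConj d y) (x : G) : IsConj d (x * y * x⁻¹) :=
  hy.trans (isConj_iff.2 ⟨x, rfl⟩)

theorem Dbl.cases1 (h : Dbl d τ) {y : G} (hy : IsConj d y) (hc : Commute d y) :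
    y = d ∨ (∃ i, τ i = y) ∨ ∃ x, Commute d x ∧ x * y * x⁻¹ = τ 0 * (τ 1 * τ 5) := by
  have hn := fun x => nsq_of_isConj h.sq_ne (isConj_conj hy x)
  obtain ⟨x, hx, w, hw, e⟩ := h.classes hc (by
    obtain ⟨c, rfl⟩ := isConj_iff.1 hy
    exact TT.conj_mul_self c h.dd)
  simp only [List.mem_cons, List.not_mem_nil, or_false] at hw
  rcases hw with rfl | rfl | rfl | rfl <;> rcases e with e | e <;>
    simp only [List.map_cons, List.map_nil, List.prod_cons, List.prod_nil, mul_one] at e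
  · exact absurd (by rw [e, mul_one]) (hn x 1)
  · exact Or.inl ((TT.conj_inj_iff x).1 (e.trans (TT.commute_iff_conj.1 hx.symm).symm))
  · obtain ⟨σ, -, e'⟩ := h.act hx.inv_right
    exact Or.inr (Or.inl ⟨σ 0, by rw [← e', ← e]; group⟩)
  · obtain ⟨u, -, e'⟩ := h.rep.sq_z0 h.line
    exact absurd (e'.trans e.symm) (hn x u)
  · obtain ⟨u, -, e'⟩ := h.rep.sq_01
    exact absurd (e'.trans e.symm) (hn x u)
  · obtain ⟨u, e'⟩ := h.sq_d01
    exact absurd (e'.trans e.symm) (hn x u)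
  · exact Or.inr (Or.inr ⟨x, hx, e⟩)
  · obtain ⟨x', hx', e'⟩ := h.conj_d015
    refine Or.inr (Or.inr ⟨x'⁻¹ * x, hx'.inv_right.mul_right hx, ?_⟩)
    calc _ = x'⁻¹ * (x * y * x⁻¹) * x' := by group
      _ = _ := by rw [e, ← e']; group

theorem Dbl.not_tri (h : Dbl d τ) : ¬ IsConj d (τ 0 * (τ 1 * τ 5)) := by
  intro h0
  have hd0 : IsConj d (d * (τ 0 * (τ 1 * τ 5))) := by
    obtain ⟨x, -, e⟩ := h.conj_d015
    exact e ▸ isConj_conj h0 x
  obtain ⟨σ, hσ, e0, e1, e6⟩ := tri_trans (i := 0) (j := 1) (k := 6)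
    ⟨by decide +kernel, by decide +kernel, by decide +kernel, by decide, by rw [col01]; decide⟩
  obtain ⟨k, hk, hk'⟩ := h.rep.lift hσ
  have e : k * (τ 0 * (τ 1 * τ 5)) * k⁻¹ = τ 0 * (τ 1 * τ 6) := by
    simpa [e0, e1, e6] using conj_prod hk' [0, 1, 5]
  have h1 : IsConj d (τ 0 * (τ 1 * τ 6)) := e ▸ isConj_conj h0 k
  have h2 : IsConj d (d * (τ 0 * (τ 1 * τ 6))) := by
    have := isConj_conj hd0 k
    rwa [← mul_assoc, ← (h.comm_gen hk).eq, mul_assoc d, mul_assoc d, e] at this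
  obtain ⟨g, hg⟩ := isConj_iff.1 h0.symm
  have key : ∀ y, IsConj d y → Commute (τ 0 * (τ 1 * τ 5)) y → y ≠ τ 0 * (τ 1 * τ 5) →
      (∃ u, u * u = τ 0 * (τ 1 * τ 5) * y) → ∃ i, τ i = g * y * g⁻¹ := by
    rintro y hy hc hne ⟨u, hu⟩
    have hc' : Commute d (g * y * g⁻¹) := hg ▸ (TT.commute_conj_iff g).2 hc
    rcases h.cases1 (isConj_conj hy g) hc' with e | e | ⟨x, hx, e⟩
    · exact absurd ((TT.conj_inj_iff g).1 (e.trans hg.symm)) hne
    · exact e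
    · refine absurd ?_ (nsq_of_isConj h.sq_ne hd0 (x * g * u * (x * g)⁻¹))
      calc _ = x * (g * (u * u) * g⁻¹) * x⁻¹ := by group
        _ = x * d * x⁻¹ * (x * (g * y * g⁻¹) * x⁻¹) := by rw [hu, ← hg]; group
        _ = _ := by rw [e, TT.commute_iff_conj.1 hx.symm]
  have hA : ∀ w : List P, (∀ i ∈ w, (i : ℕ) < 21) → (w.map τ).prod ∈ Apl τ := fun w hw =>
    prod_mem_closure (S := {k | (k : ℕ) < 21}) hw
  have a5 : τ 0 * (τ 1 * τ 5) ∈ Apl τ := by simpa using hA [0, 1, 5] (by decide)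
  have a6 : τ 0 * (τ 1 * τ 6) ∈ Apl τ := by simpa using hA [0, 1, 6] (by decide)
  have e56 : τ 0 * (τ 1 * τ 5) * (τ 0 * (τ 1 * τ 6)) = τ 5 * τ 6 := by
    simpa [mul_assoc] using prod_eq_of_xl h.rep.comm21 h.rep.sq (L := [0, 1, 5, 0, 1, 6]) (L' := [5, 6])
      (by decide) (by decide) (by decide +kernel)
  obtain ⟨i, hi⟩ := key _ h1 (h.rep.Apl_comm a5 a6)
    (fun e => absurd (h.rep.inj (by simpa using e : τ 6 = τ 5)) (by decide))
    (e56 ▸ h.sq_mul (by decide +kernel))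
  obtain ⟨j, hj⟩ := key _ h2 (h.rep.Apl_comm a5 (mul_mem h.d_mem a6)) (fun e => h.mul_ne 6 5 (by
    rw [← mul_assoc, (h.comm 0).eq, mul_assoc, ← mul_assoc d, (h.comm 1).eq, mul_assoc] at e
    simpa using e)) (by
    rw [← mul_assoc, ← (h.rep.Apl_comm h.d_mem a5).eq, mul_assoc, e56]
    exact h.sq_dmul (by decide +kernel) (by decide))
  obtain ⟨u, hu⟩ := h.sq_mul (h.rep.commute_iff.1 (show Commute (τ j) (τ i) by
    rw [hi, hj]; exact (TT.commute_conj_iff g).2 (h.rep.Apl_comm (mul_mem h.d_mem a6) a6)))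
  refine nsq_of_isConj h.sq_ne (isConj_conj (IsConj.refl d) g) u ?_
  rw [hu, hi, hj]
  calc _ = g * (d * (τ 0 * (τ 1 * τ 6) * (τ 0 * (τ 1 * τ 6)))) * g⁻¹ := by group
    _ = _ := by rw [h.rep.Apl_sq a6, mul_one]

theorem Dbl.cases (h : Dbl d τ) {y : G} (hy : IsConj d y) (hc : Commute d y) :
    y = d ∨ ∃ i, τ i = y := by
  rcases h.cases1 hy hc with e | e | ⟨x, -, e⟩
  exacts [Or.inl e, Or.inr e, absurd (e ▸ isConj_conj hy x) h.not_tri]

theorem Dbl.isConj (h : Dbl d τ) (hn : ∃ g, Commute d (g * d * g⁻¹) ∧ g * d * g⁻¹ ≠ d) (i : P) :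
    IsConj d (τ i) := by
  obtain ⟨g, h1, h2⟩ := hn
  obtain ⟨j, hj⟩ := (h.cases (isConj_conj (IsConj.refl d) g) h1).resolve_left h2
  obtain ⟨σ, hσ, rfl⟩ := trans0 i
  obtain ⟨σ', hσ', rfl⟩ := trans0 j
  obtain ⟨x, -, hx⟩ := h.rep.lift (mul_mem hσ (inv_mem hσ'))
  have := isConj_conj (isConj_conj (IsConj.refl d) g) x
  rw [← hj, hx] at this
  simpa using this

end Cfsg.Agent.TT2
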