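import Cfsg.Agent.TT2.Amb
import Cfsg.Agent.TT2.Near2

/-!
# Groups with an involution whose centraliser is `2 · U₆(2)`
-/

set_option autoImplicit false
set_option maxRecDepth 100000

namespace Cfsg.Agent.TT2

open Subgroup

universe u

variable {G : Type u} [Group G] {D : Set G} {a d g x y w : G} {τ : P → G}

/-- `τ` labels the members of `D` other than `a` commuting with `a` -/
structure DP (D : Set G) (a : G) (τ : P → G) : Prop where
  dbl : Dbl a τ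
  mem : ∀ i, τ i ∈ D
  cases : ∀ y ∈ D, Commute a y → y = a ∨ ∃ i, τ i = y

theorem DP.comp (h : DP D a τ) {σ : Equiv.Perm P} (hσ : σ ∈ TG Set.univ) : DP D a (τ ∘ σ) :=
  ⟨h.dbl.comp hσ, fun _ => h.mem _, fun y hy hc => (h.cases y hy hc).imp_right fun ⟨i, hi⟩ =>
    ⟨σ⁻¹ i, by simpa using hi⟩⟩

theorem DP.ex (h : DP D a τ) (hy : y ∈ D) (hc : Commute a y) (hne : y ≠ a) : ∃ i, τ i = y :=
  (h.cases y hy hc).resolve_left hne

/-- the local structure of a class of type `M̃(22)` -/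
structure Loc22 (D : Set G) : Prop where
  cj : ∀ g : G, ∀ a ∈ D, g * a * g⁻¹ ∈ D
  loc : ∀ a ∈ D, ∃ τ, DP D a τ

theorem Dbl.loc22 (h : Dbl d τ) (hn : ∃ g, Commute d (g * d * g⁻¹) ∧ g * d * g⁻¹ ≠ d) :
    Loc22 (conjugatesOf d) := by
  refine ⟨fun g a ha => isConj_conj ha g, fun a ha => ?_⟩
  obtain ⟨g, rfl⟩ := isConj_iff.1 ha
  refine ⟨_, h.conj g, fun i => isConj_conj (h.isConj hn i) g, fun y hy hc => ?_⟩
  exact (h.conj g).cases (ha.symm.trans hy) hc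

theorem Loc22.pt (h : Loc22 D) (ha : a ∈ D) (hy : y ∈ D) (hc : Commute a y) (hne : y ≠ a) :
    ∃ τ, DP D a τ ∧ τ 0 = y := by
  obtain ⟨τ, H⟩ := h.loc a ha
  obtain ⟨i, rfl⟩ := H.ex hy hc hne
  obtain ⟨σ, hσ, rfl⟩ := trans0 i
  exact ⟨_, H.comp hσ, rfl⟩

theorem Loc22.pt2 (h : Loc22 D) (ha : a ∈ D) (hy : y ∈ D) (hw : w ∈ D) (hc : Commute a y)
    (hc' : Commute a w) (hne : y ≠ a) (hne' : w ≠ a) (h1 : Commute y w) (h2 : y ≠ w) :
    ∃ τ, DP D a τ ∧ τ 0 = y ∧ τ 1 = w := by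
  obtain ⟨τ, H⟩ := h.loc a ha
  obtain ⟨i, rfl⟩ := H.ex hy hc hne
  obtain ⟨j, rfl⟩ := H.ex hw hc' hne'
  obtain ⟨σ, hσ, rfl, rfl⟩ := pair_trans (H.dbl.rep.commute_iff.1 h1) fun e => h2 (by rw [e])
  exact ⟨_, H.comp hσ, rfl, rfl⟩

theorem DP.col_iff (h : DP D a τ) {i j k : P} : col i j k ↔
    ∀ m ∈ D, Commute a m → Commute (τ i) m → Commute (τ j) m → Commute (τ k) m := by
  have R := h.dbl.rep
  refine ⟨fun H m hm h1 h2 h3 => ?_, fun H m h1 h2 => R.commute_iff.1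
    (H _ (h.mem m) (h.dbl.comm m) (R.commute h1) (R.commute h2))⟩
  rcases h.cases m hm h1 with rfl | ⟨l, rfl⟩
  exacts [(h.dbl.comm k).symm, R.commute (H l (R.commute_iff.1 h2) (R.commute_iff.1 h3))]

theorem Loc22.ho (h : Loc22 D) (hy : y ∈ D) (H : DP D y τ) (hx : x ∈ D) (hn : Near D x y)
    (hc : ¬ Commute x y) : HO {i | Commute x (τ i)} := by
  have R := H.dbl.rep
  refine ⟨?_, fun i hi j hj => ?_, fun i hi j hne hp => ?_⟩
  · obtain ⟨e, he, h1, h2⟩ := hn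
    obtain ⟨i, rfl⟩ := H.ex he h2.symm fun e' => hc (e' ▸ h1)
    exact ⟨i, h1⟩
  · change Commute x _
    rw [← R.conj]
    exact (Commute.mul_right hi hj).mul_right hi
  obtain ⟨ρ, H'⟩ := h.loc _ (H.mem i)
  have R' := H'.dbl.rep
  obtain ⟨a, ha⟩ := H'.ex hy (H.dbl.comm i).symm (H.dbl.ne i).symm
  obtain ⟨b, hb⟩ := H'.ex (H.mem j) (R.commute hp) (R.inj.ne hne)
  obtain ⟨r, hr⟩ := H'.ex hx (Commute.symm hi) fun e => hc (e ▸ (H.dbl.comm i).symm)
  have hcol : ∀ k k', τ k = ρ k' → (col i j k ↔ col a b k') := fun k k' e => by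
    rw [H.col_iff, H'.col_iff, ha, hb, e]
    exact ⟨fun H m h0 h1 h2 => H m h0 h2 h1, fun H m h0 h1 h2 => H m h0 h2 h1⟩
  have hab : perp a b := R'.commute_iff.1 (by rw [ha, hb]; exact H.dbl.comm j)
  have har : ¬ perp a r := fun h => hc (by rw [← ha, ← hr]; exact (R'.commute h).symm)
  obtain ⟨k', ⟨k1, k2⟩, hu⟩ := one_point hab (fun e => H.dbl.ne j (by rw [← hb, ← e, ha])) har
  obtain ⟨k, hk⟩ := H.ex (H'.mem k') (ha ▸ R'.commute (k1.perp_left hab))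
    fun e => har (by rwa [← R'.inj (e.trans ha.symm)])
  refine ⟨k, ⟨?_, fun e => H'.dbl.ne k' (by rw [← hk, e]), (hcol k k' hk).2 k1⟩, fun l hl => ?_⟩
  · change Commute x _
    rw [hk, ← hr]; exact (R'.commute k2).symm
  · obtain ⟨l', hl'⟩ := H'.ex (H.mem l) (R.commute (hl.2.2.perp_left hp)) (R.inj.ne hl.2.1)
    have := hu l' ⟨(hcol l l' hl'.symm).1 hl.2.2, R'.commute_iff.1 (by
      rw [hl', hr]; exact Commute.symm hl.1)⟩
    exact R.inj (by rw [hk, ← this, hl'])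

theorem Loc22.lc3 (h : Loc22 D) : Lc3 D := by
  refine ⟨fun a ha => ?_, h.cj, fun x hx y hy hn => ?_, fun x hx y hy w hw hn hc => ?_⟩
  · obtain ⟨τ, H⟩ := h.loc a ha
    exact H.dbl.dd
  · obtain ⟨e, he, h1, h2⟩ := hn
    obtain ⟨τ, H⟩ := h.loc e he
    rcases H.cases x hx h1.symm with rfl | ⟨i, rfl⟩
    · exact Or.inl h2
    rcases H.cases y hy h2 with rfl | ⟨j, rfl⟩
    · exact Or.inl h1
    by_cases hp : perp i j
    exacts [Or.inl (H.dbl.rep.commute hp), Or.inr (H.dbl.rep.cube hp)]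
  · by_cases h1 : Commute x y
    · exact ⟨y, hy, h1, hc⟩
    obtain ⟨τ, H⟩ := h.loc y hy
    rcases H.cases w hw hc with rfl | ⟨k, rfl⟩
    · exact hn
    obtain ⟨i, hi, hp⟩ := (h.ho hy H hx hn h1).exists_perp k
    exact ⟨_, H.mem i, hi, H.dbl.rep.commute hp⟩

theorem DP.perp_eq (H : DP D a τ) : {y | y ∈ D ∧ y ≠ a ∧ Commute a y} = τ '' Set.univ := by
  ext y
  exact ⟨fun ⟨h1, h2, h3⟩ => let ⟨i, hi⟩ := H.ex h1 h3 h2; ⟨i, trivial, hi⟩,
    by rintro ⟨i, -, rfl⟩; exact ⟨H.mem i, H.dbl.ne i, H.dbl.comm i⟩⟩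

theorem Loc22.ncard [Finite G] (h : Loc22 D) (hx : x ∈ D) :
    {y | y ∈ D ∧ Near D x y}.ncard = 3510 := by
  obtain ⟨τ, H⟩ := h.loc x hx
  obtain ⟨r, h1, h2⟩ := ncard_near hx (k := 693) (m := 512) (n := 126) (by
    rw [H.perp_eq, Set.ncard_image_of_injective _ H.dbl.rep.inj, Set.ncard_univ]; simp)
    (fun y hy hne hc => by
      obtain ⟨ρ, H', rfl⟩ := h.pt hy hx hc.symm hne.symm
      have R := H'.dbl.rep
      have : {w | w ∈ D ∧ Commute y w ∧ ¬ Commute (ρ 0) w} = ρ '' {k | perp 0 k}ᶜ := by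
        ext w
        constructor
        · rintro ⟨h1, h2, h3⟩
          obtain ⟨k, rfl⟩ := H'.ex h1 h2 fun e => h3 (e ▸ hc)
          exact ⟨k, fun hk => h3 (R.commute hk), rfl⟩
        · rintro ⟨k, hk, rfl⟩
          exact ⟨H'.mem k, H'.dbl.comm k, fun h => hk (R.commute_iff.1 h)⟩
      rw [this, Set.ncard_image_of_injective _ R.inj, Set.ncard_compl, ncard_perp]; simp)
    (fun w hw hn hc => by
      rw [← (h.ho hx H hw hn.symm fun h => hc h.symm).ncard,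
        ← Set.ncard_image_of_injective _ H.dbl.rep.inj]
      congr 1; ext y
      constructor
      · rintro ⟨h1, h2, h3⟩
        obtain ⟨k, rfl⟩ := H.ex h1 h2 fun e => hc (e ▸ h3)
        exact ⟨k, h3.symm, rfl⟩
      · rintro ⟨k, hk, rfl⟩
        exact ⟨H.mem k, H.dbl.comm k, Commute.symm hk⟩)
  omega

theorem DP.closure_le (H : DP D a τ) : closure (τ '' Set.univ) ≤ closure {y | y ∈ D ∧ Commute a y} :=
  Subgroup.closure_mono (by rintro _ ⟨i, -, rfl⟩; exact ⟨H.mem i, H.dbl.comm i⟩)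

theorem Loc22.stab_eq (h : Loc22 D) (hx : x ∈ D) :
    h.lc3.stab hx = closure {y | y ∈ D ∧ Near D x y} := by
  obtain ⟨τ, H⟩ := h.loc x hx
  refine h.lc3.stab_eq hx (fun e he y hy w hw h1 h2 h3 h4 => ?_) (fun y hy hc => ?_)
    fun g hg => H.closure_le (H.dbl.gen hg)
  · obtain ⟨ρ, H', rfl⟩ := h.pt he hy h3 h1
    obtain ⟨k, rfl⟩ := H'.ex hw h4 h2
    obtain ⟨σ, hσ, rfl⟩ := trans0 k
    obtain ⟨g, hg, e⟩ := H'.dbl.rep.lift hσ
    exact ⟨g, H'.closure_le hg, e 0⟩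
  · by_cases e : y = x
    · exact ⟨_, H.mem 0, (H.dbl.ne 0).symm, e ▸ (H.dbl.ne 0).symm, (H.dbl.comm 0).symm,
        e ▸ (H.dbl.comm 0).symm⟩
    obtain ⟨ρ, H', rfl⟩ := h.pt hx hy hc e
    exact ⟨_, H'.mem 1, (H'.dbl.ne 1).symm, H'.dbl.rep.inj.ne (by decide), (H'.dbl.comm 1).symm,
      H'.dbl.rep.comm21 1 0 (by decide) (by decide)⟩

theorem Loc22.fix [Finite G] (h : Loc22 D) (hx : x ∈ D) {s : G} (hs : s * s = 1)
    (hn : Near D x (s * x * s⁻¹)) : ∃ y ∈ D, Near D x y ∧ Commute s y :=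
  h.lc3.fix_of_perfect hx (h.stab_eq hx) (fun a ha => let ⟨_, H⟩ := h.loc a ha; H.dbl.perf)
    (by rw [h.ncard hx]) hs hn

theorem Loc22.gl3 [Finite G] (h : Loc22 D) : Gl3 D := by
  refine ⟨h.lc3, fun h1 => ?_, fun x hx y hy hc hxy => ?_,
    fun x hx y hy v hv w hw hc hne h1 h2 e => ?_, fun x hx s hs => h.fix hx hs,
    fun x hx y hy hc hne => ?_, fun v hv w hw w' hw' h1 h2 h3 n1 n2 n3 => ?_, fun x hx => ?_⟩
  · obtain ⟨τ, H⟩ := h.loc 1 h1
    exact H.dbl.dne rfl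
  · obtain ⟨τ, H⟩ := h.loc x hx
    have h1 : Commute x (x * y) := (Commute.refl x).mul_right hc
    rcases H.cases y hy hc with rfl | ⟨i, rfl⟩
    · obtain ⟨τ', H'⟩ := h.loc _ hxy
      exact H'.dbl.dne H.dbl.dd
    rcases H.cases _ hxy h1 with e | ⟨j, e⟩
    exacts [H.dbl.rep.ne_one i (by simpa using e), H.dbl.mul_ne i j e.symm]
  · obtain ⟨τ, H, rfl⟩ := h.pt hx hy hc hne.symm
    have R := H.dbl.rep
    refine (H.cases v hv h1.symm).imp_right ?_
    rintro ⟨k, rfl⟩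
    have e' : w = τ k * (x * τ 0) := by rw [e, TT.sq_cancel (R.sq k)]
    have h3 : Commute x w := e' ▸ h1.symm.mul_right ((Commute.refl x).mul_right hc)
    rcases H.cases w hw h3 with rfl | ⟨l, rfl⟩
    · rw [← h1.symm.eq] at e
      exact (mul_left_cancel e).symm
    · obtain ⟨X, _, t, U, W⟩ := H.dbl.word
      have h4 : t k * t l = t 0 := by
        simpa using (W [k, l] [0]).2 (Or.inr (by simpa using e.symm))
      refine absurd h4 (U.mul_ne (R.commute_iff.1 ?_) (fun e => ?_) 0)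
      · rw [e']; exact (Commute.refl _).mul_right (h1.mul_right h2)
      · rw [e, U.sq] at h4
        exact U.ne_one 0 h4.symm
  · obtain ⟨τ, H, rfl⟩ := h.pt hx hy hc hne.symm
    obtain ⟨r, hr, e⟩ := H.dbl.hyp
    refine ⟨x :: r.map τ, ?_, by rw [List.prod_cons, e, H.dbl.dd], fun s hs => ?_⟩
    · rw [List.length_cons, List.length_map, (by decide : ∀ r ∈ hypL, r.length = 6) r hr]; decide
    · rcases List.mem_cons.1 hs with rfl | hs
      · exact ⟨hx, Commute.refl _, hc.symm⟩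
      · obtain ⟨i, hi, rfl⟩ := List.mem_map.1 hs
        exact ⟨H.mem i, H.dbl.comm i, H.dbl.rep.comm21 0 i (by decide)
          ((by decide : ∀ r ∈ hypL, ∀ i : P, i ∈ r → (i : ℕ) < 21) r hr i hi)⟩
  · obtain ⟨τ, H, rfl, rfl⟩ := h.pt2 hv hw hw' h1 h2 n1.symm n2.symm h3 n3
    have R := H.dbl.rep
    refine ⟨τ 5, H.mem 5, (H.dbl.comm 5).symm, R.comm21 5 0 (by decide) (by decide),
      R.comm21 5 1 (by decide) (by decide), fun y hy y' hy' hne hc hall e => ?_⟩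
    have key : ∀ y ∈ D, (∀ a ∈ [τ 5, v, τ 0, τ 1], Commute a y) →
        y = v ∨ ∃ k : P, (k : ℕ) < 21 ∧ τ k = y := fun y hy hc => by
      refine (H.cases y hy (hc v (by simp))).imp_right ?_
      rintro ⟨k, rfl⟩
      exact ⟨k, lt21 (R.commute_iff.1 (hc _ (by simp))) (R.commute_iff.1 (hc _ (by simp)))
        (R.commute_iff.1 (hc _ (by simp))), rfl⟩
    have e1 : v * (τ 5 * (τ 0 * τ 1)) = y * y' := by
      rw [← e, ← mul_assoc, (H.dbl.comm 5).eq, mul_assoc]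
    have m1 : ∀ k : P, (k : ℕ) < 21 → τ 5 * (τ 0 * τ 1) ≠ τ k := fun k hk e =>
      lt21_cases (p := fun k => xm [5, 0, 1] ≠ xm [k]) (by decide +kernel) hk
        ((H.dbl.xm_eq (by decide) (by simpa using hk)).2 (Or.inl (by simpa using e)))
    rcases key y hy fun a ha => (hall a ha).1 with rfl | ⟨k, hk, rfl⟩ <;>
      rcases key y' hy' fun a ha => (hall a ha).2 with rfl | ⟨l, hl, rfl⟩
    · exact hne rfl
    · exact m1 l hl (mul_left_cancel e1)
    · exact m1 k hk (mul_left_cancel (e1.trans hc.eq))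
    · refine lt21_cases (p := fun l => xm [k, l] ≠ xm [5, 0, 1]) (lt21_cases
        (p := fun k => ∀ l ∈ U21, xm [k, l] ≠ xm [5, 0, 1]) (by decide +kernel) hk) hl
        ((H.dbl.xm_eq (by simpa using ⟨hk, hl⟩) (by decide)).2 (Or.inr (by simpa using e1.symm)))
  · obtain ⟨τ, H⟩ := h.loc x hx
    exact ⟨_, H.mem 0, H.dbl.comm 0, (H.dbl.ne 0).symm⟩

theorem Loc22.near [Finite G] (h : Loc22 D) (hx : x ∈ D) (hy : y ∈ D) : Near D x y :=
  h.gl3.near_all hx hy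

theorem Loc22.ts [Finite G] (h : Loc22 D) : IsThreeTranspositionSet D :=
  ⟨fun a ha => TT.orderOf_eq_two (h.lc3.sq a ha) fun e => h.gl3.ne1 (e ▸ ha), fun a ha b hb =>
    (h.lc3.loc a ha b hb (h.near ha hb)).imp_left
      (TT.sq_of_commute (h.lc3.sq a ha) (h.lc3.sq b hb))⟩

theorem Loc22.near_eq [Finite G] (h : Loc22 D) (hx : x ∈ D) : {y | y ∈ D ∧ Near D x y} = D :=
  Set.ext fun _ => ⟨fun h => h.1, fun hy => ⟨hy, h.near hx hy⟩⟩

theorem Loc22.top [Finite G] (h : Loc22 D) (hx : x ∈ D) : closure D = ⊤ := by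
  rw [← h.near_eq hx, ← h.stab_eq hx, eq_top_iff]
  exact fun g _ => h.near hx (h.cj g x hx)

theorem Loc22.ncard_eq [Finite G] (h : Loc22 D) (hx : x ∈ D) : D.ncard = 3510 := by
  rw [← h.ncard hx, h.near_eq hx]

theorem Loc22.fix' [Finite G] (h : Loc22 D) (hx : x ∈ D) {s : G} (hs : s * s = 1) :
    ∃ y ∈ D, Commute s y :=
  let ⟨y, hy, _, hc⟩ := h.fix hx hs (h.near hx (h.cj s x hx)); ⟨y, hy, hc⟩

theorem Loc22.exists_ncomm (h : Loc22 D) (hx : x ∈ D) : ∃ c ∈ D, Near D x c ∧ ¬ Commute x c := by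
  obtain ⟨τ, H⟩ := h.loc x hx
  obtain ⟨ρ, H', rfl⟩ := h.pt (H.mem 0) hx (H.dbl.comm 0).symm (H.dbl.ne 0).symm
  obtain ⟨j, hj⟩ := exists_not_perp 0
  exact ⟨ρ j, H'.mem j, ⟨_, H.mem 0, H.dbl.comm 0, H'.dbl.comm j⟩,
    fun hc => hj (H'.dbl.rep.commute_iff.1 hc)⟩

theorem Loc22.center (h : Loc22 D) (hx : x ∈ D) : center G = ⊥ := by
  obtain ⟨τ, H⟩ := h.loc x hx
  obtain ⟨c, -, -, hc⟩ := h.exists_ncomm hx
  rw [eq_bot_iff]
  intro z hz
  have := mem_center_iff.1 hz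
  rcases H.dbl.center (this x) fun i => (this (τ i)).symm with rfl | rfl
  exacts [one_mem _, absurd (this c).symm hc]

theorem Dbl.class [Finite G] (h : Dbl d τ) (hn : ∃ g, Commute d (g * d * g⁻¹) ∧ g * d * g⁻¹ ≠ d) :
    IsThreeTranspositionClass (conjugatesOf d) :=
  ⟨(h.loc22 hn).ts, ⟨d, IsConj.refl d, rfl⟩, (h.loc22 hn).top (IsConj.refl d)⟩

/-- an involution whose conjugates form a set of 3-transpositions is a member of the class -/
theorem Loc22.mem_of_ts [Finite G] (h : Loc22 D) (hx : x ∈ D) {s : G} (hs : orderOf s = 2)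
    (h3 : ∀ g, (s * (g * s * g⁻¹)) ^ 2 = 1 ∨ (s * (g * s * g⁻¹)) ^ 3 = 1) : s ∈ D := by
  have hcj : ∀ k g : G, (k * s * k⁻¹ * (g * (k * s * k⁻¹) * g⁻¹)) ^ 2 = 1 ∨
      (k * s * k⁻¹ * (g * (k * s * k⁻¹) * g⁻¹)) ^ 3 = 1 := fun k g => by
    have e : k * s * k⁻¹ * (g * (k * s * k⁻¹) * g⁻¹) =
      k * (s * ((k⁻¹ * g * k) * s * (k⁻¹ * g * k)⁻¹)) * k⁻¹ := by group
    simpa only [e, conj_pow, conj_eq_one_iff] using h3 (k⁻¹ * g * k)
  have big : ∀ a τ, Dbl a τ → ∀ L : List P, L = [0, 1] ∨ L = [0, 1, 5] → ∀ k,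
      ¬ (k * s * k⁻¹ = (L.map τ).prod ∨ k * s * k⁻¹ = a * (L.map τ).prod) := by
    intro a τ H L hL k e
    obtain ⟨g, hg, h1, h2⟩ := H.rep.big_order L hL
    have := hcj k g
    rcases e with e | e <;> rw [e] at this
    · exact this.elim h1 h2
    · have c1 : Commute a g := H.comm_gen (S := Set.univ) (by rwa [Set.image_univ])
      have c2 : Commute a (L.map τ).prod :=
        H.comm_gen (prod_mem_closure (S := Set.univ) fun _ _ => trivial)
      generalize (L.map τ).prod = w at *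
      rw [show a * w * (g * (a * w) * g⁻¹) = a * (w * g * a) * w * g⁻¹ by group,
        ← (c2.mul_right c1).eq, ← mul_assoc, H.dd, one_mul,
        show w * g * w * g⁻¹ = w * (g * w * g⁻¹) by group] at this
      exact this.elim h1 h2
  have hss := TT.mul_self_of_orderOf hs
  obtain ⟨a, ha, hc⟩ := h.fix' hx hss
  obtain ⟨τ, H⟩ := h.loc a ha
  obtain ⟨k, -, w, hw, e⟩ := H.dbl.classes hc.symm hss
  have back : k * s * k⁻¹ ∈ D → s ∈ D := fun h' => by simpa [mul_assoc] using h.cj k⁻¹ _ h'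
  simp only [List.mem_cons, List.not_mem_nil, or_false] at hw
  rcases hw with rfl | rfl | rfl | rfl
  · rcases e with e | e
    · exact absurd (by simpa using e) (TT.ne_one_of_orderOf hs)
    · exact back (by simpa [e] using ha)
  · rcases e with e | e
    · exact back (by simpa [e] using H.mem 0)
    · obtain ⟨ρ, H', e0, e1⟩ := h.pt2 (H.mem 1) ha (H.mem 0) (H.dbl.comm 1).symm
        (H.dbl.rep.comm21 1 0 (by decide) (by decide)) (H.dbl.ne 1).symm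
        (H.dbl.rep.inj.ne (by decide)) (H.dbl.comm 0) (H.dbl.ne 0).symm
      exact absurd (Or.inl (by simpa [e0, e1] using e)) (big _ ρ H'.dbl _ (Or.inl rfl) k)
  · exact absurd e (big a τ H.dbl _ (Or.inl rfl) k)
  · exact absurd e (big a τ H.dbl _ (Or.inr rfl) k)

theorem Dbl.eq_class [Finite G] (h : Dbl d τ) (hn : ∃ g, Commute d (g * d * g⁻¹) ∧ g * d * g⁻¹ ≠ d)
    (hD : IsThreeTranspositionGroup D) : D = conjugatesOf d := by
  have H := h.loc22 hn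
  have h1 : D ⊆ conjugatesOf d := fun s hs =>
    H.mem_of_ts (IsConj.refl d) (hD.1.1 s hs) fun g => hD.1.2 s hs _ (hD.2.1 g s hs)
  refine h1.antisymm fun y hy => ?_
  obtain ⟨s, hs⟩ : D.Nonempty := by
    by_contra hD'
    have := hD.2.2
    rw [Set.not_nonempty_iff_eq_empty.1 hD', Subgroup.closure_empty] at this
    exact h.dne (mem_bot.1 (this ▸ mem_top d))
  obtain ⟨g, rfl⟩ := isConj_iff.1 ((h1 hs).symm.trans hy)
  exact hD.2.1 g s hs

end Cfsg.Agent.TT2
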