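import Cfsg.Agent.TT2.M22t
import Cfsg.Agent.TT2.Thom
import Cfsg.Agent.TT.Three

/-!
# The Thompson subgroup of a Sylow 2-subgroup of a group of type `M̃(22)`
-/

set_option autoImplicit false
set_option maxRecDepth 100000

namespace Cfsg.Agent.TT2

open Subgroup

universe u

variable {G : Type u} [Group G] [Finite G] {D : Set G} {a d g x y w : G} {τ : P → G}

theorem card_class (d : G) :
    Nat.card G = (conjugatesOf d).ncard * Nat.card (centralizer ({d} : Set G)) := by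
  have h1 : conjugatesOf d = MulAction.orbit (ConjAct G) d := by
    ext y
    rw [ConjAct.mem_orbit_conjAct, isConj_comm]; rfl
  have h2 := Nat.card_congr (MulAction.orbitProdStabilizerEquivGroup (ConjAct G) d)
  rw [Nat.card_prod, ← h1, ConjAct.stabilizer_eq_centralizer, Nat.card_coe_set_eq] at h2
  exact h2.symm

theorem card_inf_mul (H K : Subgroup G) : Nat.card ↥(K ⊓ H) * H.relIndex K = Nat.card K := by
  rw [← card_mul_index (H.subgroupOf K), ← Nat.card_congr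
    (subgroupOfEquivOfLe (inf_le_left : K ⊓ H ≤ K)).toEquiv, inf_subgroupOf_left]
  rfl

theorem DP.mem_syl (h : Loc22 D) (hd : d ∈ D) (H : DP D d τ) {T : Subgroup G} (hT : IsPGroup 2 T)
    (hA : Apl τ ≤ T) (hx : x ∈ D) (hxT : x ∈ T) : x = d ∨ ∃ k : P, (k : ℕ) < 21 ∧ τ k = x := by
  have R := H.dbl.rep
  have h3 : TT.T3 D := ⟨h.ts, h.cj⟩
  have key : ∀ y ∈ D, y ∈ Apl τ → Commute y x := fun y hy hyA =>
    h3.commute_of_two hT hy hx (mul_mem (hA hyA) hxT)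
  refine (H.cases x hx (key d hd H.dbl.d_mem)).imp_right ?_
  rintro ⟨k, rfl⟩
  exact ⟨k, lt21 (R.commute_iff.1 (key _ (H.mem 0) (mem_Apl (by decide))))
    (R.commute_iff.1 (key _ (H.mem 1) (mem_Apl (by decide))))
    (R.commute_iff.1 (key _ (H.mem 5) (mem_Apl (by decide)))), rfl⟩

theorem DP.uniq_syl (h : Loc22 D) (hd : d ∈ D) (H : DP D d τ) {T : Subgroup G} (hT : IsPGroup 2 T)
    (hA : Apl τ ≤ T) (hi : (centralizer {d}).relIndex T ≤ 2) {B : Subgroup G} (hB : B ≤ T)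
    (h1 : ∀ b ∈ B, b * b = 1) (h2 : 1024 ≤ Nat.card B) : B = Apl τ := by
  have R := H.dbl.rep
  have hDT := fun x hx hxT => H.mem_syl (x := x) h hd hT hA hx hxT
  have hA2 : ∀ a ∈ Apl τ, a * a = 1 := fun a ha => R.Apl_sq ha
  have hAC : Apl τ ≤ T ⊓ centralizer {d} := fun a ha =>
    ⟨hA ha, mem_centralizer_singleton_iff.2 (R.Apl_comm ha H.dbl.d_mem)⟩
  obtain ⟨x, -, hx⟩ := H.dbl.syl (hT.to_le (inf_le_left (b := centralizer {d})))
    fun s hs => (mem_centralizer_singleton_iff.1 hs.2).symm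
  have uq : ∀ B ≤ T ⊓ centralizer {d}, (∀ b ∈ B, b * b = 1) → 1024 ≤ Nat.card B → B = Apl τ :=
    fun B h1 h2 h3 => Subgroup.ext fun b =>
      (hx B h1 h2 h3 b).trans (hx _ hAC hA2 H.dbl.card_Apl.ge b).symm
  by_cases hBC : B ≤ centralizer {d}
  · exact uq B (le_inf hB hBC) h1 h2
  exfalso
  obtain ⟨b, hb, hbC⟩ := SetLike.not_le_iff_exists.1 hBC
  rw [mem_centralizer_singleton_iff] at hbC
  have hdB : d ∉ B := fun h => hbC (commute_of_elem h1 hb h)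
  have e1 := card_inf_mul (centralizer {d}) B
  have e2 := (relIndex_le_of_le_right (H := centralizer {d}) hB index_ne_zero_of_finite).trans hi
  obtain ⟨e3, e4⟩ := card_sup_zpowers (H := B ⊓ centralizer {d}) H.dbl.dd (fun c hc => by
    rwa [TT.commute_iff_conj.1 (mem_centralizer_singleton_iff.1 hc.2).symm]) fun h => hdB h.1
  have e5 := uq (B ⊓ centralizer {d} ⊔ zpowers d)
    (sup_le (inf_le_inf_right _ hB) (zpowers_le.2 (hAC H.dbl.d_mem))) (fun c hc => by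
      rcases (e3 c).1 hc with hc | hc
      · exact h1 c hc.1
      · have h4 : Commute (c * d) d := mem_centralizer_singleton_iff.1 hc.2
        have := TT.mul_self_of_commute (h1 _ hc.1) H.dbl.dd h4
        rwa [mul_assoc c, H.dbl.dd, mul_one] at this) (by nlinarith)
  have hne : b * d * b⁻¹ ≠ d := fun e => hbC (TT.commute_iff_conj.2 e)
  have hcT : ∀ y ∈ Apl τ, b * y * b⁻¹ ∈ T := fun y hy =>
    mul_mem (mul_mem (hB hb) (hA hy)) (inv_mem (hB hb))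
  obtain ⟨j, hj, ej⟩ := (hDT _ (h.cj b d hd) (hcT d H.dbl.d_mem)).resolve_left hne
  obtain ⟨r, hr, hr1, hr2⟩ := lt21_cases (p := fun j => ∃ r ∈ lineL, j ∉ r ∧ ∀ k ∈ r, (k : ℕ) < 21)
    (by decide +kernel) hj
  refine hdB ?_
  rw [← R.lines H.dbl.comm H.dbl.line r hr]
  refine B.list_prod_mem fun y hy => ?_
  obtain ⟨k, hk, rfl⟩ := List.mem_map.1 hy
  rcases (e3 _).1 (e5 ▸ mem_Apl (hr2 k hk)) with h4 | h4
  · exact h4.1
  exfalso
  have h5 := TT.commute_iff_conj.1 (commute_of_elem h1 hb h4.1)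
  rcases h.gl3.h2b d hd _ (H.mem k) _ (H.mem j) _ (h.cj b _ (H.mem k)) (H.dbl.comm k)
    (H.dbl.ne k).symm (H.dbl.comm j).symm (R.comm21 j k hj (hr2 k hk)) (by
      rw [ej, (H.dbl.comm k).eq, ← h5, ← (H.dbl.comm k).eq]; group) with e | e
  exacts [H.dbl.ne j e, hr1 (R.inj e ▸ hk)]

theorem DP.thompson (h : Loc22 D) (hd : d ∈ D) (H : DP D d τ) {T : Subgroup G} (hT : IsPGroup 2 T)
    (hA : Apl τ ≤ T) (hi : (centralizer {d}).relIndex T ≤ 2) :
    closure {x | x ∈ D ∧ x ∈ T} = thompsonSubgroupOf 2 T := by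
  rw [thompson_eq hA (fun a ha => H.dbl.rep.Apl_sq ha) fun B hB h1 h2 =>
    H.uniq_syl h hd hT hA hi hB h1 (H.dbl.card_Apl ▸ h2)]
  refine le_antisymm ((Subgroup.closure_le _).2 fun x hx => ?_) ((Subgroup.closure_le _).2 ?_)
  · rcases H.mem_syl h hd hT hA hx.1 hx.2 with rfl | ⟨k, hk, rfl⟩
    exacts [H.dbl.d_mem, mem_Apl hk]
  · rintro _ ⟨k, hk, rfl⟩
    exact subset_closure ⟨H.mem k, hA (mem_Apl hk)⟩

omit [Finite G] in
theorem Dbl.dp (h : Dbl d τ) (hn : ∃ g, Commute d (g * d * g⁻¹) ∧ g * d * g⁻¹ ≠ d) (g : G) :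
    DP (conjugatesOf d) (g * d * g⁻¹) fun i => g * τ i * g⁻¹ :=
  ⟨h.conj g, fun i => isConj_conj (h.isConj hn i) g, fun _ hy hc =>
    (h.conj g).cases ((isConj_conj (IsConj.refl d) g).symm.trans hy) hc⟩

theorem Dbl.exists_syl (h : Dbl d τ) (hn : ∃ g, Commute d (g * d * g⁻¹) ∧ g * d * g⁻¹ ≠ d)
    (T : Sylow 2 G) : ∃ g, Apl (fun i => g * τ i * g⁻¹) ≤ T ∧
      (centralizer {g * d * g⁻¹}).relIndex (T : Subgroup G) ≤ 2 := by
  have : Fact (Nat.Prime 2) := ⟨Nat.prime_two⟩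
  have H := h.loc22 hn
  have hAC : Apl τ ≤ centralizer {d} := fun a ha =>
    mem_centralizer_singleton_iff.2 (h.rep.Apl_comm ha h.d_mem)
  obtain ⟨S, hS⟩ := (isPGroup_of_elem (A := (Apl τ).subgroupOf (centralizer {d}))
    fun a ha => Subtype.ext (h.rep.Apl_sq ha)).exists_le_sylow
  obtain ⟨Q, hQ⟩ := (S.2.map (centralizer {d}).subtype).exists_le_sylow
  obtain ⟨g, rfl⟩ := MulAction.exists_smul_eq G Q T
  have hm : ∀ x, g * x * g⁻¹ ∈ ((g • Q : Sylow 2 G) : Subgroup G) ↔ x ∈ (Q : Subgroup G) := fun x => by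
    rw [Sylow.coe_subgroup_smul, mem_pointwise_smul_iff_inv_smul_mem]; simp [mul_assoc]
  refine ⟨g, (closure_le _).2 ?_, ?_⟩
  · rintro _ ⟨k, hk, rfl⟩
    exact (hm _).2 (hQ ⟨⟨τ k, hAC (mem_Apl hk)⟩, hS (mem_Apl hk), rfl⟩)
  have e1 := card_inf_mul (centralizer {g * d * g⁻¹}) ((g • Q : Sylow 2 G) : Subgroup G)
  have e2 : 2 ^ 16 ∣ Nat.card S := S.pow_dvd_card_of_pow_dvd_card (by rw [h.card]; norm_num)
  have e3 : Nat.card S ≤ Nat.card ↥(((g • Q : Sylow 2 G) : Subgroup G) ⊓ centralizer {g * d * g⁻¹}) := by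
    rw [← card_subtype, ← card_map_of_injective (f := (MulAut.conj g).toMonoidHom)
      (MulAut.conj g).injective]
    refine card_le_of_le ?_
    rintro _ ⟨_, ⟨s, hs, rfl⟩, rfl⟩
    exact ⟨(hm _).2 (hQ ⟨s, hs, rfl⟩), mem_centralizer_singleton_iff.2
      ((TT.commute_conj_iff g).2 (mem_centralizer_singleton_iff.1 s.2))⟩
  obtain ⟨n, hn⟩ := IsPGroup.iff_card.1 (g • Q).2
  have e4 := card_subgroup_dvd_card ((g • Q : Sylow 2 G) : Subgroup G)
  rw [hn, card_class d, H.ncard_eq (IsConj.refl d), h.card] at e4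
  have e5 : n ≤ 17 := by
    by_contra h
    have := (pow_dvd_pow 2 (show 18 ≤ n by omega)).trans e4
    norm_num at this
  have e6 := Nat.pow_le_pow_right (by norm_num : 0 < 2) e5
  have e7 := Nat.le_of_dvd Nat.card_pos e2
  rw [hn] at e1
  nlinarith

theorem Dbl.thompson (h : Dbl d τ) (hn : ∃ g, Commute d (g * d * g⁻¹) ∧ g * d * g⁻¹ ≠ d)
    (T : Sylow 2 G) : closure {x | x ∈ conjugatesOf d ∧ x ∈ (T : Subgroup G)} =
      thompsonSubgroupOf 2 (T : Subgroup G) :=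
  let ⟨g, h1, h2⟩ := h.exists_syl hn T
  (h.dp hn g).thompson (h.loc22 hn) (isConj_conj (IsConj.refl d) g) T.2 h1 h2

theorem Dbl.syl_all (h : Dbl d τ) (hn : ∃ g, Commute d (g * d * g⁻¹) ∧ g * d * g⁻¹ ≠ d)
    {S : Subgroup G} (hS : IsPGroup 2 S) : ∃ x, ∀ B ≤ S, (∀ b ∈ B, b * b = 1) →
      1024 ≤ Nat.card B → ∀ b, b ∈ B ↔ x * b * x⁻¹ ∈ Apl τ := by
  obtain ⟨T, hT⟩ := hS.exists_le_sylow
  obtain ⟨g, h1, h2⟩ := h.exists_syl hn T
  refine ⟨g⁻¹, fun B hB h3 h4 b => ?_⟩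
  rw [(h.dp hn g).uniq_syl (h.loc22 hn) (isConj_conj (IsConj.refl d) g) T.2 h1 h2 (hB.trans hT)
    h3 h4, Apl, Apl]
  have := map_closure_comp (MulAut.conj g).toMonoidHom τ {k | (k : ℕ) < 21}
  refine (SetLike.ext_iff.1 this b).trans ?_
  rw [mem_map_equiv]
  simp

end Cfsg.Agent.TT2
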