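import Cfsg.Agent.TT2.Cov22b
import Cfsg.Agent.TT2.M22f

/-!
# Involutions whose centraliser is a perfect double cover of a group of type `M(22)`
-/

set_option autoImplicit false
set_option maxRecDepth 100000

namespace Cfsg.Agent.TT2

open Cfsg Subgroup

section Transport
variable {G G' : Type*} [Group G] [Group G']

/-- transport of central quotients along an isomorphism -/
noncomputable def qtMap (e : G ≃* G') (S : Set G) : Fi.Qt (e '' S) ≃* Fi.Qt S :=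
  Cl.quotCenterEquiv ((MulEquiv.subgroupCongr (MonoidHom.map_closure (e : G →* G') S).symm).trans
    (e.subgroupMap _).symm)

theorem perp_image (e : G ≃* G') (D : Set G) (d : G) :
    Fi.perp (e '' D) (e d) = e '' Fi.perp D d := by
  ext y
  obtain ⟨y, rfl⟩ := e.surjective y
  simp only [Fi.perp, Set.mem_ofPred_eq, e.injective.mem_set_image, e.injective.ne_iff]
  exact and_congr_right fun _ => and_congr_right fun _ =>
    ⟨fun h => h.of_map e.injective, fun h => h.map e⟩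

theorem m22_map (e : G ≃* G') {D : Set G} (h : IsOfTypeM22 G D) : IsOfTypeM22 G' (e '' D) := by
  obtain ⟨hZ, d, hd, c, hc, hn, ⟨F, iF, jF, hF, ⟨e1⟩⟩, c₃, hc₃, Q, q1, q2, ⟨e2⟩⟩ := h
  refine ⟨eq_bot_iff.2 fun z hz => ?_, e d, ⟨d, hd, rfl⟩, e c, ⟨c, hc, rfl⟩,
    fun h => hn (h.of_map e.injective), ⟨F, iF, jF, hF, ?_⟩, c₃, hc₃, Q, q1, q2, ?_⟩
  · obtain ⟨z, rfl⟩ := e.surjective z
    have : z ∈ center G := mem_center_iff.2 fun g => e.injective (by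
      rw [map_mul, map_mul]; exact mem_center_iff.1 hz _)
    rw [hZ, mem_bot] at this
    rw [this, map_one]; exact one_mem _
  · change Nonempty (Fi.Qt (Fi.perp (e '' D) (e d)) ≃* _)
    rw [perp_image]
    exact ⟨(qtMap e _).trans e1⟩
  · change Nonempty (Fi.Qt (Fi.perp (e '' D) (e d) ∩ Fi.perp (e '' D) (e c)) ≃* _)
    rw [perp_image, perp_image, ← Set.image_inter e.injective]
    exact ⟨(qtMap e _).trans e2⟩

end Transport

universe u

variable {G : Type u} [Group G] {d g y v w : G} {E : Set G}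

/-- The centraliser of `d` is a perfect double cover of a group of type `M(22)`, and `E` is a class of
lifts of its transpositions. -/
def Dbl2 (d : G) (E : Set G) : Prop :=
  ∃ (C X : Type u) (_ : Group C) (_ : Group X) (_ : Finite X) (π : C →* X) (z : C) (F : Set X)
    (s : X → C) (ι : C →* G) (a : X), Lift2 π z F s ∧ Group.IsPerfect C ∧ Function.Injective ι ∧
      d = ι z ∧ E = (fun a => ι (s a)) '' F ∧ (∀ g, Commute d g → ∃ c, ι c = g) ∧ a ∈ F ∧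
        IsOfTypeM22 X F

theorem exists_Dbl2 [Finite G] (hd : orderOf d = 2) (hq : Group.IsPerfect (centralizer {d}))
    [((zpowers d).subgroupOf (centralizer {d})).Normal]
    {a : centralizer {d} ⧸ (zpowers d).subgroupOf (centralizer {d})} (ha : orderOf a = 2)
    (hq' : Group.IsPerfect (centralizer {a})) {K : Type} [Field K] [Fintype K]
    (hK : Fintype.card K = 4) [((zpowers a).subgroupOf (centralizer {a})).Normal]
    (e : centralizer {a} ⧸ (zpowers a).subgroupOf (centralizer {a}) ≃* Cfsg.PSU 6 K 2)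
    (hn : ∃ g, g * a * g⁻¹ ∈ centralizer {a} ∧ g * a * g⁻¹ ≠ a) : ∃ E, Dbl2 d E := by
  obtain ⟨τ, h⟩ := exists_Dbl ha hq' hK e
  have hn' : ∃ g, Commute a (g * a * g⁻¹) ∧ g * a * g⁻¹ ≠ a :=
    let ⟨g, h1, h2⟩ := hn; ⟨g, (mem_centralizer_singleton_iff.1 h1).symm, h2⟩
  obtain ⟨s, L⟩ := exists_Lift2 (cov_cent hd (MulEquiv.refl _)) (h.loc22 hn')
    (fun x hx y hy => isConj_iff.1 (hx.symm.trans hy)) (IsConj.refl a)
  exact ⟨_, _, _, _, _, inferInstance, _, _, _, s, (centralizer {d}).subtype, a, L, hq, subtype_injective _, rfl,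
    rfl, fun g hg => ⟨⟨g, mem_centralizer_singleton_iff.2 hg.symm⟩, rfl⟩, IsConj.refl a,
    h.type22 hn' hK e⟩

theorem Dbl2.conj (h : Dbl2 d E) (g : G) :
    Dbl2 (g * d * g⁻¹) ((fun x => g * x * g⁻¹) '' E) := by
  obtain ⟨C, X, _, _, _, π, z, F, s, ι, a, L, hp, hι, rfl, rfl, hC, ha, ht⟩ := h
  refine ⟨C, X, _, _, ‹_›, π, z, F, s, (MulAut.conj g).toMonoidHom.comp ι, a, L, hp,
    (MulAut.conj g).injective.comp hι, rfl, Set.image_image _ _ _, fun k hk => ?_, ha, ht⟩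
  obtain ⟨c, hc⟩ := hC (g⁻¹ * k * g) ((TT.commute_conj_iff g).1 (by simpa [mul_assoc] using hk))
  exact ⟨c, by simp [hc, mul_assoc]⟩

theorem Dbl2.swap (h : Dbl2 d E) : Dbl2 d ((fun x => d * x) '' E) := by
  obtain ⟨C, X, _, _, _, π, z, F, s, ι, a, L, hp, hι, rfl, rfl, hC, ha, ht⟩ := h
  exact ⟨C, X, _, _, ‹_›, π, z, F, _, ι, a, L.swap, hp, hι, rfl, by
    simp only [Set.image_image, map_mul], hC, ha, ht⟩

theorem Dbl2.dd (h : Dbl2 d E) : d * d = 1 := by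
  obtain ⟨C, X, _, _, _, π, z, F, s, ι, a, L, hp, hι, rfl, rfl, hC, ha, ht⟩ := h
  rw [← map_mul, L.zz, map_one]

theorem Dbl2.dne (h : Dbl2 d E) : d ≠ 1 := by
  obtain ⟨C, X, _, _, _, π, z, F, s, ι, a, L, hp, hι, rfl, rfl, hC, ha, ht⟩ := h
  exact fun e => L.zne (hι (by rw [e, map_one]))

theorem Dbl2.comm (h : Dbl2 d E) (hy : y ∈ E) : Commute d y := by
  obtain ⟨C, X, _, _, _, π, z, F, s, ι, a, L, hp, hι, rfl, rfl, hC, ha, ht⟩ := h
  obtain ⟨b, -, rfl⟩ := hy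
  exact (L.comm _).map ι

theorem Dbl2.sq_ne (h : Dbl2 d E) (g : G) : g * g ≠ d := by
  obtain ⟨C, X, _, _, _, π, z, F, s, ι, a, L, hp, hι, rfl, rfl, hC, ha, ht⟩ := h
  intro e
  obtain ⟨c, rfl⟩ := hC g (e ▸ (Commute.refl g).mul_left (Commute.refl g))
  exact L.sq_ne ha c (hι (by rw [map_mul, e]))

theorem Dbl2.cube (h : Dbl2 d E) (hy : y ∈ E) (hw : w ∈ E) : Commute y w ∨ (y * w) ^ 3 = 1 := by
  obtain ⟨C, X, _, _, _, π, z, F, s, ι, a, L, hp, hι, rfl, rfl, hC, ha, ht⟩ := h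
  obtain ⟨b, hb, rfl⟩ := hy
  obtain ⟨c, hc, rfl⟩ := hw
  refine (L.loc.ts.comm_or_braid hb hc).imp (fun h => (L.commute hb hc h).map ι) fun h => ?_
  rw [← map_mul, ← map_pow, TT.cube_of_braid (L.sq b hb) (L.sq c hc)
    (by rw [L.star hb hc, L.star hc hb, h]), map_one]

theorem Dbl2.cj (h : Dbl2 d E) (hg : Commute d g) (hy : y ∈ E) : g * y * g⁻¹ ∈ E := by
  obtain ⟨C, X, _, _, _, π, z, F, s, ι, a, L, hp, hι, rfl, rfl, hC, ha, ht⟩ := h
  obtain ⟨b, hb, rfl⟩ := hy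
  obtain ⟨c, rfl⟩ := hC g hg
  exact ⟨_, L.loc.cj (π c) b hb, by simp only [← L.eqv c b hb, map_mul, map_inv]⟩

theorem Dbl2.gen (h : Dbl2 d E) (hg : Commute d g) : g ∈ closure E := by
  obtain ⟨C, X, _, _, _, π, z, F, s, ι, a, L, hp, hι, rfl, rfl, hC, ha, ht⟩ := h
  obtain ⟨c, rfl⟩ := hC g hg
  obtain ⟨τ, H⟩ := L.loc.loc a ha
  rw [← Set.image_image, ← MonoidHom.map_closure]
  refine mem_map_of_mem _ ?_
  have hz : z ∈ closure (s '' F) := by
    rw [← mul_inv_cancel_right z (s a), ← L.line hp ha H]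
    refine mul_mem (list_prod_mem fun x hx => ?_) (inv_mem (subset_closure ⟨a, ha, rfl⟩))
    obtain ⟨i, -, rfl⟩ := List.mem_map.1 hx
    exact subset_closure ⟨_, H.mem i, rfl⟩
  obtain ⟨k, hk, e⟩ : π c ∈ (closure (s '' F)).map π := by
    rw [MonoidHom.map_closure, Set.image_image, Set.image_congr L.map, Set.image_id', L.loc.top ha]
    trivial
  rcases L.eq_iff.1 e.symm with rfl | rfl
  exacts [hk, mul_mem hz hk]

theorem Dbl2.cls (h : Dbl2 d E) (hy : y ∈ E) (hw : w ∈ E) : ∃ g, Commute d g ∧ g * y * g⁻¹ = w := by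
  obtain ⟨C, X, _, _, _, π, z, F, s, ι, a, L, hp, hι, rfl, rfl, hC, ha, ht⟩ := h
  obtain ⟨b, hb, rfl⟩ := hy
  obtain ⟨c, hc, rfl⟩ := hw
  obtain ⟨x, rfl⟩ := L.cls b hb c hc
  obtain ⟨x, rfl⟩ := L.surj x
  exact ⟨ι x, (L.comm x).map ι, by simp only [← L.eqv x b hb, map_mul, map_inv]⟩

theorem Dbl2.center (h : Dbl2 d E) (hg : Commute d g) (h2 : ∀ y ∈ E, Commute g y) :
    g = 1 ∨ g = d := by
  obtain ⟨C, X, _, _, _, π, z, F, s, ι, a, L, hp, hι, rfl, rfl, hC, ha, ht⟩ := h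
  obtain ⟨c, rfl⟩ := hC g hg
  have : π c ∈ Subgroup.center X := mem_center_iff.2 fun x => by
    have : closure F ≤ centralizer {π c} := (closure_le _).2 fun b hb =>
      mem_centralizer_singleton_iff.2 ((L.comm_iff hb).1 ((h2 _ ⟨b, hb, rfl⟩).of_map hι)).symm
    exact mem_centralizer_singleton_iff.1 (this (L.loc.top ha ▸ mem_top x))
  rw [ht.1, mem_bot, L.ker] at this
  rcases this with rfl | rfl
  exacts [Or.inl (map_one ι), Or.inr rfl]

theorem Dbl2.classes (h : Dbl2 d E) (hg : Commute d g) (h2 : g * g = 1) :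
    g = d ∨ g ∈ E ∨ d * g ∈ E ∨ ∃ u, u * u = g := by
  obtain ⟨C, X, _, _, _, π, z, F, s, ι, a, L, hp, hι, rfl, rfl, hC, ha, ht⟩ := h
  obtain ⟨c, rfl⟩ := hC g hg
  rcases L.classes (c := c) hp ha (hι (by rw [map_mul, h2, map_one])) with
    rfl | ⟨b, hb, rfl | rfl⟩ | ⟨u, rfl⟩
  · exact Or.inl rfl
  · exact Or.inr (Or.inl ⟨b, hb, rfl⟩)
  · exact Or.inr (Or.inr (Or.inl ⟨b, hb, by rw [← map_mul, TT.sq_cancel L.zz]⟩))
  · exact Or.inr (Or.inr (Or.inr ⟨ι u, (map_mul ι u u).symm⟩))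

theorem Dbl2.sq2 (h : Dbl2 d E) (hy : y ∈ E) (hw : w ∈ E) (hc : Commute y w) (hne : y ≠ w) :
    ∃ u, u * u = y * w := by
  obtain ⟨C, X, _, _, _, π, z, F, s, ι, a, L, hp, hι, rfl, rfl, hC, ha, ht⟩ := h
  obtain ⟨b, hb, rfl⟩ := hy
  obtain ⟨c, hc', rfl⟩ := hw
  obtain ⟨u, e⟩ := L.sq2 hb hc' (L.map b hb ▸ (L.comm_iff hc').1 (hc.of_map hι))
    fun e => hne (by rw [e])
  exact ⟨ι u, by rw [← map_mul, e, map_mul]⟩

theorem Dbl2.not_mem (h : Dbl2 d E) : 1 ∉ E ∧ d ∉ E := by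
  obtain ⟨C, X, _, _, _, π, z, F, s, ι, a, L, hp, hι, rfl, rfl, hC, ha, ht⟩ := h
  constructor <;> rintro ⟨b, hb, e⟩ <;> refine L.loc.gl3.ne1 ?_
  · rwa [← map_one π, ← (map_eq_one_iff ι hι).1 e, L.map b hb]
  · rwa [← L.map_z, ← hι e, L.map b hb]

theorem Dbl2.rel2 (h : Dbl2 d E) (hy : y ∈ E) : d * y ∉ E := by
  obtain ⟨C, X, _, _, _, π, z, F, s, ι, a, L, hp, hι, rfl, rfl, hC, ha, ht⟩ := h
  obtain ⟨b, hb, rfl⟩ := hy
  rintro ⟨c, hc, e⟩
  have e1 : s c = z * s b := hι (by rw [map_mul]; exact e)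
  have e2 : c = b := by simpa [L.map_z, L.map b hb, L.map c hc] using congrArg π e1
  exact L.zne (by simpa [e2] using e1)

theorem Dbl2.rel3 (h : Dbl2 d E) (hy : y ∈ E) (hv : v ∈ E) (hw : w ∈ E) (hc : Commute v w) :
    d * y ≠ v * w := by
  obtain ⟨C, X, _, _, _, π, z, F, s, ι, a, L, hp, hι, rfl, rfl, hC, ha, ht⟩ := h
  obtain ⟨b, hb, rfl⟩ := hy
  obtain ⟨c, hc', rfl⟩ := hv
  obtain ⟨c', hc'', rfl⟩ := hw
  intro e
  have e1 : z * s b = s c * s c' := hι (by rw [map_mul, map_mul]; exact e)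
  have e2 : b = c * c' := by
    simpa [L.map_z, L.map b hb, L.map c hc', L.map c' hc''] using congrArg π e1
  exact L.loc.gl3.h2a c hc' c' hc'' (L.map c hc' ▸ (L.comm_iff hc'').1 (hc.of_map hι)) (e2 ▸ hb)

theorem Dbl2.local (h : Dbl2 d E) (hy : y ∈ E) : ∃ σ : P → G, Rep σ ∧
    σ '' Set.univ = Fi.perp E y ∧ ∃ r ∈ hypL, (r.map σ).prod = y := by
  obtain ⟨C, X, _, _, _, π, z, F, s, ι, a, L, hp, hι, rfl, rfl, hC, ha, ht⟩ := h
  obtain ⟨b, hb, rfl⟩ := hy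
  obtain ⟨τ, H⟩ := L.loc.loc b hb
  have R := L.rep H
  obtain ⟨⟨r, hr, e⟩, -⟩ := L.hyps hp hb H
  refine ⟨fun i => ι (s (τ i)), ⟨hι.comp R.inj, fun i => by rw [← map_mul, R.sq, map_one],
    fun i j => by rw [← map_mul, ← map_mul, R.conj]⟩, ?_, r, hr, by rw [map_prod_comp, e]⟩
  ext x
  constructor
  · rintro ⟨i, -, rfl⟩
    exact ⟨⟨_, H.mem i, rfl⟩, fun e => H.dbl.ne i (L.inj (H.mem i) hb (hι e)),
      (L.commute hb (H.mem i) (H.dbl.comm i)).map ι⟩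
  · rintro ⟨⟨c, hc, rfl⟩, h1, h2⟩
    obtain ⟨i, rfl⟩ := H.ex hc (L.map b hb ▸ (L.comm_iff hc).1 (h2.of_map hι)) fun e => h1 (by rw [e])
    exact ⟨i, trivial, rfl⟩

theorem Dbl2.rel5 (h : Dbl2 d E) (hv : v ∈ E) (hw : w ∈ E) (hc : Commute v w) (hne : v ≠ w) :
    ∃ x ∈ E, Commute x v ∧ Commute x w ∧ x * (v * w) ∉ E ∧ ∀ y ∈ E, ∀ y' ∈ E,
      Commute x y → Commute v y → Commute w y → Commute v y' → d * (x * (v * w)) ≠ y * y' := by
  obtain ⟨C, X, _, _, _, π, z, F, s, ι, a, L, hp, hι, rfl, rfl, hC, ha, ht⟩ := h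
  obtain ⟨b, hb, rfl⟩ := hv
  obtain ⟨c, hc', rfl⟩ := hw
  have cm : ∀ {x y}, x ∈ F → y ∈ F → Commute (ι (s x)) (ι (s y)) → Commute x y := fun hx hy h =>
    L.map _ hx ▸ (L.comm_iff hy).1 (h.of_map hι)
  obtain ⟨τ, H, rfl⟩ := L.loc.pt hb hc' (cm hb hc' hc) fun e => hne (by rw [e])
  have R := H.dbl.rep
  have c1 := (H.dbl.comm 1).symm
  have c2 := R.comm21 1 0 (by decide) (by decide)
  refine ⟨_, ⟨_, H.mem 1, rfl⟩, (L.commute (H.mem 1) hb c1).map ι,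
    (L.commute (H.mem 1) hc' c2).map ι, ?_, ?_⟩
  · rintro ⟨y, hy, e⟩
    have e1 : s y = s (τ 1) * (s b * s (τ 0)) := hι (by rw [map_mul, map_mul]; exact e)
    have e2 : y = τ 1 * (b * τ 0) := by
      simpa [L.map y hy, L.map b hb, L.map _ (H.mem _)] using congrArg π e1
    rcases L.loc.gl3.h2b b hb _ hc' _ (H.mem 1) y hy (H.dbl.comm 0) (H.dbl.ne 0).symm c1 c2
      (by rw [e2, TT.sq_cancel (R.sq 1)]) with e | e
    exacts [H.dbl.ne 1 e, absurd (R.inj e) (by decide)]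
  · rintro _ ⟨y, hy, rfl⟩ _ ⟨y', hy', rfl⟩ h1 h2 h3 h4 e
    have e1 : z * (s (τ 1) * (s b * s (τ 0))) = s y * s y' := hι (by simpa only [map_mul] using e)
    refine H.no5 L.loc hb hy hy' (cm hb hy h2) (cm hb hy' h4) (cm hc' hy h3) (cm (H.mem 1) hy h1) ?_
    rw [← mul_assoc, ← (c1.mul_right c2).eq]
    simpa [L.map_z, L.map y hy, L.map y' hy', L.map b hb, L.map _ (H.mem _)] using congrArg π e1

theorem Dbl2.nonempty (h : Dbl2 d E) : E.Nonempty := by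
  obtain ⟨C, X, _, _, _, π, z, F, s, ι, a, L, hp, hι, rfl, rfl, hC, ha, ht⟩ := h
  exact ⟨_, a, ha, rfl⟩

theorem Dbl2.lab (h : Dbl2 d E) : ∃ β, Fi.Lab Fi.R22 Fi.fs22 3510 E β := by
  obtain ⟨C, X, _, _, _, π, z, F, s, ι, a, L, hp, hι, rfl, rfl, hC, ha, ht⟩ := h
  obtain ⟨β, M⟩ := Fi.rec22' ⟨L.loc.ts, L.loc.cj, L.loc.top ha⟩ ht
  have A : Fi.Acts Fi.R22 Fi.fs22 3510 fun p => ι (s (β p)) :=
    ⟨M.gpl, fun i hi q hq => ⟨(M.act i hi q hq).1, by
      rw [(M.act i hi q hq).2, ← L.star (M.mem _ (M.gpl i hi)) (M.mem q hq), map_mul, map_mul]⟩,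
      fun p hp => by rw [← map_mul, L.sq _ (M.mem p hp), map_one]⟩
  refine ⟨_, A, fun p hp => ⟨_, M.mem p hp, rfl⟩, ?_, fun p hp q hq e =>
    M.inj p hp q hq (L.inj (M.mem p hp) (M.mem q hq) (hι e)), A.tr22, M.zero⟩
  rintro _ ⟨x, hx, rfl⟩
  obtain ⟨p, hp, rfl⟩ := M.surj x hx
  exact ⟨p, hp, rfl⟩

theorem Dbl2.of_ts (h : Dbl2 d E) (hg : Commute d g) (h2 : orderOf g = 2)
    (h3 : ∀ k, (g * (k * g * k⁻¹)) ^ 2 = 1 ∨ (g * (k * g * k⁻¹)) ^ 3 = 1) :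
    g = d ∨ g ∈ E ∨ d * g ∈ E := by
  obtain ⟨C, X, _, _, _, π, z, F, s, ι, a, L, hp, hι, rfl, rfl, hC, ha, ht⟩ := h
  obtain ⟨c, rfl⟩ := hC g hg
  by_cases h1 : π c = 1
  · rcases (L.ker c).1 h1 with rfl | rfl
    exacts [absurd (map_one ι) (TT.ne_one_of_orderOf h2), Or.inl rfl]
  have hc : c * c = 1 := hι (by rw [map_mul, TT.mul_self_of_orderOf h2, map_one])
  have := L.loc.mem_of_ts ha (TT.orderOf_eq_two (by rw [← map_mul, hc, map_one]) h1) fun k => by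
    obtain ⟨k, rfl⟩ := L.surj k
    have := h3 (ι k)
    simp only [← map_mul, ← map_inv, ← map_pow, map_eq_one_iff ι hι] at this ⊢
    exact this.imp (fun e => by rw [e, map_one]) fun e => by rw [e, map_one]
  rcases L.eq_iff.1 (L.map _ this).symm with e | e
  · exact Or.inr (Or.inl ⟨_, this, congrArg ι e.symm⟩)
  · exact Or.inr (Or.inr ⟨_, this, by
      rw [← map_mul]; exact congrArg ι (by rw [← TT.sq_cancel L.zz (s (π c)), ← e])⟩)

theorem Dbl2.type22 (h : Dbl2 d E) : IsOfTypeM22 (Fi.Qt E) (Fi.img6 E) := by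
  have h0 := h
  obtain ⟨C, X, _, _, _, π, z, F, s, ι, a, L, hp, hι, rfl, rfl, hC, ha, ht⟩ := h
  have hb : Function.Bijective (ι.codRestrict (closure ((fun a => ι (s a)) '' F)) fun c =>
      h0.gen ((L.comm c).map ι)) :=
    ⟨fun _ _ e => hι (congrArg Subtype.val e), fun c =>
      let ⟨x, hx⟩ := hC c (Fi.commute_closure (fun _ hy => h0.comm hy) c.2); ⟨x, Subtype.ext hx⟩⟩
  let e := MulEquiv.ofBijective _ hb
  let e' := QuotientGroup.liftEquiv (Subgroup.center _) (φ := π.comp e.symm.toMonoidHom)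
    (L.surj.comp e.symm.surjective) (by
      ext c
      obtain ⟨c, rfl⟩ := e.surjective c
      change _ ↔ π (e.symm (e c)) = 1
      rw [e.symm_apply_apply, L.ker, mem_center_iff]
      constructor
      · intro hc
        exact (h0.center ((L.comm c).map ι) fun y hy =>
          (congrArg Subtype.val (hc ⟨y, subset_closure hy⟩)).symm).imp
            (map_eq_one_iff ι hι).1 (@hι _ _)
      · rintro (rfl | rfl) x
        · simp
        · obtain ⟨x, rfl⟩ := e.surjective x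
          rw [← map_mul, ← map_mul, (L.comm x).eq])
  have := m22_map e'.symm ht
  convert this using 1
  ext x
  constructor
  · rintro ⟨c, ⟨b, hb, hc⟩, rfl⟩
    refine ⟨b, hb, e'.symm_apply_eq.2 ?_⟩
    rw [show c = e (s b) from Subtype.ext hc.symm]
    change b = π (e.symm (e (s b)))
    rw [e.symm_apply_apply, L.map b hb]
  · rintro ⟨b, hb, rfl⟩
    refine ⟨e (s b), ⟨b, hb, rfl⟩, e'.eq_symm_apply.2 ?_⟩
    change π (e.symm (e (s b))) = b
    rw [e.symm_apply_apply, L.map b hb]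

theorem Dbl2.exists_elem (h : Dbl2 d E) : ∃ A : Subgroup G, UniqE d A ∧ (∀ a ∈ A, a * a = 1) ∧
    d ∈ A ∧ Nat.card A = 2048 ∧ {y | y ∈ E ∧ y ∈ A}.ncard = 22 := by
  obtain ⟨C, X, _, _, _, π, z, F, s, ι, a, L, hp, hι, rfl, rfl, hC, ha, ht⟩ := h
  obtain ⟨τ, H⟩ := L.loc.loc a ha
  have hc : Nat.card (((Apl τ).comap π).map ι) = 2048 := by
    rw [card_map_of_injective hι, L.card_comap, H.dbl.card_Apl]
  refine ⟨((Apl τ).comap π).map ι, fun S hS hd => ?_, ?_,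
    mem_map_of_mem _ (by rw [mem_comap, L.map_z]; exact one_mem _), hc, ?_⟩
  · obtain ⟨x, hx⟩ := L.syl ha H (hS.comap_of_injective ι hι)
    refine ⟨ι x, (L.comm x).map ι, fun B hB h1 h2 b => ?_⟩
    have h3 := hx (B.comap ι) (comap_mono hB) (fun b hb => hι (by rw [map_mul, h1 _ hb, map_one])) (by
      rwa [← card_map_of_injective hι, map_comap_eq_self fun b hb => hC b (hd b (hB hb)), ← hc])
    constructor
    · intro hb
      obtain ⟨c, rfl⟩ := hC b (hd b (hB hb))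
      exact ⟨_, (h3 c).1 hb, by simp⟩
    · rintro ⟨c, hc, e⟩
      have : b = ι (x⁻¹ * c * x) := by rw [map_mul, map_mul, map_inv, e]; group
      exact this ▸ (h3 _).2 (by simpa [mul_assoc] using hc)
  · rintro _ ⟨c, hc, rfl⟩
    rw [← map_mul, L.elem H hc, map_one]
  · have : {y | y ∈ (fun a => ι (s a)) '' F ∧ y ∈ ((Apl τ).comap π).map ι} =
        insert (ι (s a)) ((fun i => ι (s (τ i))) '' {k | (k : ℕ) < 21}) := by
      ext y
      constructor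
      · rintro ⟨⟨b, hb, rfl⟩, c, hc, e⟩
        rw [hι e, SetLike.mem_coe, mem_comap, L.map b hb] at hc
        rcases H.cases b hb (H.dbl.rep.Apl_comm H.dbl.d_mem hc) with rfl | ⟨i, rfl⟩
        exacts [Or.inl rfl, Or.inr ⟨i, H.dbl.mem_Apl_iff.1 hc, rfl⟩]
      · rintro (rfl | ⟨i, hi, rfl⟩)
        · exact ⟨⟨a, ha, rfl⟩, mem_map_of_mem _ (by rw [mem_comap, L.map a ha]; exact H.dbl.d_mem)⟩
        · exact ⟨⟨_, H.mem i, rfl⟩, mem_map_of_mem _ (by
            rw [mem_comap, L.map _ (H.mem i)]; exact mem_Apl hi)⟩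
    rw [this, Set.ncard_insert_of_notMem (by
      rintro ⟨i, -, e⟩; exact H.dbl.ne i (L.inj (H.mem i) ha (hι e))),
      Set.ncard_image_of_injective (f := fun i => ι (s (τ i))) _ (hι.comp (L.rep H).inj), ncard_lt21]

end Cfsg.Agent.TT2
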