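import Cfsg.Agent.TT2.M22x

/-!
# Double covers of groups of type `M̃(22)`
-/

set_option autoImplicit false
set_option maxRecDepth 100000

namespace Cfsg.Agent.TT2

open Subgroup

section
variable {G : Type*} [Group G]

theorem card_conj_orbit (H : Subgroup G) (x : G) : Nat.card H =
    {y | ∃ g ∈ H, g * x * g⁻¹ = y}.ncard * Nat.card ↥(H ⊓ centralizer {x}) := by
  let _ : MulAction H G := MulAction.compHom G (MulAut.conj.comp H.subtype)
  have h1 := MulAction.index_stabilizer H x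
  have h2 : MulAction.orbit H x = {y | ∃ g ∈ H, g * x * g⁻¹ = y} := by
    ext y
    exact ⟨fun ⟨g, hg⟩ => ⟨g.1, g.2, hg⟩, fun ⟨g, h, hg⟩ => ⟨⟨g, h⟩, hg⟩⟩
  have h3 : MulAction.stabilizer H x = (H ⊓ centralizer {x}).subgroupOf H := by
    ext g
    simp only [mem_subgroupOf, mem_inf, g.2, true_and, mem_centralizer_singleton_iff]
    exact TT.commute_iff_conj.symm
  rw [← h2, ← h1, ← Nat.card_congr (subgroupOfEquivOfLe (inf_le_left :
    H ⊓ centralizer {x} ≤ H)).toEquiv, ← h3, mul_comm, card_mul_index]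

theorem perfect_of_odd {S : Set G} (hS : closure S = ⊤) (hc : ∀ a ∈ S, ∀ b ∈ S, IsConj a b)
    (hsq : ∀ a ∈ S, a * a = 1) {l : List G} (hl : ∀ a ∈ l, a ∈ S) (ho : Odd l.length)
    (h1 : l.prod = 1) : Group.IsPerfect G := by
  obtain ⟨a, ha⟩ := List.exists_mem_of_length_pos ho.pos
  have h2 : ∀ b ∈ S, Abelianization.of b = Abelianization.of a := fun b hb =>
    isConj_iff_eq.1 (Abelianization.of.map_isConj (hc b hb a (hl a ha)))
  have h3 : Abelianization.of l.prod = Abelianization.of a ^ l.length := by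
    rw [map_list_prod, List.prod_eq_pow_card _ (Abelianization.of a), List.length_map]
    intro x hx
    obtain ⟨b, hb, rfl⟩ := List.mem_map.1 hx
    exact h2 b (hl b hb)
  obtain ⟨k, hk⟩ := ho
  rw [h1, hk, pow_succ, pow_mul, pow_two, ← map_mul, hsq a (hl a ha), map_one, one_pow,
    one_mul] at h3
  refine ⟨eq_top_iff.2 (hS ▸ (closure_le _).2 fun b hb => ?_)⟩
  rw [SetLike.mem_coe, ← Abelianization.ker_of, MonoidHom.mem_ker, h2 b hb, h3]

theorem Dbl.cent {d g : G} {τ : P → G} (h : Dbl d τ) (hg : Commute d g) {i : P}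
    (hi : Commute g (τ i)) : g ∈ closure (τ '' {j | perp i j}) := by
  obtain ⟨C, X, _, _, t, U, π, z, σ, ι, L, hp, hι, rfl, rfl, hC⟩ := h
  obtain ⟨c, rfl⟩ := hC g hg
  rw [map_closure_comp]
  exact mem_map_of_mem _ (L.cent (hi.of_map hι))

theorem Dbl.card_cent {d : G} {τ : P → G} (h : Dbl d τ) :
    Nat.card ↥(closure (τ '' {j | perp 0 j})) = 2 * 13271040 := by
  have h1 := card_conj_orbit (centralizer {d}) (τ 0)
  have h2 : {y | ∃ g ∈ centralizer {d}, g * τ 0 * g⁻¹ = y} = τ '' Set.univ := by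
    ext y
    constructor
    · rintro ⟨g, hg, rfl⟩
      obtain ⟨σ, -, e⟩ := h.act (mem_centralizer_singleton_iff.1 hg).symm
      exact ⟨_, trivial, (e 0).symm⟩
    · rintro ⟨i, -, rfl⟩
      obtain ⟨σ, hσ, rfl⟩ := trans0 i
      obtain ⟨g, hg, e⟩ := h.rep.lift hσ
      exact ⟨g, mem_centralizer_singleton_iff.2 (h.comm_gen hg).symm, e 0⟩
  have h3 : centralizer {d} ⊓ centralizer {τ 0} = closure (τ '' {j | perp 0 j}) := by
    refine le_antisymm (fun g hg => h.cent (mem_centralizer_singleton_iff.1 hg.1).symm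
      (mem_centralizer_singleton_iff.1 hg.2)) ((closure_le _).2 ?_)
    rintro _ ⟨j, hj, rfl⟩
    exact ⟨mem_centralizer_singleton_iff.2 (h.comm j).symm,
      mem_centralizer_singleton_iff.2 (h.rep.commute hj).symm⟩
  rw [h2, h3, h.card, Set.ncard_image_of_injective _ h.rep.inj, Set.ncard_univ] at h1
  simp only [Nat.card_eq_fintype_card, Fintype.card_fin] at h1
  omega

end

/-- lifts of the transpositions to a double cover -/
structure Lift2 {C X : Type*} [Group C] [Group X] (π : C →* X) (z : C) (F : Set X) (s : X → C) :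
    Prop extends Cov π z where
  loc : Loc22 F
  cls : ∀ a ∈ F, ∀ b ∈ F, ∃ x, x * a * x⁻¹ = b
  map : ∀ a ∈ F, π (s a) = a
  sq : ∀ a ∈ F, s a * s a = 1
  eqv : ∀ c, ∀ a ∈ F, c * s a * c⁻¹ = s (π c * a * (π c)⁻¹)

variable {C X : Type*} [Group C] [Group X] {π : C →* X} {z c : C} {F : Set X} {s : X → C}
  {a b : X} {τ ρ : P → X}

theorem exists_Lift2 [Finite X] (V : Cov π z) (h : Loc22 F)
    (hcl : ∀ a ∈ F, ∀ b ∈ F, ∃ x, x * a * x⁻¹ = b) (ha : a ∈ F) : ∃ s, Lift2 π z F s := by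
  obtain ⟨τ, H⟩ := h.loc a ha
  obtain ⟨l, l1, l2, l3⟩ : ∃ l : List X, Odd l.length ∧ l.prod = 1 ∧ ∀ x ∈ l, x ∈ F ∧ x ∈ Apl τ := by
    obtain ⟨r, hr, e⟩ := H.dbl.hyp
    refine ⟨a :: r.map τ, ?_, by rw [List.prod_cons, e, H.dbl.dd], fun x hx => ?_⟩
    · rw [List.length_cons, List.length_map, (by decide : ∀ r ∈ hypL, r.length = 6) r hr]; decide
    · rcases List.mem_cons.1 hx with rfl | hx
      · exact ⟨ha, H.dbl.d_mem⟩
      · obtain ⟨i, hi, rfl⟩ := List.mem_map.1 hx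
        exact ⟨H.mem i, mem_Apl ((by decide : ∀ r ∈ hypL, ∀ i : P, i ∈ r → (i : ℕ) < 21) r hr i hi)⟩
  obtain ⟨s, h1, h2, h3⟩ := V.exists_lift h.lc3.sq hcl
    (fun a ha b hb a' ha' b' hb' => h.pair hcl ha hb ha' hb') ha
    (L := ([0, 1, 2, 3, 4] : List P).map τ) (fun b hb => by
      obtain ⟨i, -, rfl⟩ := List.mem_map.1 hb
      exact ⟨H.mem i, H.dbl.ne i, H.dbl.comm i⟩) (by simp; decide) (Or.inr H.dbl.line)
    (fun b hb => (l3 b hb).1) (fun x hx y hy => H.dbl.rep.Apl_comm (l3 x hx).2 (l3 y hy).2) l1 l2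
    fun g hg => H.closure_le (H.dbl.gen hg.symm)
  exact ⟨s, V, h, hcl, h1, h2, h3⟩

theorem Lift2.swap (L : Lift2 π z F s) : Lift2 π z F fun a => z * s a :=
  ⟨L.toCov, L.loc, L.cls, fun a ha => by rw [map_mul, L.map_z, one_mul, L.map a ha],
    fun a ha => TT.mul_self_of_commute L.zz (L.sq a ha) (L.comm _),
    fun c a ha => by rw [← L.eqv c a ha, ← mul_assoc, ← (L.comm c).eq]; group⟩

theorem Lift2.comm_iff (L : Lift2 π z F s) (ha : a ∈ F) : Commute c (s a) ↔ Commute (π c) a :=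
  ⟨fun h => L.map a ha ▸ h.map π, fun h => by
    rw [TT.commute_iff_conj, L.eqv c a ha, TT.commute_iff_conj.1 h]⟩

theorem Lift2.commute (L : Lift2 π z F s) (ha : a ∈ F) (hb : b ∈ F) (h : Commute a b) :
    Commute (s a) (s b) := (L.comm_iff hb).2 (by rwa [L.map a ha])

theorem Lift2.inj (L : Lift2 π z F s) (ha : a ∈ F) (hb : b ∈ F) (h : s a = s b) : a = b := by
  rw [← L.map a ha, h, L.map b hb]

theorem Lift2.star (L : Lift2 π z F s) (ha : a ∈ F) (hb : b ∈ F) :
    s a * s b * s a = s (a * b * a) := by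
  have := L.eqv (s a) b hb
  rwa [L.map a ha, TT.inv_of_sq (L.sq a ha), TT.inv_of_sq (L.loc.lc3.sq a ha)] at this

theorem Lift2.rep (L : Lift2 π z F s) (H : DP F a τ) : Rep fun i => s (τ i) :=
  ⟨fun i j e => H.dbl.rep.inj (L.inj (H.mem i) (H.mem j) e), fun i => L.sq _ (H.mem i),
    fun i j => by rw [L.star (H.mem i) (H.mem j), H.dbl.rep.conj]⟩

theorem Lift2.map_prod (L : Lift2 π z F s) (H : DP F a τ) (w : List P) :
    π (w.map fun i => s (τ i)).prod = (w.map τ).prod := by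
  rw [map_list_prod, List.map_map]
  exact congrArg _ (List.map_congr_left fun i _ => L.map _ (H.mem i))

theorem Lift2.line_cases (L : Lift2 π z F s) (ha : a ∈ F) (H : DP F a τ) :
    (([0, 1, 2, 3, 4] : List P).map fun i => s (τ i)).prod = s a ∨
      (([0, 1, 2, 3, 4] : List P).map fun i => s (τ i)).prod = z * s a :=
  L.eq_iff.1 (by rw [L.map_prod H, H.dbl.line, L.map a ha])

theorem Lift2.line_comm (L : Lift2 π z F s) (H : DP F a τ) (i : P) :
    Commute (([0, 1, 2, 3, 4] : List P).map fun i => s (τ i)).prod (s (τ i)) :=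
  (L.comm_iff (H.mem i)).2 (by rw [L.map_prod H, H.dbl.line]; exact H.dbl.comm i)

theorem Lift2.five (L : Lift2 π z F s) (H : DP F a τ) {i j k l m : P} (hc : Clq [i, j, k, l, m])
    (hne : i ≠ j) (e : ([i, j, k, l, m].map τ).prod = a) :
    ([i, j, k, l, m].map fun i => s (τ i)).prod =
      (([0, 1, 2, 3, 4] : List P).map fun i => s (τ i)).prod := by
  obtain ⟨σ, hσ, h1, h2⟩ := H.dbl.five hc hne e
  have R := L.rep H
  obtain ⟨g, hg, e'⟩ := R.lift hσ
  have h3 := conj_prod e' [i, j, k, l, m]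
  rw [prod_eq_of_xl R.comm21 R.sq h1 (by decide) h2] at h3
  refine (TT.conj_inj_iff g).1 (h3.trans (TT.commute_iff_conj.1 ?_).symm)
  obtain ⟨w, -, rfl⟩ := exists_list_of_mem_closure R.sq hg
  refine (Commute.list_prod_right _ _ fun x hx => ?_).symm
  obtain ⟨i, -, rfl⟩ := List.mem_map.1 hx
  exact L.line_comm H i

theorem Lift2.five' (L : Lift2 π z F s) (H : DP F b ρ) {l : List X} (h5 : l.length = 5)
    (h1 : ∀ y ∈ l, y ∈ F ∧ y ≠ b ∧ Commute b y) (h2 : ∀ y ∈ l, ∀ y' ∈ l, Commute y y')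
    (h3 : l.Nodup) (e : l.prod = b) :
    (l.map s).prod = (([0, 1, 2, 3, 4] : List P).map fun i => s (ρ i)).prod := by
  obtain ⟨w, rfl⟩ : ∃ w : List P, w.map ρ = l := by
    have : l ∈ Set.range (List.map ρ) := by
      rw [Set.range_list_map]
      exact fun y hy => H.ex (h1 y hy).1 (h1 y hy).2.2 (h1 y hy).2.1
    exact this
  rw [List.length_map] at h5
  match w, h5 with
  | [i, j, k, l, m], _ =>
    rw [List.map_map]
    exact L.five H (fun x hx y hy => H.dbl.rep.commute_iff.1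
      (h2 _ (List.mem_map_of_mem hx) _ (List.mem_map_of_mem hy))) (fun e => by simp [e] at h3) e

theorem Lift2.line_indep (L : Lift2 π z F s) (ha : a ∈ F) (hb : b ∈ F) (H : DP F a τ)
    (H' : DP F b ρ) : s b * (([0, 1, 2, 3, 4] : List P).map fun i => s (ρ i)).prod =
      s a * (([0, 1, 2, 3, 4] : List P).map fun i => s (τ i)).prod := by
  obtain ⟨x, rfl⟩ := L.cls a ha b hb
  obtain ⟨c, rfl⟩ := L.surj x
  have H2 := H.conj L.loc (π c)
  rw [← L.five' H' (l := ([0, 1, 2, 3, 4] : List P).map fun i => π c * τ i * (π c)⁻¹) rfl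
    (fun y hy => by
      obtain ⟨i, -, rfl⟩ := List.mem_map.1 hy
      exact ⟨H2.mem i, H2.dbl.ne i, H2.dbl.comm i⟩)
    (fun y hy y' hy' => by
      obtain ⟨i, hi, rfl⟩ := List.mem_map.1 hy
      obtain ⟨j, hj, rfl⟩ := List.mem_map.1 hy'
      have := (by decide : ∀ i ∈ ([0, 1, 2, 3, 4] : List P), (i : ℕ) < 21)
      exact H2.dbl.rep.comm21 i j (this i hi) (this j hj))
    ((by decide : ([0, 1, 2, 3, 4] : List P).Nodup).map H2.dbl.rep.inj) H2.dbl.line,
    ← L.eqv c a ha, List.map_map, show (List.map (s ∘ fun i => π c * τ i * (π c)⁻¹)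
      ([0, 1, 2, 3, 4] : List P)).prod = c * (([0, 1, 2, 3, 4] : List P).map fun i => s (τ i)).prod * c⁻¹
      from (congrArg _ (List.map_congr_left fun i _ => (L.eqv c _ (H.mem i)).symm)).trans
        (map_prod_comp (MulAut.conj c).toMonoidHom _ _)]
  rcases L.line_cases ha H with e | e <;> rw [e]
  · rw [TT.conj_mul_self c (L.sq a ha), L.sq a ha]
  · rw [← mul_assoc (s a), ← (L.comm _).eq, mul_assoc z, L.sq a ha, ← mul_assoc c, ← (L.comm c).eq,
      mul_assoc z, mul_assoc z, ← mul_assoc _ z, ← (L.comm _).eq, mul_assoc z,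
      TT.conj_mul_self c (L.sq a ha)]

theorem Lift2.hexad (L : Lift2 π z F s) (ha : a ∈ F) (H : DP F a τ) {r : List P} (hr : r ∈ hypL)
    (e : (r.map τ).prod = 1) : (r.map fun i => s (τ i)).prod =
      s a * (([0, 1, 2, 3, 4] : List P).map fun i => s (τ i)).prod := by
  obtain ⟨w, rfl, h5, h1, h2⟩ : ∃ w, r = 0 :: w ∧ w.length = 5 ∧ (∀ i ∈ w, (i : ℕ) < 21 ∧ i ≠ 0) ∧
      w.Nodup := ⟨r.tail, (by decide : ∀ r ∈ hypL, r = 0 :: r.tail ∧ r.tail.length = 5 ∧
        (∀ i : P, i ∈ r.tail → (i : ℕ) < 21 ∧ i ≠ 0) ∧ r.tail.Nodup) r hr⟩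
  obtain ⟨ρ, H'⟩ := L.loc.loc _ (H.mem 0)
  have R := H.dbl.rep
  rw [List.map_cons, List.prod_cons, mul_eq_one_iff_inv_eq, R.inv] at e
  rw [← L.line_indep ha (H.mem 0) H H', ← L.five' H' (l := w.map τ) (by simpa using h5)
    (fun y hy => by
      obtain ⟨i, hi, rfl⟩ := List.mem_map.1 hy
      exact ⟨H.mem i, R.inj.ne (h1 i hi).2, R.comm21 0 i (by decide) (h1 i hi).1⟩)
    (fun y hy y' hy' => by
      obtain ⟨i, hi, rfl⟩ := List.mem_map.1 hy
      obtain ⟨j, hj, rfl⟩ := List.mem_map.1 hy'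
      exact R.comm21 i j (h1 i hi).1 (h1 j hj).1) (h2.map R.inj) e.symm, List.map_map]
  rfl

theorem Lift2.not_mem (L : Lift2 π z F s) (ha : a ∈ F) (H : DP F a τ)
    (hl : (([0, 1, 2, 3, 4] : List P).map fun i => s (τ i)).prod = s a)
    (hh : ∀ r ∈ hypL, (r.map fun i => s (τ i)).prod = 1 ∨ (r.map fun i => s (τ i)).prod = s a) :
    z ∉ closure ((fun i => s (τ i)) '' Set.univ) := by
  intro hz
  obtain ⟨Y, _, t, U, p, p1, p2, p3⟩ := H.dbl.proj
  have haa := L.sq a ha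
  let K := centralizer {s a}
  have hK : ∀ c, c ∈ K ↔ Commute (π c) a := fun c =>
    mem_centralizer_singleton_iff.trans (L.comm_iff ha)
  let φ : K →* centralizer {a} := (π.comp K.subtype).codRestrict _ fun c =>
    mem_centralizer_singleton_iff.2 ((hK c).1 c.2)
  let N := (zpowers (s a)).subgroupOf K
  have hN : ∀ c : K, c ∈ N ↔ (c : C) = 1 ∨ (c : C) = s a := fun c => TT.mem_zpowers_of_sq haa
  have : N.Normal := ⟨fun n hn g => by
    rcases (hN n).1 hn with e | e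
    · exact (hN _).2 (Or.inl (by simp [e]))
    · exact (hN _).2 (Or.inr (by
        rw [coe_mul, coe_mul, e]; exact TT.commute_iff_conj.1 (mem_centralizer_singleton_iff.1 g.2)))⟩
  have hker : ∀ c : K, p (φ c) = 1 ↔ ((c : C) = 1 ∨ (c : C) = z) ∨ (c : C) = s a ∨ (c : C) = z * s a :=
    fun c => by
      rw [p2, ← L.ker, ← L.eq_iff, L.map a ha]; rfl
  let π1 : K ⧸ N →* Y := QuotientGroup.lift N (p.comp φ) fun c hc =>
    (hker c).2 (((hN c).1 hc).imp Or.inl Or.inl)
  let z1 : K := ⟨z, mem_centralizer_singleton_iff.2 (L.comm _)⟩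
  let σ : P → K := fun i => ⟨s (τ i), (hK _).2 (by rw [L.map _ (H.mem i)]; exact (H.dbl.comm i).symm)⟩
  have hσ : ∀ w : List P, ((w.map σ).prod : C) = (w.map fun i => s (τ i)).prod := fun w =>
    (map_prod_comp K.subtype σ w).symm
  let q := QuotientGroup.mk' N
  have V : Cov π1 (q z1) := by
    refine ⟨fun y => ?_, fun c => ?_, by rw [← map_mul, show z1 * z1 = 1 from Subtype.ext L.zz, map_one],
      fun e => ?_, fun c => ?_⟩
    · obtain ⟨x, rfl⟩ := p1 y
      obtain ⟨c, hc⟩ := L.surj x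
      exact ⟨q ⟨c, (hK c).2 (hc ▸ mem_centralizer_singleton_iff.1 x.2)⟩, congrArg p (Subtype.ext hc)⟩
    · obtain ⟨c, rfl⟩ := QuotientGroup.mk'_surjective N c
      refine (hker c).trans ?_
      rw [QuotientGroup.mk'_apply, QuotientGroup.eq_one_iff, QuotientGroup.mk'_apply, eq_comm (b := (z1 : K ⧸ N)),
        QuotientGroup.eq, hN, hN, coe_mul, coe_inv, inv_mul_eq_iff_eq_mul, inv_mul_eq_iff_eq_mul, mul_one]
      tauto
    · rcases (hN z1).1 ((QuotientGroup.eq_one_iff _).1 e) with e | e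
      · exact L.zne e
      · exact H.dbl.dne (by rw [← L.map a ha, ← show z = s a from e, L.map_z])
    · obtain ⟨c, rfl⟩ := QuotientGroup.mk'_surjective N c
      exact (show Commute z1 c from Subtype.ext (L.comm c)).map q
  have m1 : ∀ i, π1 (q (σ i)) = t i := fun i => p3 i _ (L.map _ (H.mem i))
  have m2 : ∀ i, q (σ i) * q (σ i) = 1 := fun i => by
    rw [← map_mul, show σ i * σ i = 1 from Subtype.ext (L.sq _ (H.mem i)), map_one]
  have m3 : ∀ c i, c * q (σ i) * c⁻¹ = q (σ (U.act (π1 c) i)) := fun c i => by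
    obtain ⟨c, rfl⟩ := QuotientGroup.mk'_surjective N c
    obtain ⟨ψ, -, e⟩ := H.dbl.act ((hK c).1 c.2).symm
    have e1 : c * σ i * c⁻¹ = σ (ψ i) := Subtype.ext ((L.eqv c _ (H.mem i)).trans (congrArg s (e i)))
    have e2 : U.act (π1 (q c)) i = ψ i := U.inj (by
      rw [← U.act_spec, ← m1, ← m1, ← e1]; simp only [map_mul, map_inv])
    rw [e2, ← e1, map_mul, map_mul, map_inv]
  have m4 : ∀ w : List P, (w.map fun i => s (τ i)).prod = 1 ∨ (w.map fun i => s (τ i)).prod = s a →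
      (w.map fun i => q (σ i)).prod = 1 := fun w hw => by
    rw [map_prod_comp, QuotientGroup.mk'_apply, QuotientGroup.eq_one_iff, hN, hσ]; exact hw
  have L1 : Lift U π1 (q z1) fun i => q z1 * q (σ i) :=
    ⟨V, fun i => by rw [map_mul, V.map_z, one_mul, m1],
      fun i => TT.mul_self_of_commute V.zz (m2 i) (V.comm _),
      fun c i => by rw [← m3, ← mul_assoc, ← (V.comm c).eq]; group, by
      rw [prod_mul_left fun _ => V.comm _, m4 _ (Or.inr hl), mul_one]
      change q z1 ^ 5 = q z1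
      simp only [pow_succ, V.zz, pow_zero, one_mul]⟩
  have hz1 : q z1 ∈ closure (Set.range fun i => q (σ i)) := by
    obtain ⟨w, -, e⟩ := exists_list_of_mem_closure (L.rep H).sq hz
    rw [show z1 = (w.map σ).prod from Subtype.ext (e.symm.trans (hσ w).symm), ← map_prod_comp,
      ← Set.image_univ]
    exact prod_mem_closure fun _ _ => trivial
  obtain ⟨r, hr, e⟩ := L1.exists_hyp (perfect_of_odd (S := Set.range fun i => q (σ i))
    (eq_top_iff.2 (L1.gen ▸ (closure_le _).2 (by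
      rintro _ ⟨i, rfl⟩; exact mul_mem hz1 (subset_closure ⟨i, rfl⟩)))) (by
      rintro _ ⟨i, rfl⟩ _ ⟨j, rfl⟩
      obtain ⟨ψ, hψ, rfl⟩ := trans0 i
      obtain ⟨ψ', hψ', rfl⟩ := trans0 j
      obtain ⟨x, -, hx⟩ := U.exists_act (mul_mem hψ' (inv_mem hψ))
      obtain ⟨x, rfl⟩ := V.surj x
      exact isConj_iff.2 ⟨x, by rw [m3, hx]; simp⟩) (by rintro _ ⟨i, rfl⟩; exact m2 i)
    (l := ([0, 1, 2, 3, 4] : List P).map fun i => q (σ i)) (fun a ha => by
      obtain ⟨i, -, rfl⟩ := List.mem_map.1 ha; exact ⟨i, rfl⟩) (by simp; decide) (m4 _ (Or.inr hl)))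
  rw [prod_mul_left fun _ => V.comm _, m4 r (hh r hr), (by decide : ∀ r ∈ hypL, r.length = 2 * 3) r hr,
    pow_mul, pow_two, V.zz, one_pow, mul_one] at e
  exact V.zne e.symm

theorem Lift2.no_split [Finite X] (L : Lift2 π z F s) (hp : Group.IsPerfect C) (ha : a ∈ F)
    (H : DP F a τ) (hl : (([0, 1, 2, 3, 4] : List P).map fun i => s (τ i)).prod = s a)
    (hh : ∀ r ∈ hypL, (r.map fun i => s (τ i)).prod = 1 ∨ (r.map fun i => s (τ i)).prod = s a) :
    False := by
  have hfin : Finite C := Nat.finite_of_card_ne_zero (by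
    rw [L.card]; exact mul_ne_zero two_ne_zero Nat.card_pos.ne')
  have hz := L.not_mem ha H hl hh
  have R := L.rep H
  let K := closure ((fun i => s (τ i)) '' {j | perp 0 j})
  have hzK : z ∉ K := fun h => hz (Subgroup.closure_mono (Set.image_mono (Set.subset_univ _)) h)
  have hK : ∀ e ∈ F, Commute a e → Commute (τ 0) e → s e ∈ K := fun e he h1 h2 => by
    rcases H.cases e he h1 with rfl | ⟨j, rfl⟩
    · rw [← hl]
      exact prod_mem_closure fun i hi => perp_of_lt (by decide)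
        ((by decide : ∀ i ∈ ([0, 1, 2, 3, 4] : List P), (i : ℕ) < 21) i hi)
    · exact subset_closure ⟨j, H.dbl.rep.commute_iff.1 h2, rfl⟩
  have hKa : ∀ k ∈ K, Commute k (s a) := fun k hk => by
    obtain ⟨w, -, rfl⟩ := exists_list_of_mem_closure R.sq hk
    refine (Commute.list_prod_right _ _ fun x hx => ?_).symm
    obtain ⟨i, -, rfl⟩ := List.mem_map.1 hx
    exact L.commute ha (H.mem i) (H.dbl.comm i)
  obtain ⟨b, hb, ρ, H', e0, e1⟩ := L.loc.third ha (H.mem 0) (H.dbl.comm 0) (H.dbl.ne 0).symm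
  obtain ⟨t, t1, t2, t3⟩ : ∃ t, t * t = 1 ∧ π t * a * (π t)⁻¹ = τ 0 ∧ π t * τ 0 * (π t)⁻¹ = a := by
    refine ⟨_, (L.rep H').sq_word (w := [21, 24]) (by decide +kernel), ?_, ?_⟩
    · rw [L.map_prod H', ← e0, H'.dbl.rep.conj_word, ← e1]; congr 1
    · rw [L.map_prod H', ← e1, H'.dbl.rep.conj_word, ← e0]; congr 1
  have t4 : ¬ Commute t (s a) := fun h =>
    H.dbl.ne 0 (t2.symm.trans (TT.commute_iff_conj.1 ((L.comm_iff ha).1 h)))
  obtain ⟨h1, h2⟩ := card_sup_zpowers (H := K) t1 (fun k hk => by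
    have : K.map (MulAut.conj t).toMonoidHom ≤ K := by
      rw [MonoidHom.map_closure, closure_le]
      rintro _ ⟨_, ⟨j, hj, rfl⟩, rfl⟩
      change t * s (τ j) * t⁻¹ ∈ K
      rw [L.eqv t _ (H.mem j)]
      exact hK _ (L.loc.cj _ _ (H.mem j))
        (t3 ▸ (TT.commute_conj_iff _).2 (H.dbl.rep.commute hj))
        (t2 ▸ (TT.commute_conj_iff _).2 (H.dbl.comm j))
    exact this (mem_map_of_mem _ hk)) fun h => t4 (hKa t h)
  have h3 : Nat.card K = 2 * 13271040 := by
    rw [← H.dbl.card_cent, show closure (τ '' {j | perp 0 j}) = K.map π by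
      rw [← map_closure_comp]; simp only [L.map _ (H.mem _)]]
    refine Nat.card_congr (Equiv.ofBijective (π.subgroupMap K) ⟨?_, π.subgroupMap_surjective K⟩)
    rw [injective_iff_map_eq_one]
    intro k hk
    exact Subtype.ext (((L.ker k).1 (congrArg Subtype.val hk)).resolve_right fun e => hzK (e ▸ k.2))
  have h4 := (K ⊔ zpowers t).card_mul_index
  have h5 : F = conjugatesOf a := Set.ext fun y =>
    ⟨fun hy => isConj_iff.2 (L.cls a ha y hy), fun hy => by
      obtain ⟨g, rfl⟩ := isConj_iff.1 hy; exact L.loc.cj g a ha⟩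
  rw [h2, h3, L.card, card_class a, ← h5, L.loc.ncard_eq ha, H.dbl.card] at h4
  rcases (h1 z).1 (not_mem_of_perfect hp L.zz L.comm (by omega)) with h | h
  · exact hzK h
  · exact t4 (by simpa using (L.comm (s a)).inv_left.mul_left (hKa _ h))

theorem Lift2.hyp_cases (L : Lift2 π z F s) (ha : a ∈ F) (H : DP F a τ) {r : List P}
    (hr : r ∈ hypL) : (r.map fun i => s (τ i)).prod =
        s a * (([0, 1, 2, 3, 4] : List P).map fun i => s (τ i)).prod ∨
      (r.map fun i => s (τ i)).prod = s a ∨ (r.map fun i => s (τ i)).prod = z * s a :=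
  (H.dbl.hyps r hr).imp (L.hexad ha H hr) fun e => L.eq_iff.1 (by rw [L.map_prod H, e, L.map a ha])

theorem three_vals {α v1 v2 v3 h : C} (zz : z * z = 1) (aa : α * α = 1) (c : Commute z α)
    (n1 : z ≠ 1) (n2 : α ≠ 1) (n3 : z * α ≠ 1) (h1 : v1 = h ∨ v1 = α ∨ v1 = z * α)
    (h2 : v2 = h ∨ v2 = α ∨ v2 = z * α) (h3 : v3 = h ∨ v3 = α ∨ v3 = z * α)
    (e : v1 * (v2 * v3) = 1) :
    (h = 1 → (v1 ≠ z * α ∧ v2 ≠ z * α ∧ v3 ≠ z * α) ∨ (v1 ≠ α ∧ v2 ≠ α ∧ v3 ≠ α)) ∧
      (h = z → (v1 = α ∨ v2 = α ∨ v3 = α) ∧ (v1 = z * α ∨ v2 = z * α ∨ v3 = z * α)) := by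
  have r1 : ∀ x, α * (z * x) = z * (α * x) := fun x => by rw [← mul_assoc, ← c.eq, mul_assoc]
  have r2 := TT.sq_cancel zz
  have r3 := TT.sq_cancel aa
  have r4 := c.symm.eq
  constructor <;> rintro rfl <;> rcases h1 with rfl | rfl | rfl <;> rcases h2 with h2 | h2 | h2 <;>
    rcases h3 with h3 | h3 | h3 <;>
    simp only [h2, h3, mul_assoc, r1, r2, r3, r4, zz, aa, mul_one, one_mul, n1, n2, n3] at e <;>
    simp [h2, h3, n1, n2, n3, n1.symm, n2.symm, n3.symm]

theorem Lift2.three (L : Lift2 π z F s) (ha : a ∈ F) (H : DP F a τ) {h : C}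
    (h1 : ∀ r ∈ hypL, (r.map fun i => s (τ i)).prod = h ∨ (r.map fun i => s (τ i)).prod = s a ∨
      (r.map fun i => s (τ i)).prod = z * s a)
    (h2 : (hypL.map fun r => (r.map fun i => s (τ i)).prod).prod = 1) :
    (h = 1 → (∀ r ∈ hypL, (r.map fun i => s (τ i)).prod ≠ z * s a) ∨
      ∀ r ∈ hypL, (r.map fun i => s (τ i)).prod ≠ s a) ∧
    (h = z → (∃ r ∈ hypL, (r.map fun i => s (τ i)).prod = s a) ∧
      ∃ r ∈ hypL, (r.map fun i => s (τ i)).prod = z * s a) := by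
  obtain ⟨r1, r2, r3, e⟩ : ∃ r1 r2 r3, hypL = [r1, r2, r3] := ⟨_, _, _, rfl⟩
  rw [e] at h1 h2 ⊢
  simp only [List.forall_mem_cons, List.map_cons, List.map_nil, List.prod_cons, List.prod_nil,
    mul_one, List.not_mem_nil, false_imp_iff, implies_true, and_true, List.mem_cons, or_false,
    exists_eq_or_imp, exists_eq_left, forall_eq_or_imp, forall_eq] at h1 h2 ⊢
  exact three_vals L.zz (L.sq a ha) (L.comm _) L.zne
    (fun e => H.dbl.dne (by rw [← L.map a ha, e, map_one]))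
    (fun e => H.dbl.dne (by simpa [L.map_z, L.map a ha] using congrArg π e)) h1.1 h1.2.1 h1.2.2 h2

theorem Lift2.line [Finite X] (L : Lift2 π z F s) (hp : Group.IsPerfect C) (ha : a ∈ F)
    (H : DP F a τ) : (([0, 1, 2, 3, 4] : List P).map fun i => s (τ i)).prod = z * s a := by
  refine (L.line_cases ha H).resolve_left fun hl => ?_
  have haa := L.sq a ha
  have h1 := fun r hr => L.hyp_cases (r := r) ha H hr
  rw [hl, haa] at h1
  by_cases h2 : ∀ r ∈ hypL, (r.map fun i => s (τ i)).prod ≠ z * s a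
  · exact L.no_split hp ha H hl fun r hr => (h1 r hr).imp_right (·.resolve_right (h2 r hr))
  by_cases h3 : ∀ r ∈ hypL, (r.map fun i => s (τ i)).prod ≠ s a
  · refine L.swap.no_split hp ha H ?_ fun r hr => ?_
    · rw [prod_mul_left fun _ => L.comm _, hl]
      change z ^ 5 * _ = _
      simp only [pow_succ, L.zz, pow_zero, one_mul]
    · rw [prod_mul_left fun _ => L.comm _, (by decide : ∀ r ∈ hypL, r.length = 2 * 3) r hr,
        pow_mul, pow_two, L.zz, one_pow, one_mul]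
      exact (h1 r hr).imp_right (·.resolve_left (h3 r hr))
  have h4 := (L.rep H).hyp_prod (fun i => L.commute ha (H.mem i) (H.dbl.comm i)) hl
  exact ((L.three ha H h1 h4).1 rfl).elim h2 h3

theorem Lift2.hyps [Finite X] (L : Lift2 π z F s) (hp : Group.IsPerfect C) (ha : a ∈ F)
    (H : DP F a τ) : (∃ r ∈ hypL, (r.map fun i => s (τ i)).prod = s a) ∧
      ∃ r ∈ hypL, (r.map fun i => s (τ i)).prod = z * s a := by
  have hl := L.line hp ha H
  have h1 := fun r hr => L.hyp_cases (r := r) ha H hr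
  rw [hl, (L.comm _).eq, TT.sq_cancel (L.sq a ha), ← (L.comm _).eq] at h1
  exact (L.three ha H h1 ((L.rep H).hyp_prod (fun i => (L.comm _).mul_left
    (L.commute ha (H.mem i) (H.dbl.comm i))) hl)).2 rfl

end Cfsg.Agent.TT2
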