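import Cfsg.Agent.TT2.Cov22

/-!
# Involutions in double covers of groups of type `M̃(22)`
-/

set_option autoImplicit false
set_option maxRecDepth 100000

namespace Cfsg.Agent.TT2

open Subgroup

section
variable {G : Type*} [Group G] {τ : P → G} {r : List P}

theorem Rep.sq_hyp (R : Rep τ) (hr : r ∈ hypL) : ∃ u, u * u = (r.map τ).prod * (τ 0 * τ 1) := by
  obtain ⟨w, hw, v, h1, h2⟩ : ∃ w : List P, Clq w ∧ ∃ v : List P,
      (∀ i ∈ v.map (wact w) ++ v, (i : ℕ) < 21) ∧ xl (v.map (wact w) ++ v) = xl (r ++ [0, 1]) := by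
    simp only [hypL, List.mem_cons, List.not_mem_nil, or_false] at hr
    rcases hr with rfl | rfl | rfl
    · exact ⟨[525, 573, 22, 23], by decide +kernel, [5, 18], by decide +kernel⟩
    · exact ⟨[531, 579, 406, 380], by decide +kernel, [5, 14], by decide +kernel⟩
    · exact ⟨[396, 374, 150, 261], by decide +kernel, [5, 16], by decide +kernel⟩
  refine ⟨_, (R.isSq_word hw v).trans ?_⟩
  rw [prod_eq_of_xl R.comm21 R.sq h1
    ((by decide : ∀ r ∈ hypL, ∀ i : P, i ∈ r ++ [0, 1] → (i : ℕ) < 21) r hr) h2, List.map_append,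
    List.prod_append]
  simp

theorem Rep.hyp_tri (R : Rep τ) (hr : r ∈ hypL) : ∃ i j k : P, (i : ℕ) < 21 ∧ (j : ℕ) < 21 ∧
    (k : ℕ) < 21 ∧ i ≠ j ∧ i ≠ k ∧ j ≠ k ∧
      (r.map τ).prod * (τ 0 * (τ 1 * τ 5)) = τ i * (τ j * τ k) := by
  obtain ⟨i, j, k, h1, h2, h3, h4, h5, h6, h7⟩ : ∃ i j k : P, (i : ℕ) < 21 ∧ (j : ℕ) < 21 ∧
      (k : ℕ) < 21 ∧ i ≠ j ∧ i ≠ k ∧ j ≠ k ∧ xl (r ++ [0, 1, 5]) = xl [i, j, k] := by
    simp only [hypL, List.mem_cons, List.not_mem_nil, or_false] at hr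
    rcases hr with rfl | rfl | rfl
    exacts [⟨8, 18, 19, by decide +kernel⟩, ⟨11, 14, 20, by decide +kernel⟩,
      ⟨12, 16, 17, by decide +kernel⟩]
  refine ⟨i, j, k, h1, h2, h3, h4, h5, h6, ?_⟩
  simpa using prod_eq_of_xl R.comm21 R.sq
    ((by decide : ∀ r ∈ hypL, ∀ i : P, i ∈ r ++ [0, 1, 5] → (i : ℕ) < 21) r hr)
    (by simpa using ⟨h1, h2, h3⟩) h7

end

variable {C X : Type*} [Group C] [Group X] {π : C →* X} {z c : C} {F : Set X} {s : X → C}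
  {a b e : X} {τ ρ : P → X}

theorem Lift2.elem (L : Lift2 π z F s) (H : DP F a τ) (hc : π c ∈ Apl τ) : c * c = 1 := by
  obtain ⟨w, hw, e⟩ := exists_list_of_mem_closure H.dbl.rep.sq hc
  have h1 := (L.rep H).Apl_sq (prod_mem_closure (S := {k | (k : ℕ) < 21}) hw)
  rcases L.eq_iff.1 (e.symm.trans (L.map_prod H w).symm) with rfl | rfl
  exacts [h1, TT.mul_self_of_commute L.zz h1 (L.comm _)]

variable [Finite X]

theorem Lift2.sq_ne (L : Lift2 π z F s) (ha : a ∈ F) (c : C) : c * c ≠ z := fun h => by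
  obtain ⟨b, -, ρ, H, w, hw, e⟩ := L.loc.invol (x := π c) ha (by rw [← map_mul, h, L.map_z])
  have h1 : (w.map ρ).prod ∈ Apl ρ := prod_mem_closure (S := {k | (k : ℕ) < 21})
    ((by decide : ∀ w ∈ ([[], [0], [0, 1], [0, 1, 5]] : List (List P)), ∀ i : P, i ∈ w →
      (i : ℕ) < 21) w hw)
  refine L.zne (h.symm.trans (L.elem H ?_))
  rcases e with e | e <;> rw [e]
  exacts [h1, mul_mem H.dbl.d_mem h1]

omit [Finite X] in
theorem Lift2.sq2 (L : Lift2 π z F s) (ha : a ∈ F) (hb : b ∈ F) (hc : Commute a b) (hne : a ≠ b) :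
    ∃ u, u * u = s a * s b := by
  obtain ⟨_, -, ρ, H, rfl, rfl⟩ := L.loc.third ha hb hc hne
  obtain ⟨u, -, e⟩ := (L.rep H).sq_01
  exact ⟨u, e⟩

theorem Lift2.sqz2 (L : Lift2 π z F s) (hp : Group.IsPerfect C) (ha : a ∈ F) (hb : b ∈ F)
    (hc : Commute a b) (hne : a ≠ b) : ∃ u, u * u = z * (s a * s b) := by
  obtain ⟨ρ, H, rfl⟩ := L.loc.pt ha hb hc hne.symm
  obtain ⟨u, -, e⟩ := (L.rep H).sq_z0 (L.line hp ha H)
  exact ⟨u, by rw [e, mul_assoc]⟩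

theorem Lift2.sq3 (L : Lift2 π z F s) (hp : Group.IsPerfect C) (ha : a ∈ F) (hb : b ∈ F)
    (he : e ∈ F) (h1 : Commute a b) (h2 : Commute a e) (h3 : Commute b e) (n1 : a ≠ b) (n2 : a ≠ e)
    (n3 : b ≠ e) : (∃ u, u * u = s a * (s b * s e)) ∧ ∃ u, u * u = z * (s a * (s b * s e)) := by
  obtain ⟨ρ, H, rfl, rfl⟩ := L.loc.pt2 ha hb he h1 h2 n1.symm n2.symm h3 n3
  obtain ⟨⟨r, hr, e⟩, r', hr', e'⟩ := L.hyps hp ha H
  exact ⟨e ▸ (L.rep H).sq_hyp hr, by rw [← mul_assoc, ← e']; exact (L.rep H).sq_hyp hr'⟩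

theorem Lift2.classes (L : Lift2 π z F s) (hp : Group.IsPerfect C) (ha : a ∈ F) (hc : c * c = 1) :
    c = z ∨ (∃ b ∈ F, c = s b ∨ c = z * s b) ∨ ∃ u, u * u = c := by
  obtain ⟨b, hb, ρ, H, w, hw, e⟩ := L.loc.invol (x := π c) ha (by rw [← map_mul, hc, map_one])
  have R := H.dbl.rep
  have e' : (c = (w.map fun i => s (ρ i)).prod ∨ c = z * (w.map fun i => s (ρ i)).prod) ∨
      c = s b * (w.map fun i => s (ρ i)).prod ∨ c = z * (s b * (w.map fun i => s (ρ i)).prod) :=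
    e.imp (fun e => L.eq_iff.1 (by rw [e, L.map_prod H])) fun e =>
      L.eq_iff.1 (by rw [e, map_mul, L.map_prod H, L.map b hb])
  have t3 : ∀ i j k : P, (i : ℕ) < 21 → (j : ℕ) < 21 → (k : ℕ) < 21 → i ≠ j → i ≠ k → j ≠ k → _ :=
    fun i j k hi hj hk n1 n2 n3 => L.sq3 hp (H.mem i) (H.mem j) (H.mem k) (R.comm21 i j hi hj)
      (R.comm21 i k hi hk) (R.comm21 j k hj hk) (R.inj.ne n1) (R.inj.ne n2) (R.inj.ne n3)
  have c01 := R.comm21 0 1 (by decide) (by decide)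
  have n01 : ρ 0 ≠ ρ 1 := R.inj.ne (by decide)
  simp only [List.mem_cons, List.not_mem_nil, or_false] at hw
  rcases hw with rfl | rfl | rfl | rfl <;>
    simp only [List.map_cons, List.map_nil, List.prod_cons, List.prod_nil, mul_one] at e'
  · rcases e' with (e' | e') | e'
    exacts [Or.inr (Or.inr ⟨1, by rw [e', mul_one]⟩), Or.inl e', Or.inr (Or.inl ⟨b, hb, e'⟩)]
  · rcases e' with e' | rfl | rfl
    exacts [Or.inr (Or.inl ⟨_, H.mem 0, e'⟩),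
      Or.inr (Or.inr (L.sq2 hb (H.mem 0) (H.dbl.comm 0) (H.dbl.ne 0).symm)),
      Or.inr (Or.inr (L.sqz2 hp hb (H.mem 0) (H.dbl.comm 0) (H.dbl.ne 0).symm))]
  · have := L.sq3 hp hb (H.mem 0) (H.mem 1) (H.dbl.comm 0) (H.dbl.comm 1) c01 (H.dbl.ne 0).symm
      (H.dbl.ne 1).symm n01
    refine Or.inr (Or.inr ?_)
    rcases e' with (rfl | rfl) | rfl | rfl
    exacts [L.sq2 (H.mem 0) (H.mem 1) c01 n01, L.sqz2 hp (H.mem 0) (H.mem 1) c01 n01, this.1, this.2]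
  · have h1 := t3 0 1 5 (by decide) (by decide) (by decide) (by decide) (by decide) (by decide)
    obtain ⟨⟨r, hr, e1⟩, -⟩ := L.hyps hp hb H
    obtain ⟨i, j, k, hi, hj, hk, n1, n2, n3, e2⟩ := (L.rep H).hyp_tri hr
    have h2 := t3 i j k hi hj hk n1 n2 n3
    rw [← e2, e1] at h2
    refine Or.inr (Or.inr ?_)
    rcases e' with (rfl | rfl) | rfl | rfl
    exacts [h1.1, h1.2, h2.1, h2.2]

theorem Lift2.syl (L : Lift2 π z F s) (ha : a ∈ F) (H : DP F a τ) {S : Subgroup C}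
    (hS : IsPGroup 2 S) : ∃ x, ∀ B ≤ S, (∀ b ∈ B, b * b = 1) → 2048 ≤ Nat.card B →
      ∀ b, b ∈ B ↔ x * b * x⁻¹ ∈ (Apl τ).comap π := by
  have hfin : Finite C := Nat.finite_of_card_ne_zero (by
    rw [L.card]; exact mul_ne_zero two_ne_zero Nat.card_pos.ne')
  obtain ⟨g, hg⟩ := L.cls a ha _ (H.mem 0)
  obtain ⟨x, hx⟩ := H.dbl.syl_all ⟨g, hg ▸ H.dbl.comm 0, hg ▸ H.dbl.ne 0⟩ (hS.map π)
  obtain ⟨x, rfl⟩ := L.surj x
  refine ⟨x, fun B hB h1 h2 => ?_⟩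
  have h3 := card_le_of_le (le_comap_map π B)
  rw [L.card_comap] at h3
  have h4 := hx (B.map π) (map_mono hB) (by
    rintro _ ⟨b, hb, rfl⟩; rw [← map_mul, h1 b hb, map_one]) (by omega)
  have h5 := card_of_conj h4
  rw [H.dbl.card_Apl] at h5
  have h6 := eq_of_le_of_card_ge (le_comap_map π B) (by rw [L.card_comap, h5]; omega)
  intro b
  rw [h6, mem_comap, h4, mem_comap, map_mul, map_mul, map_inv]

end Cfsg.Agent.TT2
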