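import Cfsg.Agent.TT2.M22j

/-!
# Further properties of groups of type `M̃(22)`
-/

set_option autoImplicit false
set_option maxRecDepth 100000

namespace Cfsg.Agent.TT2

open Subgroup

universe u

variable {G : Type u} [Group G] {D : Set G} {a b d g x y w : G} {τ : P → G}

theorem DP.conj (h : Loc22 D) (H : DP D a τ) (g : G) :
    DP D (g * a * g⁻¹) fun i => g * τ i * g⁻¹ := by
  refine ⟨H.dbl.conj g, fun i => h.cj g _ (H.mem i), fun y hy hc => ?_⟩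
  rcases H.cases _ (h.cj g⁻¹ y hy) ((TT.commute_conj_iff g).1 (by simpa [mul_assoc] using hc)) with
    e | ⟨i, e⟩
  · exact Or.inl (by rw [← e]; group)
  · exact Or.inr ⟨i, by rw [e]; group⟩

theorem Loc22.third (h : Loc22 D) (hy : y ∈ D) (hw : w ∈ D) (hc : Commute y w) (hne : y ≠ w) :
    ∃ b ∈ D, ∃ ρ, DP D b ρ ∧ ρ 0 = y ∧ ρ 1 = w := by
  obtain ⟨τ, H, rfl⟩ := h.pt hy hw hc hne.symm
  exact ⟨_, H.mem 1, h.pt2 (H.mem 1) hy hw (H.dbl.comm 1).symm
    (H.dbl.rep.comm21 1 0 (by decide) (by decide)) (H.dbl.ne 1).symm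
    (H.dbl.rep.inj.ne (by decide)) hc hne⟩

theorem Loc22.pair (h : Loc22 D) (hcl : ∀ a ∈ D, ∀ b ∈ D, ∃ x, x * a * x⁻¹ = b) (ha : a ∈ D)
    (hb : b ∈ D) {a' b' : G} (ha' : a' ∈ D) (hb' : b' ∈ D) (h1 : a ≠ b) (h2 : a' ≠ b')
    (h3 : Commute a b) (h4 : Commute a' b') : ∃ x, x * a * x⁻¹ = a' ∧ x * b * x⁻¹ = b' := by
  obtain ⟨x, rfl⟩ := hcl a ha a' ha'
  obtain ⟨τ, H, e⟩ := h.pt ha' (h.cj x b hb) ((TT.commute_conj_iff x).2 h3)
    fun e => h1 ((TT.conj_inj_iff x).1 e).symm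
  obtain ⟨k, rfl⟩ := H.ex hb' h4 h2.symm
  obtain ⟨σ, hσ, rfl⟩ := trans0 k
  obtain ⟨g, hg, e'⟩ := H.dbl.rep.lift hσ
  refine ⟨g * x, ?_, by rw [← e', e]; group⟩
  calc _ = g * (x * a * x⁻¹) * g⁻¹ := by group
    _ = _ := TT.commute_iff_conj.1 (H.dbl.comm_gen hg).symm

theorem Loc22.invol [Finite G] (h : Loc22 D) (ha : a ∈ D) (hx : x * x = 1) :
    ∃ b ∈ D, ∃ ρ, DP D b ρ ∧ ∃ w ∈ ([[], [0], [0, 1], [0, 1, 5]] : List (List P)),
      x = (w.map ρ).prod ∨ x = b * (w.map ρ).prod := by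
  obtain ⟨b, hb, hc⟩ := h.fix' ha hx
  obtain ⟨τ, H⟩ := h.loc b hb
  obtain ⟨k, hk, w, hw, e⟩ := H.dbl.classes hc.symm hx
  have H' := H.conj h k⁻¹
  rw [TT.commute_iff_conj.1 hk.inv_right.symm] at H'
  refine ⟨b, hb, _, H', w, hw, ?_⟩
  rw [show (w.map fun i => k⁻¹ * τ i * k⁻¹⁻¹).prod = k⁻¹ * (w.map τ).prod * k⁻¹⁻¹ from
    (map_prod_comp (MulAut.conj k⁻¹).toMonoidHom τ w)]
  refine e.imp (fun e => by rw [← e]; group) fun e => ?_
  calc x = k⁻¹ * (k * x * k⁻¹) * k := by group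
    _ = k⁻¹ * b * (w.map τ).prod * k := by rw [e]; group
    _ = _ := by rw [← hk.inv_right.eq]; group

theorem DP.no5 [Finite G] (h : Loc22 D) (ha : a ∈ D) (H : DP D a τ) (hy : y ∈ D) (hw : w ∈ D)
    (h1 : Commute a y) (h2 : Commute a w) (h3 : Commute (τ 0) y) (h4 : Commute (τ 1) y) :
    a * (τ 0 * τ 1) ≠ y * w := by
  intro e
  have R := H.dbl.rep
  have c := R.comm21 0 1 (by decide) (by decide)
  rcases H.cases y hy h1 with rfl | ⟨k, rfl⟩
  · exact h.gl3.h2a _ (H.mem 0) _ (H.mem 1) c (mul_left_cancel e ▸ hw)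
  rcases H.cases w hw h2 with rfl | ⟨l, rfl⟩
  · exact h.gl3.h2a _ (H.mem 0) _ (H.mem 1) c (mul_left_cancel (e.trans h1.symm.eq) ▸ hy)
  obtain ⟨X, _, t, U, W⟩ := H.dbl.word
  have h5 : t 0 * t 1 = t k * t l := by
    simpa using ((W [k, l] [0, 1]).2 (Or.inr (by simpa using e.symm))).symm
  rcases U.mul_eq_mul (by decide +kernel) (by decide) (R.commute_iff.1 h3) (R.commute_iff.1 h4) h5 with
    ⟨rfl, rfl⟩ | ⟨rfl, rfl⟩
  · exact H.dbl.dne (by simpa using e)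
  · exact H.dbl.dne (by simpa [c.eq] using e)

theorem five_aux : ∀ i ∈ U21, ∀ j ∈ U21, ∀ k ∈ U21, xm [0, 1, i, j, k] = xm [] →
    xl [0, 1, i, j, k] = xl [0, 1, 2, 3, 4] := by decide +kernel

/-- five commuting points with product `d` form a line -/
theorem Dbl.five (h : Dbl d τ) {i j k l m : P} (hc : Clq [i, j, k, l, m]) (hne : i ≠ j)
    (e : ([i, j, k, l, m].map τ).prod = d) : ∃ σ ∈ TG Set.univ,
      (∀ x ∈ [i, j, k, l, m].map σ, (x : ℕ) < 21) ∧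
        xl ([i, j, k, l, m].map σ) = xl [0, 1, 2, 3, 4] := by
  obtain ⟨σ, hσ, e0, e1, h21⟩ := clique_pair (Y := {x | x ∈ [i, j, k, l, m]}) hc (i := i) (j := j)
    (by simp) (by simp) hne
  have h1 : ∀ x ∈ [i, j, k, l, m].map σ, (x : ℕ) < 21 := fun x hx => by
    obtain ⟨y, hy, rfl⟩ := List.mem_map.1 hx
    exact h21 y hy
  refine ⟨σ, hσ, h1, ?_⟩
  obtain ⟨g, hg, e'⟩ := h.rep.lift hσ
  have h2 := (h.xm_eq h1 (w' := []) (by simp)).2 (Or.inr (by
    rw [← conj_prod e', e, TT.commute_iff_conj.1 (h.comm_gen hg).symm]; simp))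
  simp only [List.map_cons, List.map_nil, e0, e1] at h2 ⊢
  exact five_aux _ (mem_U21.2 (h21 k (by simp))) _ (mem_U21.2 (h21 l (by simp))) _
    (mem_U21.2 (h21 m (by simp))) h2

theorem Dbl.proj (h : Dbl d τ) : ∃ (X : Type) (_ : Group X) (t : P → X) (_ : U6 t)
    (p : centralizer {d} →* X), Function.Surjective p ∧ (∀ c, p c = 1 ↔ (c : G) = 1 ∨ (c : G) = d) ∧
      ∀ i (c : centralizer {d}), (c : G) = τ i → p c = t i := by
  obtain ⟨C, X, _, _, t, U, π, z, σ, ι, L, hp, hι, rfl, rfl, hC⟩ := h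
  have hb : Function.Bijective (ι.codRestrict (centralizer {ι z}) fun c =>
      mem_centralizer_singleton_iff.2 ((L.comm c).map ι).symm) :=
    ⟨fun _ _ e => hι (congrArg Subtype.val e), fun c =>
      let ⟨x, hx⟩ := hC c (mem_centralizer_singleton_iff.1 c.2).symm; ⟨x, Subtype.ext hx⟩⟩
  let e := MulEquiv.ofBijective _ hb
  refine ⟨X, _, t, U, π.comp e.symm.toMonoidHom, L.surj.comp e.symm.surjective, fun c => ?_,
    fun i c hc => ?_⟩
  · obtain ⟨c, rfl⟩ := e.surjective c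
    change π (e.symm (e c)) = 1 ↔ ι c = 1 ∨ ι c = ι z
    rw [e.symm_apply_apply, L.ker, hι.eq_iff, map_eq_one_iff ι hι]
  · obtain ⟨c, rfl⟩ := e.surjective c
    change π (e.symm (e c)) = _
    rw [e.symm_apply_apply, ← L.map, hι hc]

theorem Dbl.hyps (h : Dbl d τ) : (∀ r ∈ hypL, (r.map τ).prod = 1 ∨ (r.map τ).prod = d) := by
  intro r hr
  simpa using (h.xm_eq (w' := []) ((by decide : ∀ r ∈ hypL, ∀ i : P, i ∈ r → (i : ℕ) < 21) r hr)
    (by simp)).1 ((by decide +kernel : ∀ r ∈ hypL, xm r = xm []) r hr)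

theorem Rep.hyp_prod (R : Rep τ) {z : G} (hz : ∀ i, Commute z (τ i))
    (hl : (([0, 1, 2, 3, 4] : List P).map τ).prod = z) :
    (hypL.map fun r => (r.map τ).prod).prod = 1 := by
  have h1 := R.lines hz hl
  have hzz : z * z = 1 := hl ▸ R.sq_word (by decide +kernel)
  have e := prod_eq_of_xl R.comm21 R.sq (L := hypL.flatten) (L' := ([[1, 5, 7, 15, 13],
    [0, 7, 8, 12, 11], [0, 13, 18, 17, 14], [0, 15, 19, 16, 20]] : List (List P)).flatten) (by decide) (by decide) (by decide +kernel)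
  rw [List.map_flatten, List.prod_flatten, List.map_map, List.map_flatten, List.prod_flatten,
    List.map_map] at e
  refine e.trans ?_
  simp only [List.map_cons, List.map_nil, List.prod_cons, List.prod_nil, Function.comp]
  have k : ∀ r ∈ lineL, (r.map τ).prod = z := h1
  simp only [lineL, List.forall_mem_cons, List.map_cons, List.map_nil, List.prod_cons,
    List.prod_nil] at k
  rw [k.2.2.1, k.2.2.2.1, k.2.2.2.2.1, k.2.2.2.2.2.1, mul_one, hzz, mul_one, hzz]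

end Cfsg.Agent.TT2
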