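import Cfsg.Agent.TT.Basic

/-!
# Classes of involutions which are locally classes of 3-transpositions

If the connected components of the commuting graph have diameter two and behave like the classes of
transpositions of the Fischer groups, then the commuting graph is connected.
-/

set_option autoImplicit false

namespace Cfsg.Agent.TT2

open Subgroup

variable {G : Type*} [Group G] {D : Set G} {a b c e g s t u v w x y z : G}

/-- `x` and `y` have a common neighbour in the commuting graph of `D` -/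
def Near (D : Set G) (x y : G) : Prop := ∃ e ∈ D, Commute x e ∧ Commute e y

theorem Near.symm (h : Near D x y) : Near D y x :=
  let ⟨e, he, h1, h2⟩ := h; ⟨e, he, h2.symm, h1.symm⟩

theorem near_of_commute (hx : x ∈ D) (h : Commute x y) : Near D x y := ⟨x, hx, Commute.refl x, h⟩

theorem near_refl (hx : x ∈ D) : Near D x x := near_of_commute hx (Commute.refl x)

/-- the local hypotheses -/
structure Lc3 (D : Set G) : Prop where
  sq : ∀ a ∈ D, a * a = 1
  cj : ∀ g : G, ∀ a ∈ D, g * a * g⁻¹ ∈ D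
  loc : ∀ x ∈ D, ∀ y ∈ D, Near D x y → Commute x y ∨ (x * y) ^ 3 = 1
  diam : ∀ x ∈ D, ∀ y ∈ D, ∀ w ∈ D, Near D x y → Commute y w → Near D x w

theorem Lc3.near_conj (h : Lc3 D) (g : G) (hn : Near D x y) :
    Near D (g * x * g⁻¹) (g * y * g⁻¹) :=
  let ⟨e, he, h1, h2⟩ := hn
  ⟨_, h.cj g e he, (TT.commute_conj_iff g).2 h1, (TT.commute_conj_iff g).2 h2⟩

theorem Lc3.trans (h : Lc3 D) (hx : x ∈ D) (hy : y ∈ D) (hw : w ∈ D) (h1 : Near D x y)
    (h2 : Near D y w) : Near D x w :=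
  let ⟨e, he, h3, h4⟩ := h2
  h.diam x hx e he w hw (h.diam x hx y hy e he h1 h3) h4

/-- the stabiliser of the component of `x` -/
def Lc3.stab (h : Lc3 D) (hx : x ∈ D) : Subgroup G where
  carrier := {g | Near D x (g * x * g⁻¹)}
  one_mem' := by simpa using near_refl hx
  mul_mem' {a b} ha hb := h.trans hx (h.cj a x hx) (h.cj _ x hx) ha (by
    have := h.near_conj a hb
    simpa [mul_assoc] using this)
  inv_mem' {a} ha := by
    have := (h.near_conj a⁻¹ ha).symm
    simpa [mul_assoc] using this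

theorem Lc3.mem_stab (h : Lc3 D) (hx : x ∈ D) : g ∈ h.stab hx ↔ Near D x (g * x * g⁻¹) := Iff.rfl

theorem Lc3.stab_near (h : Lc3 D) (hx : x ∈ D) (hg : g ∈ h.stab hx) (hy : y ∈ D)
    (hn : Near D x y) : Near D x (g * y * g⁻¹) :=
  h.trans hx (h.cj g x hx) (h.cj g y hy) hg (h.near_conj g hn)

theorem Lc3.mem_stab_of (h : Lc3 D) (hx : x ∈ D) (hy : y ∈ D) (hn : Near D x y)
    (hn' : Near D x (g * y * g⁻¹)) : g ∈ h.stab hx :=
  h.trans hx (h.cj g y hy) (h.cj g x hx) hn' (h.near_conj g hn.symm)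

theorem Lc3.mem_stab_of_commute (h : Lc3 D) (hx : x ∈ D) (hy : y ∈ D) (hn : Near D x y)
    (hc : Commute g y) : g ∈ h.stab hx :=
  h.mem_stab_of hx hy hn (by rwa [TT.commute_iff_conj.1 hc])

theorem Lc3.mem_stab_of_near (h : Lc3 D) (hx : x ∈ D) (hy : y ∈ D) (hn : Near D x y) :
    y ∈ h.stab hx := h.mem_stab_of_commute hx hy hn (Commute.refl y)

/-- a member of the component commuting with a product of two commuting members -/
theorem Lc3.commute_of_mul (h : Lc3 D) (hx : x ∈ D) (hy : y ∈ D) (hw : w ∈ D) (hc : Commute x y)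
    (hne : x ≠ y) (hn : Near D w x) (hwc : Commute w (x * y)) : Commute w x ∧ Commute w y := by
  have key : Commute w x := by
    by_contra h1
    have h2 : ¬ Commute w y := fun h2 => h1 (by
      have := hwc.mul_right h2.inv_right
      rwa [mul_inv_cancel_right] at this)
    have h3 := (h.loc w hw x hx hn).resolve_left h1
    have h4 := (h.loc w hw y hy (h.diam w hw x hx y hy hn hc)).resolve_left h2
    have h5 : w * y = w * x * (x * y) := by rw [mul_assoc, TT.sq_cancel (h.sq x hx)]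
    have h6 : Commute (w * x) (x * y) := hwc.mul_left ((Commute.refl x).mul_right hc)
    have h7 := TT.mul_self_of_commute (h.sq x hx) (h.sq y hy) hc
    rw [h5, h6.mul_pow, h3, one_mul, pow_three, h7, mul_one, mul_eq_one_iff_eq_inv,
      TT.inv_of_sq (h.sq y hy)] at h4
    exact hne h4
  refine ⟨key, ?_⟩
  have := key.inv_right.mul_right hwc
  rwa [inv_mul_cancel_left] at this

theorem mem_of_parity {S : Set G} {L : Subgroup G} (hx : x * x = 1) (hL : ∀ s ∈ S, x * s ∈ L)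
    (hc : ∀ s ∈ S, Commute x s) : ∀ l : List G, (∀ s ∈ l, s ∈ S) →
      (Even l.length → l.prod ∈ L) ∧ (Odd l.length → x * l.prod ∈ L)
  | [], _ => ⟨fun _ => one_mem _, fun h => by simp at h⟩
  | b :: l, hl => by
    have hb := hl b List.mem_cons_self
    obtain ⟨h1, h2⟩ := mem_of_parity hx hL hc l fun s hs => hl s (List.mem_cons_of_mem _ hs)
    rw [List.length_cons, Nat.even_add_one, Nat.odd_add_one, List.prod_cons,
      Nat.not_even_iff_odd, Nat.not_odd_iff_even]
    refine ⟨fun h => ?_, fun h => ?_⟩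
    · have := mul_mem (hL b hb) (h2 h)
      rwa [(hc b hb).eq, mul_assoc, TT.sq_cancel hx] at this
    · have := mul_mem (hL b hb) (h1 h)
      rwa [mul_assoc] at this

/-- the hypotheses on the components -/
structure Gl3 (D : Set G) : Prop extends Lc3 D where
  ne1 : 1 ∉ D
  h2a : ∀ x ∈ D, ∀ y ∈ D, Commute x y → x * y ∉ D
  h2b : ∀ x ∈ D, ∀ y ∈ D, ∀ v ∈ D, ∀ w ∈ D, Commute x y → x ≠ y → Commute v x → Commute v y →
    x * y = v * w → v = x ∨ v = y
  h3 : ∀ x ∈ D, ∀ s, s * s = 1 → Near D x (s * x * s⁻¹) → ∃ y ∈ D, Near D x y ∧ Commute s y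
  h4 : ∀ x ∈ D, ∀ y ∈ D, Commute x y → x ≠ y → ∃ l : List G, Odd l.length ∧ l.prod = 1 ∧
    ∀ s ∈ l, s ∈ D ∧ Commute x s ∧ Commute y s
  h5 : ∀ v ∈ D, ∀ w ∈ D, ∀ w' ∈ D, Commute v w → Commute v w' → Commute w w' → v ≠ w → v ≠ w' →
    w ≠ w' → ∃ x ∈ D, Commute x v ∧ Commute x w ∧ Commute x w' ∧ ∀ y ∈ D, ∀ y' ∈ D, y ≠ y' →
      Commute y y' → (∀ a ∈ [x, v, w, w'], Commute a y ∧ Commute a y') → x * (v * (w * w')) ≠ y * y'
  h6 : ∀ x ∈ D, ∃ y ∈ D, Commute x y ∧ x ≠ y

theorem Gl3.near_of_stab (h : Gl3 D) (hx : x ∈ D) (ha : a ∈ D) (hs : a ∈ h.stab hx) :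
    Near D x a := by
  obtain ⟨y, hy, h1, h2⟩ := h.h3 x hx a (h.sq a ha) hs
  exact h.diam x hx y hy a ha h1 h2.symm

theorem Gl3.uniq (h : Gl3 D) (hx : x ∈ D) (hy : y ∈ D) (hv : v ∈ D) (hc : Commute x y)
    (hne : x ≠ y) (hn : Near D v x) (hvc : Commute v (x * y)) (hw : v * (x * y) ∈ D) :
    v = x ∨ v = y := by
  obtain ⟨h1, h2⟩ := h.commute_of_mul hx hy hv hc hne hn hvc
  exact h.h2b x hx y hy v hv _ hw hc hne h1 h2 (TT.sq_cancel (h.sq v hv) _).symm

variable [Finite G]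

/-- a product of two commuting members determines their component -/
theorem Gl3.near_of_mul (h : Gl3 D) (hx : x ∈ D) (hy : y ∈ D) (hc : Commute x y) (hne : x ≠ y)
    (ha : a ∈ D) (hau : Commute a (x * y)) (hau' : a * (x * y) ∈ D) : Near D x a := by
  classical
  set u := x * y with hu
  have huu : u * u = 1 := TT.mul_self_of_commute (h.sq x hx) (h.sq y hy) hc
  have hu1 : u ≠ 1 := fun e => hne (by
    rw [hu, mul_eq_one_iff_eq_inv, TT.inv_of_sq (h.sq y hy)] at e; exact e)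
  -- the set `D_u`
  let Du : G → Prop := fun b => b ∈ D ∧ Commute b u ∧ b * u ∈ D
  have hcj : ∀ b, Du b → ∀ k, Commute k u → Du (k * b * k⁻¹) := fun b hb k hk =>
    ⟨h.cj k b hb.1, (hk.mul_left hb.2.1).mul_left hk.inv_left, by
      have := h.cj k _ hb.2.2
      rwa [← mul_assoc, mul_assoc _ u, ← hk.inv_left.eq, ← mul_assoc] at this⟩
  have hun : ∀ b c, Du b → Du c → Near D c b → c = b ∨ c = b * u := fun b c hb hc hn => by
    have e : b * (b * u) = u := TT.sq_cancel (h.sq b hb.1) u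
    refine h.uniq hb.1 hb.2.2 hc.1 ((Commute.refl b).mul_right hb.2.1) (fun e => hu1 ?_) hn
      (e.symm ▸ hc.2.1) (e.symm ▸ hc.2.2)
    simpa using e.symm
  -- an element inverting `z` with `z ^ 2 ∈ ⟨u⟩` stabilises the component
  have hst : ∀ c (hc : Du c) k z, (z * z = 1 ∨ z * z = u) → k * c * k⁻¹ = c * (z * z)⁻¹ →
      k ∈ h.stab hc.1 := fun c hc k z hz e => by
    rw [h.mem_stab, e]
    rcases hz with hz | hz
    · rw [hz, inv_one, mul_one]; exact near_refl hc.1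
    · rw [hz, TT.inv_of_sq huu]
      exact near_of_commute hc.1 ((Commute.refl c).mul_right hc.2.1)
  have hinv : ∀ p q : G, p * p = 1 → q * q = 1 → ∀ m, p * (p * (p * q) ^ m) * p⁻¹ =
      p * (p * q) ^ m * ((p * q) ^ m * (p * q) ^ m)⁻¹ := fun p q hp hq m => by
    have := TT.conj_mul_pow hp hq m
    rw [TT.inv_of_sq hp, mul_assoc p, this]; group
  have hodd : ∀ b c, Du b → Du c → ∃ n, Odd n ∧ ((b * c) ^ n = 1 ∨ (b * c) ^ n = u) := by
    intro b c hb hc
    have hex : ∃ n, 0 < n ∧ ((b * c) ^ n = 1 ∨ (b * c) ^ n = u) :=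
      ⟨orderOf (b * c), orderOf_pos _, Or.inl (pow_orderOf_eq_one _)⟩
    obtain ⟨h1, h2⟩ := Nat.find_spec hex
    refine ⟨_, Nat.not_even_iff_odd.1 ?_, h2⟩
    rintro ⟨m, hm⟩
    have h3 := Nat.find_min hex (show m < Nat.find hex by omega)
    rw [hm, pow_add] at h2
    have hk : ∀ k, Commute ((b * c) ^ k)⁻¹ u := fun k => ((hb.2.1.mul_left hc.2.1).pow_left k).inv_left
    have h4 : Du (b * (b * c) ^ m) := by
      rcases Nat.even_or_odd' m with ⟨k, rfl | rfl⟩
      · rw [TT.mul_pow_even (h.sq b hb.1) (h.sq c hc.1)]; simpa using hcj b hb _ (hk k)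
      · rw [TT.mul_pow_odd (h.sq b hb.1) (h.sq c hc.1)]; simpa using hcj c hc _ (hk k)
    have h5 := h.near_of_stab h4.1 hb.1 (hst _ h4 b _ h2 (hinv b c (h.sq b hb.1) (h.sq c hc.1) m))
    refine h3 ⟨by omega, ?_⟩
    simpa using hun b _ hb h4 h5
  have hxu : Du x := ⟨hx, (Commute.refl x).mul_right hc, by rwa [hu, TT.sq_cancel (h.sq x hx)]⟩
  have hau0 : Du a := ⟨ha, hau, hau'⟩
  have key : ∀ s, s ∈ D ∧ Commute x s ∧ Commute y s → x * s ∈ h.stab ha := by
    rintro s ⟨hs, h1, h2⟩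
    have hsu : Commute s u := (h1.mul_left h2).symm
    have hss := h.sq s hs
    have haa := h.sq a ha
    obtain ⟨n, ⟨k, rfl⟩, hn⟩ := hodd _ a (hcj a hau0 s hsu) hau0
    rw [TT.inv_of_sq hss, show s * a * s * a = (s * a) ^ 2 by rw [pow_two, mul_assoc (s * a)],
      ← pow_mul, two_mul (2 * k + 1), pow_add] at hn
    have h4 : Du (s * (s * a) ^ (2 * k + 1)) := by
      rw [TT.mul_pow_odd hss haa]
      simpa using hcj a hau0 _ ((hsu.mul_left hau).pow_left k).inv_left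
    have h5 := h.near_of_stab h4.1 hs (hst _ h4 s _ hn (hinv s a hss haa _))
    have h6 := hun _ x h4 hxu (h.trans hx hs h4.1 (near_of_commute hx h1) h5.symm)
    have h7 : (s * a) ^ (2 * k + 1) ∈ h.stab ha := by
      refine hst a hau0 _ _ hn ?_
      have e := TT.conj_mul_pow haa hss (2 * k + 1)
      have e' : (a * s) ^ (2 * k + 1) = ((s * a) ^ (2 * k + 1))⁻¹ := by
        rw [← inv_pow, mul_inv_rev, TT.inv_of_sq hss, TT.inv_of_sq haa]
      rw [e', inv_inv] at e
      generalize (s * a) ^ (2 * k + 1) = z at e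
      calc z * a * z⁻¹ = a * z⁻¹ * a * a * z⁻¹ := by rw [e]
        _ = _ := by rw [mul_assoc _ a a, haa]; group
    have h8 : u ∈ h.stab ha := h.mem_stab_of_commute ha ha (near_refl ha) hau.symm
    rw [h1.eq]
    rcases h6 with h6 | h6
    · rw [h6, TT.sq_cancel hss]; exact h7
    · rw [h6, mul_assoc, TT.sq_cancel hss]; exact mul_mem h7 h8
  obtain ⟨l, l1, l2, l3⟩ := h.h4 x hx y hy hc hne
  have := (mem_of_parity (S := {s | s ∈ D ∧ Commute x s ∧ Commute y s}) (h.sq x hx) key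
    (fun s hs => hs.2.1) l l3).2 l1
  rw [l2, mul_one] at this
  exact (h.near_of_stab ha hx this).symm

theorem Gl3.odd (h : Gl3 D) (hx : x ∈ D) (hv : v ∈ D) (hn : ¬ Near D x v) :
    Odd (orderOf (x * v)) := by
  rw [← Nat.not_even_iff_odd]
  intro he
  have hxx := h.sq x hx
  have hvv := h.sq v hv
  obtain ⟨m, -, h1, h2, h3, h4⟩ := TT.exists_central_of_even hxx hvv he
  have e : (v * x) ^ m = (x * v) ^ m := by
    rw [← TT.inv_of_sq h2, ← inv_pow, mul_inv_rev, TT.inv_of_sq hxx, TT.inv_of_sq hvv]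
  have h5 := TT.mul_pow_mem h.cj hxx hvv hx hv m
  have h6 := TT.mul_pow_mem h.cj hvv hxx hv hx m
  rw [e] at h6
  generalize (x * v) ^ m = z at h1 h2 h3 h4 h5 h6
  refine hn (h.near_of_mul hx h5 ((Commute.refl x).mul_right h3) (fun e => h1 ?_) hv ?_ ?_)
  · simpa using e.symm
  · rwa [TT.sq_cancel hxx]
  · rwa [TT.sq_cancel hxx]

theorem Gl3.near_of_commute_mul (h : Gl3 D) (hx : x ∈ D) (hy : y ∈ D) (hc : Commute x y)
    (hne : x ≠ y) (hv : v ∈ D) (hvc : Commute v (x * y)) : Near D x v := by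
  by_contra hn
  have hn' : ¬ Near D y v := fun h' => hn (h.trans hx hy hv (near_of_commute hx hc) h')
  refine hne (mul_right_cancel (b := v) (TT.eq_of_sq_eq_of_odd (h.odd hx hv hn) (h.odd hy hv hn')
    (pow_orderOf_eq_one _) (pow_orderOf_eq_one _) ?_))
  have hxx := h.sq x hx
  have hyy := h.sq y hy
  calc (x * v) ^ 2 = y * y * (x * v * x) * v := by rw [hyy, pow_two]; group
    _ = y * (x * y * v) * x * v := by rw [hc.eq]; group
    _ = y * v * (y * (x * x)) * v := by rw [← hvc.eq, hc.eq]; group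
    _ = _ := by rw [hxx, pow_two]; group

theorem Gl3.near_all (h : Gl3 D) (hx : x ∈ D) (hv : v ∈ D) : Near D x v := by
  by_contra hn
  obtain ⟨x', hx', hc, hne⟩ := h.h6 x hx
  have hvv := h.sq v hv
  have htt := TT.mul_self_of_commute (h.sq x hx) (h.sq x' hx') hc
  have he : Even (orderOf (x * x' * v)) := by
    rw [← Nat.not_odd_iff_even]
    intro ho
    obtain ⟨k, hk⟩ := TT.conj_of_odd htt hvv ho (pow_orderOf_eq_one _)
    exact h.h2a x hx x' hx' hc (by rw [← hk]; simpa using h.cj (((x * x' * v) ^ k)⁻¹) v hv)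
  obtain ⟨m, -, h1, h2, h3, h4⟩ := TT.exists_central_of_even htt hvv he
  have e : (v * (x * x')) ^ m = (x * x' * v) ^ m := by
    rw [← TT.inv_of_sq h2, ← inv_pow, mul_inv_rev, TT.inv_of_sq htt, TT.inv_of_sq hvv]
  have h5 : v * (x * x' * v) ^ m ∈ D ∨
      ∃ w ∈ D, ∃ w' ∈ D, Commute w w' ∧ w ≠ w' ∧ v * (x * x' * v) ^ m = w * w' := by
    rw [← e]
    rcases Nat.even_or_odd' m with ⟨k, rfl | rfl⟩
    · rw [TT.mul_pow_even hvv htt]
      exact Or.inl (by simpa using h.cj ((v * (x * x')) ^ k)⁻¹ v hv)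
    · rw [TT.mul_pow_odd hvv htt]
      generalize (v * (x * x')) ^ k = g
      exact Or.inr ⟨_, h.cj g⁻¹ x hx, _, h.cj g⁻¹ x' hx', (TT.commute_conj_iff _).2 hc,
        fun e => hne ((TT.conj_inj_iff _).1 e), by group⟩
  generalize (x * x' * v) ^ m = z at h1 h2 h3 h4 h5
  have hz : Near D x (z * x * z⁻¹) := by
    refine h.near_of_commute_mul hx hx' hc hne (h.cj z x hx) ?_
    rw [← TT.commute_iff_conj.1 h3.symm]
    exact (TT.commute_conj_iff z).2 ((Commute.refl x).mul_right hc)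
  obtain ⟨y, hy, hxy, hzy⟩ := h.h3 x hx z h2 hz
  have hyv : ¬ Near D v y := fun h' => hn (h.trans hx hy hv hxy h'.symm)
  rcases h5 with h5 | ⟨w, hw, w', hw', hww, hne', e⟩
  · refine hyv (h.near_of_commute_mul hv h5 ((Commute.refl v).mul_right h4) (fun e => h1 ?_) hy ?_)
    · simpa using e.symm
    · rw [TT.sq_cancel hvv]; exact hzy.symm
  have hvw : Commute v (w * w') := e ▸ (Commute.refl v).mul_right h4
  have hwv := h.near_of_commute_mul hw hw' hww hne' hv hvw
  obtain ⟨c1, c2⟩ := h.commute_of_mul hw hw' hv hww hne' hwv.symm hvw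
  have ez : z = v * (w * w') := by rw [← e, TT.sq_cancel hvv]
  have n1 : v ≠ w := by
    rintro rfl
    rw [TT.sq_cancel hvv] at ez
    exact hyv (h.diam v hv w' hw' y hy (near_of_commute hv c2) (ez ▸ hzy))
  have n2 : v ≠ w' := by
    rintro rfl
    rw [hww.eq, TT.sq_cancel hvv] at ez
    exact hyv (h.diam v hv w hw y hy (near_of_commute hv c1) (ez ▸ hzy))
  obtain ⟨p, hp, p1, p2, p3, p4⟩ := h.h5 v hv w hw w' hw' c1 c2 hww n1 n2 hne'
  have hpz : Commute p z := ez ▸ p1.mul_right (p2.mul_right p3)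
  have hpy : ¬ Near D p y := fun h' => hyv (h.trans hv hp hy (near_of_commute hv p1.symm) h')
  obtain ⟨k, hk⟩ := TT.conj_of_odd (h.sq p hp) (h.sq y hy) (h.odd hp hy hpy) (pow_orderOf_eq_one _)
  obtain ⟨k', hk'⟩ := TT.conj_of_odd (h.sq y hy) hvv (h.odd hy hv fun h' => hyv h'.symm)
    (pow_orderOf_eq_one _)
  have g1 : Commute ((p * y) ^ k) z := (hpz.mul_left hzy.symm).pow_left k
  have g2 : Commute ((y * v) ^ k') z := (hzy.symm.mul_left h4).pow_left k'
  generalize (p * y) ^ k = g at hk g1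
  generalize (y * v) ^ k' = g' at hk' g2
  have g3 : Commute (g' * g)⁻¹ z := (g2.mul_left g1).inv_left
  have g4 : p = (g' * g)⁻¹ * v * (g' * g)⁻¹⁻¹ := by rw [← hk, ← hk']; group
  generalize (g' * g)⁻¹ = k at g3 g4
  have e2 : p * z = k * w * k⁻¹ * (k * w' * k⁻¹) := by
    calc p * z = k * v * k⁻¹ * (k * z * k⁻¹) := by rw [TT.commute_iff_conj.1 g3, ← g4]
      _ = k * (v * z) * k⁻¹ := by group
      _ = _ := by rw [e]; group
  have hy1 := h.cj k w hw
  have hy2 := h.cj k w' hw'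
  have hy3 : Commute (k * w * k⁻¹) (k * w' * k⁻¹) := (TT.commute_conj_iff _).2 hww
  have hy4 : k * w * k⁻¹ ≠ k * w' * k⁻¹ := fun e => hne' ((TT.conj_inj_iff _).1 e)
  refine p4 _ hy1 _ hy2 hy4 hy3 (fun a ha => ?_) (ez ▸ e2)
  have : a ∈ D ∧ Commute a (p * z) := by
    simp only [List.mem_cons, List.not_mem_nil, or_false] at ha
    rcases ha with rfl | rfl | rfl | rfl
    · exact ⟨hp, (Commute.refl a).mul_right hpz⟩
    · exact ⟨hv, p1.symm.mul_right h4⟩
    · exact ⟨hw, p2.symm.mul_right (ez ▸ c1.symm.mul_right ((Commute.refl a).mul_right hww))⟩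
    · exact ⟨hw', p3.symm.mul_right (ez ▸ c2.symm.mul_right (hww.symm.mul_right (Commute.refl a)))⟩
  rw [e2] at this
  exact h.commute_of_mul hy1 hy2 this.1 hy3 hy4
    (h.near_of_commute_mul hy1 hy2 hy3 hy4 this.1 this.2).symm this.2

end Cfsg.Agent.TT2
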