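import Cfsg.Agent.TT2.U6Link

/-!
# Laws of `op`, automorphisms, and certificate checkers
-/

set_option autoImplicit false

namespace Cfsg.Agent.TT2

open Cfsg.Agent.M24 Subgroup

noncomputable instance decPerp (i j : P) : Decidable (perp i j) := inferInstanceAs (Decidable (op i j = j))

instance (priority := high) decBAllP (L : List P) (p : P → Prop) [DecidablePred p] :
    Decidable (∀ i ∈ L, p i) := List.decidableBAll p L

instance (priority := high) decBExP (L : List P) (p : P → Prop) [DecidablePred p] :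
    Decidable (∃ i ∈ L, p i) := List.decidableBEx p L

section Rep
variable {G : Type*} [Group G] {τ : P → G}

theorem Rep.inv (R : Rep τ) (i : P) : (τ i)⁻¹ = τ i := TT.inv_of_sq (R.sq i)

theorem Rep.conj' (R : Rep τ) (i j : P) : τ i * τ j * (τ i)⁻¹ = τ (op i j) := by
  rw [R.inv, R.conj]

theorem Rep.commute_iff (R : Rep τ) {i j : P} : Commute (τ i) (τ j) ↔ perp i j := by
  rw [TT.commute_iff_conj, R.conj', R.inj.eq_iff, perp]

theorem Rep.commute (R : Rep τ) {i j : P} (h : perp i j) : Commute (τ i) (τ j) :=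
  R.commute_iff.2 h

end Rep

theorem perp_refl (i : P) : perp i i := by
  obtain ⟨X, _, t, U⟩ := exists_rep
  exact U.commute_iff.1 (Commute.refl _)

theorem perp.symm {i j : P} (h : perp i j) : perp j i := by
  obtain ⟨X, _, t, U⟩ := exists_rep
  exact U.commute_iff.1 (U.commute h).symm

theorem op_op (i j : P) : op i (op i j) = j := by
  obtain ⟨X, _, t, U⟩ := exists_rep
  apply U.inj
  rw [← U.conj, ← U.conj, ← mul_assoc, ← mul_assoc, U.sq, one_mul, mul_assoc, U.sq, mul_one]

theorem op_distrib (i j k : P) : op i (op j k) = op (op i j) (op i k) := by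
  obtain ⟨X, _, t, U⟩ := exists_rep
  apply U.inj
  simp only [← U.conj']
  group

theorem Rep.cube {G : Type*} [Group G] {τ : P → G} (R : Rep τ) {i j : P} (h : ¬ perp i j) :
    (τ i * τ j) ^ 3 = 1 :=
  TT.cube_of_braid (R.sq i) (R.sq j) (by rw [R.conj, R.conj, op_comm h])

theorem exists_not_perp (i : P) : ∃ j, ¬ perp i j := by
  obtain ⟨K, _, _, ω, H⟩ := exists_F4'
  obtain ⟨f, hf⟩ := (Cl.Uni.nondeg_stdH (F := K) 6).exists_hyp H.frob.nt (H.pv_iso i) (H.pv_ne i)
  obtain ⟨j, a, ha, hj⟩ := H.exists_pv hf.f_ne hf.hff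
  refine ⟨j, fun h => ?_⟩
  have := (H.perp_iff i j).1 h
  rw [hj, Cl.Uni.HForm.smul_left, hf.hfe, mul_one] at this
  exact ha this

theorem Rep.ne_one {G : Type*} [Group G] {τ : P → G} (R : Rep τ) (i : P) : τ i ≠ 1 := by
  intro h
  obtain ⟨j, hj⟩ := exists_not_perp i
  exact hj (R.commute_iff.1 (h ▸ Commute.one_left _))

/-- the permutation of the points given by a transvection -/
noncomputable def tp (i : P) : Equiv.Perm P := Function.Involutive.toPerm (op i) (op_op i)

@[simp] theorem tp_apply (i j : P) : tp i j = op i j := rfl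

/-- automorphisms -/
def Aut : Subgroup (Equiv.Perm P) where
  carrier := {σ | ∀ i j, σ (op i j) = op (σ i) (σ j)}
  one_mem' _ _ := rfl
  mul_mem' {a b} ha hb i j := by
    simp only [Equiv.Perm.mul_apply]; rw [hb, ha]
  inv_mem' {a} ha i j := by
    apply a.injective
    rw [ha]; simp

theorem Aut.op {σ : Equiv.Perm P} (h : σ ∈ Aut) (i j : P) : σ (op i j) = op (σ i) (σ j) := h i j

theorem Aut.perp_iff {σ : Equiv.Perm P} (h : σ ∈ Aut) {i j : P} : perp (σ i) (σ j) ↔ perp i j := by
  rw [perp, ← h, σ.injective.eq_iff, perp]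

theorem Aut.perp {σ : Equiv.Perm P} (h : σ ∈ Aut) {i j : P} (h' : perp i j) : perp (σ i) (σ j) :=
  (Aut.perp_iff h).2 h'

theorem tp_mem_Aut (i : P) : tp i ∈ Aut := op_distrib i

/-- the group generated by the transvections with centre in `S` -/
def TG (S : Set P) : Subgroup (Equiv.Perm P) := closure (tp '' S)

theorem TG_le_Aut (S : Set P) : TG S ≤ Aut :=
  (closure_le _).2 (by rintro _ ⟨i, -, rfl⟩; exact tp_mem_Aut i)

theorem TG_mono {S T : Set P} (h : S ⊆ T) : TG S ≤ TG T := closure_mono (Set.image_mono h)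

theorem tp_mem_TG {S : Set P} {i : P} (h : i ∈ S) : tp i ∈ TG S := subset_closure ⟨i, h, rfl⟩

theorem TG_fix {S : Set P} {σ : Equiv.Perm P} (h : σ ∈ TG S) {k : P} (hk : ∀ i ∈ S, perp i k) :
    σ k = k := by
  induction h using closure_induction with
  | mem x hx => obtain ⟨i, hi, rfl⟩ := hx; exact hk i hi
  | one => rfl
  | mul x y _ _ hx hy => rw [Equiv.Perm.mul_apply, hy, hx]
  | inv x _ hx => rw [Equiv.Perm.inv_eq_iff_eq, hx]

theorem TG_mem {S M : Set P} {σ : Equiv.Perm P} (h : σ ∈ TG S)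
    (hM : ∀ i ∈ S, ∀ k ∈ M, op i k ∈ M) {k : P} : σ k ∈ M ↔ k ∈ M := by
  induction h using closure_induction generalizing k with
  | mem x hx =>
    obtain ⟨i, hi, rfl⟩ := hx
    exact ⟨fun h => by simpa [op_op] using hM i hi _ h, hM i hi k⟩
  | one => rfl
  | mul x y _ _ hx hy => rw [Equiv.Perm.mul_apply, hx, hy]
  | inv x _ hx => rw [← hx]; simp

theorem Rep.lift {G : Type*} [Group G] {τ : P → G} (R : Rep τ) {S : Set P} {σ : Equiv.Perm P}
    (h : σ ∈ TG S) : ∃ g ∈ closure (τ '' S), ∀ j, g * τ j * g⁻¹ = τ (σ j) := by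
  induction h using closure_induction with
  | mem x hx =>
    obtain ⟨i, hi, rfl⟩ := hx
    exact ⟨τ i, subset_closure ⟨i, hi, rfl⟩, R.conj' i⟩
  | one => exact ⟨1, one_mem _, fun j => by simp⟩
  | mul x y _ _ hx hy =>
    obtain ⟨g, hg, h1⟩ := hx
    obtain ⟨g', hg', h2⟩ := hy
    refine ⟨g * g', mul_mem hg hg', fun j => ?_⟩
    rw [Equiv.Perm.mul_apply, ← h1, ← h2]; group
  | inv x _ hx =>
    obtain ⟨g, hg, h1⟩ := hx
    refine ⟨g⁻¹, inv_mem hg, fun j => ?_⟩
    have := h1 (x⁻¹ j)
    rw [show x (x⁻¹ j) = j by simp] at this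
    rw [← this]; group

theorem Rep.comp {G : Type*} [Group G] {τ : P → G} (R : Rep τ) {σ : Equiv.Perm P} (h : σ ∈ Aut) :
    Rep (τ ∘ σ) :=
  ⟨R.inj.comp σ.injective, fun i => R.sq _, fun i j => by
    simp only [Function.comp]; rw [R.conj, h]⟩

theorem phi_inj : Function.Injective phi := by
  have h : nall 693 (fun i => Nat.beq (phiN (phiN (phiN i))) i) = true := by decide +kernel
  refine Function.LeftInverse.injective (g := fun i => phi (phi i)) fun i => Fin.ext ?_
  exact Nat.eq_of_beq_eq_true ((nall_iff _ _).1 h i i.2)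

/-- the diagonal automorphism as a permutation -/
noncomputable def phiP : Equiv.Perm P := Equiv.ofBijective phi (Finite.injective_iff_bijective.1 phi_inj)

theorem phiP_apply (i : P) : phiP i = phi i := rfl

theorem phiP_mem : phiP ∈ Aut := phi_op

/-- action of a word -/
noncomputable def wact (w : List P) (j : P) : P := w.foldr op j

/-- a word as a permutation -/
noncomputable def wp (w : List P) : Equiv.Perm P := (w.map tp).prod

theorem wp_apply (w : List P) (j : P) : wp w j = wact w j := by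
  induction w with
  | nil => rfl
  | cons a w ih => simp only [wp, List.map_cons, List.prod_cons, Equiv.Perm.mul_apply] at ih ⊢
                   rw [ih]; rfl

theorem wp_mem {S : Set P} {w : List P} (h : ∀ i ∈ w, i ∈ S) : wp w ∈ TG S :=
  list_prod_mem (by
    intro x hx
    obtain ⟨i, hi, rfl⟩ := List.mem_map.1 hx
    exact tp_mem_TG (h i hi))

theorem wp_mem_Aut (w : List P) : wp w ∈ Aut :=
  TG_le_Aut Set.univ (wp_mem fun _ _ => trivial)

theorem Rep.conj_word {G : Type*} [Group G] {τ : P → G} (R : Rep τ) (w : List P) (j : P) :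
    (w.map τ).prod * τ j * ((w.map τ).prod)⁻¹ = τ (wact w j) := by
  induction w with
  | nil => simp [wact]
  | cons a w ih =>
    have : wact (a :: w) j = op a (wact w j) := rfl
    rw [this, ← R.conj', ← ih, List.map_cons, List.prod_cons]; group

/-- `k` lies on the line through `i` and `j` -/
def col (i j k : P) : Prop := ∀ m, perp i m → perp j m → perp k m

theorem Aut.col_iff {σ : Equiv.Perm P} (h : σ ∈ Aut) {i j k : P} :
    col (σ i) (σ j) (σ k) ↔ col i j k := by
  constructor
  · intro H m h1 h2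
    exact (Aut.perp_iff h).1 (H _ (Aut.perp h h1) (Aut.perp h h2))
  · intro H m h1 h2
    obtain ⟨m, rfl⟩ := σ.surjective m
    exact Aut.perp h (H _ ((Aut.perp_iff h).1 h1) ((Aut.perp_iff h).1 h2))

theorem col_left (i j : P) : col i j i := fun _ h _ => h
theorem col_right (i j : P) : col i j j := fun _ _ h => h
theorem col.symm {i j k : P} (h : col i j k) : col j i k := fun m h1 h2 => h m h2 h1

/-! ### checkers -/

/-- perpendicularity on indices -/
noncomputable def pp (i j : ℕ) : Bool := Nat.beq (opN i j) j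

theorem pp_iff (i j : P) : pp i j = true ↔ perp i j := by
  rw [pp, Nat.beq_eq, perp, Fin.ext_iff]; rfl

theorem forallP {f : ℕ → Bool} (h : nall 693 f = true) (i : P) : f i = true :=
  (nall_iff _ _).1 h i i.2

/-- the bits of `m` are points of `S` -/
def InM (m : ℕ) (S : Set P) : Prop := ∀ n, tb m n = true → ∃ h : n < 693, (⟨n, h⟩ : P) ∈ S

theorem InM.mem {m : ℕ} {S : Set P} (h : InM m S) {i : P} (hi : tb m i = true) : i ∈ S :=
  (h i hi).2

theorem inM_of {m : ℕ} {S : Set P} (h1 : Nat.shiftRight m 693 = 0) (h2 : ∀ i : P, tb m i = true → i ∈ S) :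
    InM m S := by
  intro n hn
  have : n < 693 := by
    by_contra h
    have h3 := Nat.testBit_shiftRight (i := 693) (j := n - 693) m
    rw [show 693 + (n - 693) = n by omega, ← tb_eq m, hn] at h3
    have h4 : m >>> 693 = 0 := h1
    rw [h4] at h3
    simp at h3
  exact ⟨this, h2 ⟨n, this⟩ hn⟩

theorem InM.add {m : ℕ} {S : Set P} (h : InM m S) {i : P} (hi : i ∈ S) :
    InM (Nat.lor m (Nat.shiftLeft 1 i)) S := by
  intro n hn
  rw [tb_eq] at hn
  have : (m ||| 1 <<< (i : ℕ)).testBit n = true := hn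
  rw [Nat.testBit_or, Nat.one_shiftLeft, Nat.testBit_two_pow, Bool.or_eq_true] at this
  rcases this with h1 | h1
  · exact h n (by rwa [tb_eq])
  · obtain rfl : (i : ℕ) = n := by simpa using h1
    exact ⟨i.2, hi⟩

theorem inM_zero (S : Set P) : InM 0 S := fun n hn => by simp [tb_eq] at hn

/-- the mask of a list of points -/
noncomputable def lm (L : List P) : ℕ := L.foldr (fun i m => Nat.lor m (Nat.shiftLeft 1 i)) 0

theorem inM_lm {S : Set P} {L : List P} (h : ∀ i ∈ L, i ∈ S) : InM (lm L) S := by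
  induction L with
  | nil => exact inM_zero S
  | cons a L ih =>
    exact (ih fun i hi => h i (List.mem_cons_of_mem _ hi)).add (h a List.mem_cons_self)

/-- follow a list of steps `1024 g + a ↦ op g a` with `g` in a fixed mask -/
noncomputable def reach (gm : ℕ) (L : List ℕ) : ℕ → ℕ :=
  List.rec (motive := fun _ => ℕ → ℕ) (fun cur => cur)
    (fun x _ ih cur => force (Nat.shiftRight x 10) fun g => force (Nat.mod x 1024) fun a =>
      bif' (band (tb gm g) (tb cur a)) (force (Nat.lor cur (Nat.shiftLeft 1 (opN g a))) ih) 0) L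

theorem reach_sound {S Gs : Set P} (hcl : ∀ g ∈ Gs, ∀ a ∈ S, op g a ∈ S) {gm : ℕ}
    (hg : InM gm Gs) (L : List ℕ) {cur : ℕ} (hc : InM cur S) : InM (reach gm L cur) S := by
  induction L generalizing cur with
  | nil => exact hc
  | cons x L ih =>
    have : reach gm (x :: L) cur = force (Nat.shiftRight x 10) fun g => force (Nat.mod x 1024)
      fun a => bif' (band (tb gm g) (tb cur a))
        (force (Nat.lor cur (Nat.shiftLeft 1 (opN g a))) (reach gm L)) 0 := rfl
    rw [this]
    simp only [force_eq, bif'_eq, band_eq, Bool.and_eq_true]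
    split_ifs with h
    · obtain ⟨h1, h2⟩ := hg _ h.1
      obtain ⟨h3, h4⟩ := hc _ h.2
      exact ih (hc.add (hcl _ h2 _ h4))
    · exact inM_zero S

/-- follow a list of steps `1024 g + a ↦ op g a` with `g` already reached -/
noncomputable def reach2 (L : List ℕ) : ℕ → ℕ :=
  List.rec (motive := fun _ => ℕ → ℕ) (fun cur => cur)
    (fun x _ ih cur => force (Nat.shiftRight x 10) fun g => force (Nat.mod x 1024) fun a =>
      bif' (band (tb cur g) (tb cur a)) (force (Nat.lor cur (Nat.shiftLeft 1 (opN g a))) ih) 0) L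

theorem reach2_sound {S : Set P} (hcl : ∀ g ∈ S, ∀ a ∈ S, op g a ∈ S)
    (L : List ℕ) {cur : ℕ} (hc : InM cur S) : InM (reach2 L cur) S := by
  induction L generalizing cur with
  | nil => exact hc
  | cons x L ih =>
    have : reach2 (x :: L) cur = force (Nat.shiftRight x 10) fun g => force (Nat.mod x 1024)
      fun a => bif' (band (tb cur g) (tb cur a))
        (force (Nat.lor cur (Nat.shiftLeft 1 (opN g a))) (reach2 L)) 0 := rfl
    rw [this]
    simp only [force_eq, bif'_eq, band_eq, Bool.and_eq_true]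
    split_ifs with h
    · obtain ⟨h1, h2⟩ := hc _ h.1
      obtain ⟨h3, h4⟩ := hc _ h.2
      exact ih (hc.add (hcl _ h2 _ h4))
    · exact inM_zero S

theorem orbit_cert {Gs : Set P} {gm : ℕ} (hg : InM gm Gs) (L : List ℕ) (s j : P)
    (h : tb (reach gm L (lm [s])) j = true) : ∃ σ ∈ TG Gs, σ s = j := by
  refine (reach_sound (S := {j | ∃ σ ∈ TG Gs, σ s = j}) ?_ hg L (inM_lm ?_)).mem h
  · rintro g hg _ ⟨σ, hσ, rfl⟩
    exact ⟨tp g * σ, mul_mem (tp_mem_TG hg) hσ, rfl⟩
  · intro i hi
    obtain rfl := List.mem_singleton.1 hi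
    exact ⟨1, one_mem _, rfl⟩

/-- counting points in a mask-like predicate -/
theorem ncard_eq_bsum (f : ℕ → Bool) (S : Set P) (h : ∀ i : P, i ∈ S ↔ f i = true) :
    S.ncard = bsum (fun i => b2n (band (Nat.blt i 693) (f i))) 10 0 := by
  classical
  rw [bsum_count, ← Set.ncard_image_of_injective S Fin.val_injective, ← Set.ncard_coe_finset]
  congr 1
  ext n
  simp only [Set.mem_image, Finset.coe_filter, Finset.mem_range, band_eq, Bool.and_eq_true,
    Nat.blt_eq, Set.mem_ofPred_eq]
  constructor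
  · rintro ⟨i, hi, rfl⟩
    exact ⟨by omega, i.2, (h i).1 hi⟩
  · rintro ⟨-, h1, h2⟩
    exact ⟨⟨n, h1⟩, (h _).2 h2, rfl⟩

end Cfsg.Agent.TT2
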