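import Cfsg.Agent.TT2.U6Cov

/-!
# Double covers of `PSU₆(2)`
-/

set_option autoImplicit false
set_option maxRecDepth 100000

namespace Cfsg.Agent.TT2

open Cfsg.Agent.M24 Subgroup

section RepLine
variable {G : Type*} [Group G] {τ : P → G} {z : G}

theorem Rep.comm21 (R : Rep τ) (i j : P) (hi : (i : ℕ) < 21) (hj : (j : ℕ) < 21) :
    Commute (τ i) (τ j) := R.commute (perp_of_lt hi hj)

theorem Rep.word_ne_one (R : Rep τ) {w : List P} {j : P} (h : wact w j ≠ j) :
    (w.map τ).prod ≠ 1 := fun e => h (R.inj (by rw [← R.conj_word, e]; simp))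

theorem Rep.line_word (R : Rep τ) (hz : ∀ i, Commute z (τ i))
    (hl : (([0, 1, 2, 3, 4] : List P).map τ).prod = z) (w : List P) :
    ((([0, 1, 2, 3, 4] : List P).map (wact w)).map τ).prod = z := by
  rw [← conj_prod (R.conj_word w), hl, TT.commute_iff_conj.1]
  exact (Commute.list_prod_right _ _ fun x hx => by
    obtain ⟨i, -, rfl⟩ := List.mem_map.1 hx
    exact hz i).symm

theorem Rep.Apl_comm (R : Rep τ) {a b : G} (ha : a ∈ Apl τ) (hb : b ∈ Apl τ) : Commute a b := by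
  obtain ⟨L, hL, rfl⟩ := exists_list_of_mem_closure R.sq ha
  obtain ⟨L', hL', rfl⟩ := exists_list_of_mem_closure R.sq hb
  refine Commute.list_prod_right _ _ fun x hx => (Commute.list_prod_right _ _ fun y hy => ?_).symm
  obtain ⟨i, hi, rfl⟩ := List.mem_map.1 hx
  obtain ⟨j, hj, rfl⟩ := List.mem_map.1 hy
  exact R.comm21 i j (hL' i hi) (hL j hj)

theorem Rep.Apl_sq (R : Rep τ) {a : G} (ha : a ∈ Apl τ) : a * a = 1 := by
  induction ha using closure_induction with
  | mem x hx => obtain ⟨i, -, rfl⟩ := hx; exact R.sq i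
  | one => simp
  | mul x y h1 h2 hx hy => exact TT.mul_self_of_commute hx hy (R.Apl_comm h1 h2)
  | inv x _ hx => rw [← mul_inv_rev, hx, inv_one]

theorem mem_Apl {k : P} (hk : (k : ℕ) < 21) : τ k ∈ Apl τ := subset_closure ⟨k, hk, rfl⟩

theorem sq_mul_of_sq {c v : G} (hc : c * c = 1) : (c * v) * (c * v) = c * v * c⁻¹ * v := by
  rw [TT.inv_of_sq hc, mul_assoc (c * v)]

theorem Rep.sq_word (R : Rep τ) {w : List P} (hw : Clq w) : (w.map τ).prod * (w.map τ).prod = 1 := by
  induction w with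
  | nil => simp
  | cons a w ih =>
    rw [List.map_cons, List.prod_cons]
    refine TT.mul_self_of_commute (R.sq a) (ih fun i hi j hj =>
      hw i (List.mem_cons_of_mem _ hi) j (List.mem_cons_of_mem _ hj)) ?_
    refine Commute.list_prod_right _ _ fun x hx => ?_
    obtain ⟨i, hi, rfl⟩ := List.mem_map.1 hx
    exact R.commute (hw a List.mem_cons_self i (List.mem_cons_of_mem _ hi))

theorem Rep.isSq_word (R : Rep τ) {w : List P} (hw : Clq w) (v : List P) :
    ((w ++ v).map τ).prod * ((w ++ v).map τ).prod = ((v.map (wact w) ++ v).map τ).prod := by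
  rw [List.map_append, List.prod_append, sq_mul_of_sq (R.sq_word hw), conj_prod (R.conj_word w),
    List.map_append, List.prod_append]

theorem Rep.sq_01 (R : Rep τ) : ∃ u ∈ closure (Set.range τ), u * u = τ 0 * τ 1 := by
  refine ⟨_, by rw [← Set.image_univ]; exact prod_mem_closure fun _ _ => trivial,
    (R.isSq_word (w := [21, 24]) (by decide +kernel) [0]).trans ?_⟩
  rw [show List.map (wact [21, 24]) [0] ++ [0] = [1, 0] by decide +kernel]
  simpa using (R.comm21 1 0 (by decide) (by decide)).eq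

theorem Rep.sq_z0 (R : Rep τ) (hl : (([0, 1, 2, 3, 4] : List P).map τ).prod = z) :
    ∃ u ∈ closure (Set.range τ), u * u = z * τ 0 := by
  refine ⟨_, by rw [← Set.image_univ]; exact prod_mem_closure fun _ _ => trivial,
    (R.isSq_word (w := [27, 109]) (by decide +kernel) [1, 2]).trans ?_⟩
  rw [show List.map (wact [27, 109]) [1, 2] ++ [1, 2] = [4, 3, 1, 2] by decide +kernel, ← hl,
    prod_eq_of_xl R.comm21 R.sq (L' := [0, 1, 2, 3, 4] ++ [0]) (by decide) (by decide)
      (by decide +kernel)]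
  simp [mul_assoc]

theorem Rep.big_order (R : Rep τ) (L : List P) (hL : L = [0, 1] ∨ L = [0, 1, 5]) :
    ∃ x ∈ closure (Set.range τ), ((L.map τ).prod * (x * (L.map τ).prod * x⁻¹)) ^ 2 ≠ 1 ∧
    ((L.map τ).prod * (x * (L.map τ).prod * x⁻¹)) ^ 3 ≠ 1 := by
  refine ⟨(([637, 261] : List P).map τ).prod,
    by rw [← Set.image_univ]; exact prod_mem_closure fun _ _ => trivial, ?_⟩
  rw [conj_prod (R.conj_word _), ← List.prod_append, ← List.map_append, pow_three, pow_two,
    ← List.prod_append, ← List.map_append, ← List.prod_append, ← List.map_append]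
  rcases hL with rfl | rfl
  · exact ⟨R.word_ne_one (j := 137) (by decide +kernel), R.word_ne_one (j := 137) (by decide +kernel)⟩
  · exact ⟨R.word_ne_one (j := 137) (by decide +kernel), R.word_ne_one (j := 137) (by decide +kernel)⟩

/-- the lines of the standard plane, as images of the standard line -/
def lineW : List (List P) := [[], [37, 27], [357, 129], [489, 27], [499, 27], [24, 21, 37, 27], [24, 21, 357, 129], [24, 21,
  489, 27], [24, 21, 499, 27], [31, 25, 357, 129], [31, 25, 38, 27], [31, 25, 545, 27], [31, 25,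
  536, 27], [160, 21, 37, 27], [160, 21, 545, 27], [160, 21, 536, 27], [160, 21, 358, 129], [157,
  21, 37, 27], [157, 21, 536, 27], [157, 21, 545, 27], [157, 21, 358, 129]]
/-- the lines of the standard plane -/
def lineL : List (List P) := [[0, 1, 2, 3, 4], [0, 5, 6, 10, 9], [0, 7, 8, 12, 11], [0, 13, 18, 17, 14], [0, 15, 19, 16,
  20], [1, 5, 7, 15, 13], [1, 6, 8, 16, 14], [1, 9, 19, 17, 11], [1, 10, 18, 12, 20], [2, 5, 8,
  20, 17], [2, 6, 7, 19, 18], [2, 9, 13, 12, 16], [2, 10, 15, 14, 11], [3, 5, 19, 14, 12], [3, 6,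
  11, 20, 13], [3, 7, 16, 10, 17], [3, 8, 18, 15, 9], [4, 5, 18, 11, 16], [4, 6, 12, 15, 17], [4,
  7, 14, 20, 9], [4, 8, 19, 10, 13]]
/-- the three hyperovals through the standard triangle -/
def hypL : List (List P) := [[0, 1, 5, 8, 18, 19], [0, 1, 5, 11, 14, 20], [0, 1, 5, 12, 16, 17]]
def relC : List ℕ := [0, 0, 0, 0, 1, 0, 0, 0, 2097784, 0, 2, 4203140, 6299896, 0, 4202612, 32, 6300236, 6292104,
  2106100, 2105484, 4195056]

theorem Rep.lines (R : Rep τ) (hz : ∀ i, Commute z (τ i))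
    (hl : (([0, 1, 2, 3, 4] : List P).map τ).prod = z) : ∀ r ∈ lineL, (r.map τ).prod = z := by
  intro r hr
  rw [show lineL = lineW.map fun w => ([0, 1, 2, 3, 4] : List P).map (wact w) by decide +kernel] at hr
  obtain ⟨w, -, rfl⟩ := List.mem_map.1 hr
  exact R.line_word hz hl w

theorem prod_mul_left (hz : ∀ i, Commute z (τ i)) (L : List P) :
    (L.map fun i => z * τ i).prod = z ^ L.length * (L.map τ).prod := by
  induction L with
  | nil => simp
  | cons a L ih =>
    rw [List.map_cons, List.prod_cons, ih, List.length_cons, List.map_cons, List.prod_cons, pow_succ',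
      mul_assoc, mul_assoc, ← mul_assoc (τ a), ← ((hz a).pow_left _).eq, mul_assoc]

end RepLine

/-- The canonical lifts of the transvections to a double cover. -/
structure Lift {C X : Type*} [Group C] [Group X] {t : P → X} (U : U6 t) (π : C →* X) (z : C)
    (τ : P → C) : Prop extends Cov π z where
  map : ∀ i, π (τ i) = t i
  sq : ∀ i, τ i * τ i = 1
  eqv : ∀ c i, c * τ i * c⁻¹ = τ (U.act (π c) i)
  line : (([0, 1, 2, 3, 4] : List P).map τ).prod = z

section Lift
variable {C X : Type*} [Group C] [Group X] {t : P → X} {U : U6 t} {π : C →* X} {z : C} {τ : P → C}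

theorem exists_Lift (U : U6 t) (V : Cov π z) : ∃ τ, Lift U π z τ := by
  obtain ⟨s, h1, h2, h3⟩ := V.exists_lift (E := Set.range t) (by rintro _ ⟨i, rfl⟩; exact U.sq i)
    (by
      rintro _ ⟨i, rfl⟩ _ ⟨j, rfl⟩
      obtain ⟨σ, hσ, rfl⟩ := trans0 i
      obtain ⟨σ', hσ', rfl⟩ := trans0 j
      obtain ⟨x, -, hx⟩ := U.exists_act (mul_mem hσ' (inv_mem hσ))
      exact ⟨x, by rw [U.act_spec, hx]; simp⟩)
    (by
      rintro _ ⟨i, rfl⟩ _ ⟨j, rfl⟩ _ ⟨k, rfl⟩ _ ⟨l, rfl⟩ h1 h2 h3 h4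
      obtain ⟨σ, hσ, rfl, rfl⟩ := pair_trans (U.commute_iff.1 h3) fun h => h1 (by rw [h])
      obtain ⟨σ', hσ', rfl, rfl⟩ := pair_trans (U.commute_iff.1 h4) fun h => h2 (by rw [h])
      obtain ⟨x, -, hx⟩ := U.exists_act (mul_mem hσ' (inv_mem hσ))
      exact ⟨x, by rw [U.act_spec, hx]; simp, by rw [U.act_spec, hx]; simp⟩)
    (a0 := t 5) ⟨5, rfl⟩ (L := ([0, 1, 2, 3, 4] : List P).map t) (by
      intro b hb
      obtain ⟨i, hi, rfl⟩ := List.mem_map.1 hb
      have := (by decide : ∀ i ∈ ([0, 1, 2, 3, 4] : List P), i ≠ 5 ∧ (i : ℕ) < 21) i hi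
      exact ⟨⟨i, rfl⟩, U.inj.ne this.1, U.comm21 5 i (by decide) this.2⟩)
    (by simp; decide) (Or.inl U.line_prod) (L' := ([0, 1, 2, 3, 4] : List P).map t)
    (by intro b hb; obtain ⟨i, -, rfl⟩ := List.mem_map.1 hb; exact ⟨i, rfl⟩)
    (by
      intro a ha b hb
      obtain ⟨i, hi, rfl⟩ := List.mem_map.1 ha
      obtain ⟨j, hj, rfl⟩ := List.mem_map.1 hb
      have := (by decide : ∀ i ∈ ([0, 1, 2, 3, 4] : List P), (i : ℕ) < 21)
      exact U.comm21 i j (this i hi) (this j hj))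
    (by simp; decide) U.line_prod
    (fun g hg => closure_mono (by
      rintro _ ⟨j, hj, rfl⟩
      exact ⟨⟨j, rfl⟩, U.commute hj⟩) (U.cent_gen (U.act_eq_iff.2 hg)))
  have h4 : ∀ c i, c * s (t i) * c⁻¹ = s (t (U.act (π c) i)) := fun c i => by
    rw [h3 c _ ⟨i, rfl⟩, U.act_spec]
  have h5 : π (([0, 1, 2, 3, 4] : List P).map fun i => s (t i)).prod = 1 := by
    rw [map_list_prod, List.map_map, ← U.line_prod]
    exact congrArg _ (List.map_congr_left fun i _ => h1 _ ⟨i, rfl⟩)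
  rcases (V.ker _).1 h5 with h | h
  · refine ⟨fun i => z * s (t i), V, fun i => ?_, fun i => ?_, fun c i => ?_, ?_⟩
    · rw [map_mul, V.map_z, one_mul, h1 _ ⟨i, rfl⟩]
    · exact TT.mul_self_of_commute V.zz (h2 _ ⟨i, rfl⟩) (V.comm _)
    · rw [← h4, ← mul_assoc, ← (V.comm c).eq]; group
    · rw [prod_mul_left fun _ => V.comm _, h, mul_one]
      change z ^ 5 = z
      simp [pow_succ, V.zz]
  · exact ⟨fun i => s (t i), V, fun i => h1 _ ⟨i, rfl⟩, fun i => h2 _ ⟨i, rfl⟩, h4, h⟩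

theorem Lift.rep (L : Lift U π z τ) : Rep τ :=
  ⟨fun i j h => U.inj (by rw [← L.map, h, L.map]), L.sq, fun i j => by
    rw [← U.act_t, ← L.map, ← L.eqv, TT.inv_of_sq (L.sq i)]⟩

theorem Lift.map_prod (L : Lift U π z τ) (w : List P) : π (w.map τ).prod = (w.map t).prod := by
  rw [map_list_prod, List.map_map]
  exact congrArg _ (List.map_congr_left fun i _ => L.map i)

theorem Lift.finite (L : Lift U π z τ) : Finite C :=
  Nat.finite_of_card_ne_zero (by rw [L.card, U.card]; norm_num)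

theorem Lift.mem_closure (L : Lift U π z τ) {S : Set P} (hz : z ∈ closure (τ '' S)) {c : C}
    (hc : π c ∈ closure (t '' S)) : c ∈ closure (τ '' S) := by
  obtain ⟨w, hw, e⟩ := exists_list_of_mem_closure U.sq hc
  rw [← L.map_prod] at e
  rcases L.eq_iff.1 e.symm with rfl | rfl
  · exact prod_mem_closure hw
  · exact mul_mem hz (prod_mem_closure hw)

theorem Lift.z_mem_Apl (L : Lift U π z τ) : z ∈ Apl τ :=
  L.line ▸ prod_mem_closure (S := {k | (k : ℕ) < 21}) 
    (show ∀ i ∈ ([0, 1, 2, 3, 4] : List P), (i : ℕ) < 21 by decide)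

theorem Lift.comap_Apl (L : Lift U π z τ) : (Apl t).comap π = Apl τ := by
  refine le_antisymm (fun c hc => L.mem_closure L.z_mem_Apl hc) ((closure_le _).2 ?_)
  rintro _ ⟨i, hi, rfl⟩
  change π (τ i) ∈ Apl t
  rw [L.map]; exact mem_Apl hi

theorem Lift.mem_Apl (L : Lift U π z τ) {c : C} : c ∈ Apl τ ↔ π c ∈ Apl t := by
  rw [← L.comap_Apl]; rfl

theorem Lift.card_Apl (L : Lift U π z τ) : Nat.card (Apl τ) = 1024 := by
  rw [← L.comap_Apl, L.card_comap, U.card_Apl]

theorem Lift.gen (L : Lift U π z τ) : closure (Set.range τ) = ⊤ := by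
  rw [eq_top_iff, ← Set.image_univ]
  exact fun c _ => L.mem_closure (closure_mono (Set.image_mono (Set.subset_univ _)) L.z_mem_Apl)
    (by rw [Set.image_univ, U.gen]; trivial)

theorem Lift.act_eq_iff (L : Lift U π z τ) {c : C} {j : P} :
    U.act (π c) j = j ↔ Commute c (τ j) := by
  rw [TT.commute_iff_conj, L.eqv, L.rep.inj.eq_iff]

theorem Lift.exists_conj_Apl (L : Lift U π z τ) {c : C} (hc : c * c = 1 ∨ c * c = z) :
    ∃ x, x * c * x⁻¹ ∈ Apl τ := by
  obtain ⟨x, hx⟩ := U.exists_conj_Apl (g := π c) (by rw [← map_mul, L.ker]; exact hc)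
  obtain ⟨x, rfl⟩ := L.surj x
  exact ⟨x, L.mem_Apl.2 (by simpa using hx)⟩

theorem Lift.sq_ne (L : Lift U π z τ) (c : C) : c * c ≠ z := fun h => by
  obtain ⟨x, hx⟩ := L.exists_conj_Apl (Or.inr h)
  have := L.rep.Apl_sq hx
  rw [show x * c * x⁻¹ * (x * c * x⁻¹) = x * (c * c) * x⁻¹ by group, h, ← (L.comm x).eq,
    mul_inv_cancel_right] at this
  exact L.zne this

theorem Lift.cent (L : Lift U π z τ) {c : C} {i : P} (h : Commute c (τ i)) :
    c ∈ closure (τ '' {j | perp i j}) := by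
  refine L.mem_closure ?_ (U.cent_gen (L.act_eq_iff.2 h))
  obtain ⟨σ, hσ, rfl⟩ := trans0 i
  obtain ⟨x, -, hx⟩ := L.rep.lift hσ
  rw [← mul_inv_cancel_right z x, (L.comm x).eq, ← L.line, conj_prod hx]
  refine prod_mem_closure fun j hj => ?_
  obtain ⟨j, hj', rfl⟩ := List.mem_map.1 hj
  exact Aut.perp (TG_le_Aut _ hσ) (perp_of_lt (by decide)
    ((by decide : ∀ i ∈ ([0, 1, 2, 3, 4] : List P), (i : ℕ) < 21) j hj'))

theorem Lift.nonsplit (L : Lift U π z τ) (hp : Group.IsPerfect C) :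
    z ∈ Apl fun i => z * τ i := by
  have := L.finite
  by_contra hn
  have hs : ∀ i, z * τ i * (z * τ i) = 1 := fun i => TT.mul_self_of_commute L.zz (L.sq i) (L.comm _)
  have he : ∀ c i, c * (z * τ i) * c⁻¹ = z * τ (U.act (π c) i) := fun c i => by
    rw [← L.eqv, ← mul_assoc, ← (L.comm c).eq]; group
  have hm : ∀ w : List P, π (w.map fun i => z * τ i).prod = (w.map t).prod := fun w => by
    rw [prod_mul_left fun _ => L.comm _, map_mul, map_pow, L.map_z, one_pow, one_mul, L.map_prod]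
  obtain ⟨H, h1, h2, -⟩ := Spl.chain (U := U) (π := π) (ρ := fun i => z * τ i)
    ⟨fun i => by rw [map_mul, L.map_z, one_mul, L.map], hs, he, fun w hw h => by
      refine ((L.ker _).1 (by rw [hm, h])).resolve_right fun e => hn ?_
      obtain ⟨σ, hσ, h3⟩ := clique (Y := {i | i ∈ w}) hw
      obtain ⟨x, -, rfl⟩ := U.exists_act hσ
      obtain ⟨x, rfl⟩ := L.surj x
      have := conj_prod (f := fun i => z * τ i) (he x) w
      rw [e, ← (L.comm x).eq, mul_inv_cancel_right] at this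
      nth_rw 2 [this]
      refine prod_mem_closure fun j hj => ?_
      obtain ⟨j, hj', rfl⟩ := List.mem_map.1 hj
      exact h3 j hj'⟩
  have h3 := H.card_mul_index
  rw [h2, L.card, U.card] at h3
  exact L.zne (h1 z (not_mem_of_perfect hp L.zz L.comm (by omega)) L.map_z)

theorem Lift.exists_hyp (L : Lift U π z τ) (hp : Group.IsPerfect C) :
    ∃ r ∈ hypL, (r.map τ).prod = z := by
  by_contra hn
  push Not at hn
  have hs : ∀ i, z * τ i * (z * τ i) = 1 := fun i => TT.mul_self_of_commute L.zz (L.sq i) (L.comm _)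
  have hc : ∀ i j : P, (i : ℕ) < 21 → (j : ℕ) < 21 → Commute (z * τ i) (z * τ j) :=
    fun i j hi hj => (L.comm _).mul_left ((L.comm _).symm.mul_right (L.rep.comm21 i j hi hj))
  have z2 : ∀ n, z ^ (2 * n) = 1 := fun n => by rw [pow_mul, pow_two, L.zz, one_pow]
  have hrel : ∀ r ∈ lineL ++ hypL, (r.map fun i => z * τ i).prod = 1 := by
    intro r hr
    rw [prod_mul_left fun _ => L.comm _]
    rcases List.mem_append.1 hr with h | h
    · rw [L.rep.lines (fun _ => L.comm _) L.line r h,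
        (by decide : ∀ r ∈ lineL, r.length = 5) r h, ← pow_succ, z2 3]
    · rw [(by decide : ∀ r ∈ hypL, r.length = 6) r h, z2 3, one_mul]
      refine ((L.ker _).1 ?_).resolve_right (hn r h)
      rw [L.map_prod]
      exact U.word_eq_one ((by decide +kernel : ∀ r ∈ hypL, ∀ i ∈ gensL, wact r i = i) r h)
  have hb : ∀ k : P, (k : ℕ) < 21 → z * τ k = ((sub basL (mu k)).map fun i => z * τ i).prod := by
    intro k hk
    have h1 := prod_sub_flatten _ _ hrel (lget relC 0 k)
    have h2 : ∀ k ∈ U21, xl (k :: sub basL (mu k)) =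
      xl (sub (lineL ++ hypL) (lget relC 0 k)).flatten := by decide +kernel
    rw [← prod_eq_of_xl hc hs (fun i hi => by
      rcases List.mem_cons.1 hi with rfl | hi
      exacts [hk, basL_lt i (mem_of_mem_sub hi)]) (fun i hi => by
      obtain ⟨r, hr, hi⟩ := List.mem_flatten.1 hi
      exact (by decide : ∀ r ∈ lineL ++ hypL, ∀ i ∈ r, (i : ℕ) < 21) r (mem_of_mem_sub hr) i hi)
      (lt21_cases h2 hk), List.map_cons, List.prod_cons, mul_eq_one_iff_inv_eq,
      TT.inv_of_sq (hs k)] at h1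
    exact h1
  obtain ⟨w, hw, e⟩ := exists_list_of_mem_closure hs (L.nonsplit hp)
  rw [prod_eq_bas hc hs hb hw] at e
  have := congrArg π e
  rw [prod_mul_left fun _ => L.comm _, map_mul, map_pow, L.map_z, one_pow, one_mul,
    L.map_prod] at this
  rw [U.bas_eq_one (xm_lt w) this, sub_zero] at e
  exact L.zne e.symm

theorem Lift.sylow (L : Lift U π z τ) {S : Subgroup C} (hS : IsPGroup 2 S) :
    ∃ x : C, ∀ s ∈ S, ∀ k : P, (k : ℕ) < 21 → (U.act (π (x * s * x⁻¹)) k : ℕ) < 21 := by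
  have := L.finite
  have := U.finite
  have : Fact (Nat.Prime 2) := ⟨Nat.prime_two⟩
  obtain ⟨H, -, h2, h3⟩ := Spl.chain (U := U) (π := MonoidHom.id X) (ρ := t)
    ⟨fun _ => rfl, U.sq, U.act_spec, fun _ _ h => h⟩
  have hc : Nat.card (H.comap π) = 2 ^ 16 := by rw [L.card_comap, h2]; norm_num
  let T : Sylow 2 C := (IsPGroup.of_card hc).toSylow (by
    have := (H.comap π).card_mul_index
    rw [hc, L.card, U.card] at this
    omega)
  obtain ⟨Q, hQ⟩ := hS.exists_le_sylow
  obtain ⟨x, rfl⟩ := MulAction.exists_smul_eq C T Q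
  refine ⟨x⁻¹, fun s hs => h3 _ ?_⟩
  have := hQ hs
  rw [Sylow.coe_subgroup_smul, mem_pointwise_smul_iff_inv_smul_mem] at this
  simpa [T] using this

theorem tri_thru (p : P) (hp : (p : ℕ) < 21) :
    ∃ q r : P, (q : ℕ) < 21 ∧ (r : ℕ) < 21 ∧ Tri p q r := by
  obtain ⟨q, hq, hne⟩ : ∃ q : P, (q : ℕ) < 21 ∧ p ≠ q := by
    by_cases h : p = 0
    · exact ⟨1, by decide, h ▸ by decide⟩
    · exact ⟨0, by decide, h⟩
  obtain ⟨r, hr, hc⟩ : ∃ r : P, (r : ℕ) < 21 ∧ ¬ col p q r := by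
    by_contra h
    push Not at h
    have := Set.ncard_le_ncard (s := {k : P | (k : ℕ) < 21}) (t := {k | col p q k}) h
    rw [ncard_lt21, ncard_col (perp_of_lt hp hq) hne] at this
    omega
  exact ⟨q, r, hq, hr, perp_of_lt hp hq, perp_of_lt hp hr, perp_of_lt hq hr, hne, hc⟩

theorem Lift.ncard_fix (L : Lift U π z τ) {b : C} (hb : b * b = 1) (hA : b ∉ Apl τ) :
    {k : P | (k : ℕ) < 21 ∧ U.act (π b) k = k}.ncard ≤ 5 := by
  by_cases h : {k : P | (k : ℕ) < 21 ∧ U.act (π b) k = k}.Subsingleton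
  · exact (Set.ncard_le_one_iff_subsingleton.2 h).trans (by norm_num)
  obtain ⟨i, hi, j, hj, hne⟩ := Set.not_subsingleton_iff.1 h
  rw [← ncard_col (perp_of_lt hi.1 hj.1) hne]
  refine Set.ncard_le_ncard fun k hk => ?_
  by_contra hc
  exact hA (L.mem_Apl.2 (U.mem_Apl_of_tri (by rw [← map_mul, hb, map_one]) hi.1 hj.1 hk.1
    ⟨perp_of_lt hi.1 hj.1, perp_of_lt hi.1 hk.1, perp_of_lt hj.1 hk.1, hne, hc⟩ hi.2 hj.2 hk.2))

theorem Lift.card_cent (L : Lift U π z τ) {b : C} (hb : b * b = 1) (hA : b ∉ Apl τ)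
    (hs : ∀ k : P, (k : ℕ) < 21 → (U.act (π b) k : ℕ) < 21) :
    Nat.card ↥(Apl τ ⊓ centralizer {b}) ≤ 64 := by
  classical
  have := L.finite
  have hn : ∀ a ∈ Apl τ, b * a * b⁻¹ ∈ Apl τ := fun a ha => conj_Apl (L.eqv b) hs ha
  let f : Apl τ →* Apl τ := MonoidHom.mk' (fun a => ⟨a * (b * a * b⁻¹), mul_mem a.2 (hn a a.2)⟩)
    fun a a' => Subtype.ext (by
      have := (L.rep.Apl_comm a'.2 (hn a a.2)).eq
      change (a : C) * a' * (b * (a * a') * b⁻¹) = a * (b * a * b⁻¹) * (a' * (b * a' * b⁻¹))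
      calc _ = (a : C) * (a' * (b * a * b⁻¹)) * (b * a' * b⁻¹) := by group
        _ = _ := by rw [this]; group)
  have hk : f.ker = (Apl τ ⊓ centralizer {b}).subgroupOf (Apl τ) := by
    ext a
    rw [MonoidHom.mem_ker, mem_subgroupOf, mem_inf, mem_centralizer_singleton_iff, Subtype.ext_iff]
    change (a : C) * (b * a * b⁻¹) = 1 ↔ _
    rw [mul_eq_one_iff_inv_eq, TT.inv_of_sq (L.rep.Apl_sq a.2), eq_mul_inv_iff_mul_eq]
    simp
  have h1 := card_mul_index f.ker
  rw [index_ker, L.card_Apl, hk, Nat.card_congr (subgroupOfEquivOfLe inf_le_left).toEquiv] at h1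
  have h2 : 8 < Nat.card f.range := by
    let M : Finset P := Finset.univ.filter fun k => (k : ℕ) < 21 ∧ U.act (π b) k ≠ k
    have hM : 16 ≤ M.card := by
      have e : {k : P | (k : ℕ) < 21} ⊆ M ∪ {k : P | (k : ℕ) < 21 ∧ U.act (π b) k = k} := by
        intro k hk
        by_cases h : U.act (π b) k = k
        · exact Or.inr ⟨hk, h⟩
        · exact Or.inl (by simpa [M] using ⟨hk, h⟩)
      have := (Set.ncard_le_ncard e).trans (Set.ncard_union_le _ _)
      rw [ncard_lt21, Set.ncard_coe_finset] at this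
      have := L.ncard_fix hb hA
      omega
    let g : P → C := fun k => τ k * τ (U.act (π b) k)
    have hg : M.card ≤ 2 * (M.image g).card := by
      refine Finset.card_le_mul_card_image _ _ fun y hy => ?_
      obtain ⟨i, hi, rfl⟩ := Finset.mem_image.1 hy
      simp only [M, Finset.mem_filter, Finset.mem_univ, true_and] at hi
      refine (Finset.card_le_card (t := {i, U.act (π b) i}) fun k hk => ?_).trans Finset.card_le_two
      simp only [M, Finset.mem_filter, Finset.mem_univ, true_and] at hk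
      have := U.mul_eq_mul (perp_of_lt hi.1 (hs i hi.1)) hi.2.symm (perp_of_lt hi.1 hk.1.1)
        (perp_of_lt (hs i hi.1) hk.1.1) (l := U.act (π b) k)
        (by simpa [g, L.map] using congrArg π hk.2.symm)
      simp only [Finset.mem_insert, Finset.mem_singleton]
      tauto
    have h1 : (1 : C) ∉ M.image g := by
      intro h
      obtain ⟨i, hi, e⟩ := Finset.mem_image.1 h
      simp only [M, Finset.mem_filter, Finset.mem_univ, true_and] at hi
      rw [mul_eq_one_iff_inv_eq, L.rep.inv] at e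
      exact hi.2 (L.rep.inj e).symm
    have h3 : ((insert 1 (M.image g) : Finset C) : Set C) ⊆ (f.range.map (Apl τ).subtype) := by
      intro y hy
      rcases Finset.mem_insert.1 hy with rfl | hy
      · exact one_mem _
      · obtain ⟨i, hi, rfl⟩ := Finset.mem_image.1 hy
        simp only [M, Finset.mem_filter, Finset.mem_univ, true_and] at hi
        refine ⟨_, ⟨⟨τ i, TT2.mem_Apl hi.1⟩, rfl⟩, ?_⟩
        change τ i * (b * τ i * b⁻¹) = _
        rw [L.eqv]
    have := Set.ncard_le_ncard h3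
    rw [Set.ncard_coe_finset, Finset.card_insert_of_notMem h1] at this
    rw [← card_subtype]
    change 8 < ((f.range.map (Apl τ).subtype : Subgroup C) : Set C).ncard
    omega
  obtain ⟨k, -, hk⟩ := (Nat.dvd_prime_pow (m := 10) Nat.prime_two).1 (Dvd.intro_left _ h1)
  rw [hk] at h1 h2
  have : 4 ≤ k := by
    by_contra h
    interval_cases k <;> omega
  have := Nat.pow_le_pow_right (by norm_num : 0 < 2) this
  nlinarith

theorem Lift.eq_Apl (L : Lift U π z τ) {B : Subgroup C} (hB : ∀ b ∈ B, b * b = 1)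
    (hc : 1024 ≤ Nat.card B) (hs : ∀ b ∈ B, ∀ k : P, (k : ℕ) < 21 → (U.act (π b) k : ℕ) < 21) :
    B = Apl τ := by
  classical
  have := L.finite
  have : Fact (Nat.Prime 2) := ⟨Nat.prime_two⟩
  by_cases hle : B ≤ Apl τ
  · exact eq_of_le_of_card_ge hle (by rwa [L.card_Apl])
  exfalso
  have hcomm : ∀ a ∈ B, ∀ b ∈ B, Commute a b := fun a ha b hb =>
    TT.commute_of_sq (hB a ha) (hB b hb) (by rw [pow_two]; exact hB _ (mul_mem ha hb))
  have hp : IsPGroup 2 B := TT.isPGroup_of_forall fun x hx => ⟨1, by rw [pow_one, pow_two, hB x hx]⟩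
  have hle0 : ∀ b ∈ B, B ⊓ Apl τ ≤ Apl τ ⊓ centralizer {b} := fun b hb a ha =>
    ⟨ha.2, mem_centralizer_singleton_iff.2 (hcomm a ha.1 b hb)⟩
  obtain ⟨b0, hb0, hb0A⟩ := SetLike.not_le_iff_exists.1 hle
  have h64 : Nat.card ↥(B ⊓ Apl τ) ≤ 64 :=
    (card_le_of_le (hle0 b0 hb0)).trans (L.card_cent (hB b0 hb0) hb0A (hs b0 hb0))
  let a : C →* Equiv.Perm P := U.act.comp π
  let St : P → Subgroup C := fun x => (MulAction.stabilizer (Equiv.Perm P) x).comap a
  have horb : ∀ (H : Subgroup C), H ≤ B → ∀ x : P, (x : ℕ) < 21 →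
      {y | ∃ g ∈ H, a g x = y} ⊆ {y : P | (y : ℕ) < 21} := by
    rintro H hH x hx _ ⟨g, hg, rfl⟩
    exact hs g (hH hg) x hx
  have hpow : ∀ (H : Subgroup C), H ≤ B → ∀ x, ∃ k, {y | ∃ g ∈ H, a g x = y}.ncard = 2 ^ k := by
    intro H hH x
    obtain ⟨n, hn⟩ := IsPGroup.iff_card.1 (hp.to_le hH)
    obtain ⟨k, -, hk⟩ := (Nat.dvd_prime_pow Nat.prime_two).1
      (hn ▸ Dvd.intro _ (card_eq_orbit_mul a H x).symm)
    exact ⟨k, hk⟩
  by_cases hbig : Nat.card B ≤ 16 * Nat.card ↥(B ⊓ Apl τ)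
  · have e64 : Nat.card ↥(B ⊓ Apl τ) = 64 := by omega
    have he : ∀ b ∈ B, b ∉ Apl τ → B ⊓ Apl τ = Apl τ ⊓ centralizer {b} := fun b hb hbA =>
      eq_of_le_of_card_ge (hle0 b hb) (e64 ▸ L.card_cent (hB b hb) hbA (hs b hb))
    have hfix : ∀ b ∈ B, b ∉ Apl τ → ∀ x : P, (x : ℕ) < 21 →
        (a b x = x ↔ τ x ∈ B ⊓ Apl τ) := fun b hb hbA x hx => by
      rw [he b hb hbA, mem_inf, mem_centralizer_singleton_iff]
      exact L.act_eq_iff.trans ⟨fun h => ⟨TT2.mem_Apl hx, h.symm⟩, fun h => Commute.symm h.2⟩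
    have h16 : ∀ x : P, (x : ℕ) < 21 → τ x ∉ B ⊓ Apl τ → 16 ≤ {y | ∃ g ∈ B, a g x = y}.ncard := by
      intro x hx hxB
      have h1 := card_eq_orbit_mul a B x
      have h2 : B ⊓ St x ≤ B ⊓ Apl τ := fun g hg => ⟨hg.1, by
        by_contra hgA
        exact hxB ((hfix g hg.1 hgA x hx).1 hg.2)⟩
      have h3 := card_le_of_le h2
      change _ = _ * Nat.card ↥(B ⊓ St x) at h1
      nlinarith
    have hxy : ∀ x y : P, (x : ℕ) < 21 → (y : ℕ) < 21 → τ x ∉ B ⊓ Apl τ → τ y ∉ B ⊓ Apl τ →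
        τ x * τ y ∈ B ⊓ Apl τ := by
      intro x y hx hy hxB hyB
      obtain ⟨w, ⟨g, hg, e1⟩, g', hg', e2⟩ :
          ({y | ∃ g ∈ B, a g x = y} ∩ {w | ∃ g ∈ B, a g y = w}).Nonempty := by
        by_contra h
        have := Set.ncard_le_ncard (Set.union_subset (horb B le_rfl x hx) (horb B le_rfl y hy))
        rw [Set.ncard_union_eq (Set.disjoint_iff_inter_eq_empty.2
          (Set.not_nonempty_iff_eq_empty.1 h)), ncard_lt21] at this
        have := h16 x hx hxB
        have := h16 y hy hyB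
        omega
      have hb : g'⁻¹ * g ∈ B := mul_mem (inv_mem hg') hg
      have e : (g'⁻¹ * g) * τ x * (g'⁻¹ * g)⁻¹ = τ y := by
        rw [L.eqv]
        congr 1
        change a (g'⁻¹ * g) x = y
        rw [map_mul, map_inv, Equiv.Perm.mul_apply, e1, ← e2]; simp
      generalize g'⁻¹ * g = b at hb e
      by_cases hbA : b ∈ Apl τ
      · rw [← e, TT.commute_iff_conj.1 (L.rep.Apl_comm hbA (TT2.mem_Apl hx)), L.sq]
        exact one_mem _
      · rw [he b hb hbA]
        refine ⟨mul_mem (TT2.mem_Apl hx) (TT2.mem_Apl hy), mem_centralizer_singleton_iff.2 ?_⟩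
        have hi := TT.inv_of_sq (hB b hb)
        have e' : b * τ y * b⁻¹ = τ x := by
          rw [← e, hi, ← mul_assoc, ← mul_assoc, hB b hb, one_mul, mul_assoc, hB b hb, mul_one]
        refine (TT.commute_iff_conj.2 ?_).symm
        calc b * (τ x * τ y) * b⁻¹ = b * τ x * b⁻¹ * (b * τ y * b⁻¹) := by group
          _ = τ x * τ y := by rw [e, e', (L.rep.comm21 x y hx hy).eq]
    by_cases hall : ∀ x : P, (x : ℕ) < 21 → τ x ∈ B ⊓ Apl τ
    · have hle' : Apl τ ≤ B ⊓ Apl τ := (closure_le _).2 (by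
        rintro _ ⟨x, hx, rfl⟩; exact hall x hx)
      have := card_le_of_le hle'
      rw [L.card_Apl] at this
      omega
    · push Not at hall
      obtain ⟨x0, hx0, h0⟩ := hall
      obtain ⟨h1, h2⟩ := card_sup_zpowers (L.sq x0) (fun h hh => by
        rwa [TT.commute_iff_conj.1 (L.rep.Apl_comm (TT2.mem_Apl hx0) hh.2)]) h0
      have hle' : Apl τ ≤ B ⊓ Apl τ ⊔ zpowers (τ x0) := (closure_le _).2 (by
        rintro _ ⟨x, hx, rfl⟩
        by_cases h : τ x ∈ B ⊓ Apl τ
        · exact (h1 _).2 (Or.inl h)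
        · exact (h1 _).2 (Or.inr (hxy x x0 hx hx0 h h0)))
      have := card_le_of_le hle'
      rw [L.card_Apl] at this
      omega
  · have h4 : ∀ x : P, (x : ℕ) < 21 → {y | ∃ g ∈ B, a g x = y}.ncard ≤ 4 := by
      intro x hx
      obtain ⟨k, hk⟩ := hpow B le_rfl x
      have h1 := card_eq_orbit_mul a B x
      change _ = _ * Nat.card ↥(B ⊓ St x) at h1
      have h2 : ¬ B ⊓ St x ≤ Apl τ := fun h => by
        have h3 := card_le_of_le (le_inf inf_le_left h)
        have h4 := Set.ncard_le_ncard (horb B le_rfl x hx)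
        rw [ncard_lt21, hk] at h4
        have : k ≤ 4 := by
          by_contra h
          have := Nat.pow_le_pow_right (by norm_num : 0 < 2) (show 5 ≤ k by omega)
          omega
        have := Nat.pow_le_pow_right (by norm_num : 0 < 2) this
        rw [hk] at h1
        nlinarith
      obtain ⟨e, he, heA⟩ := SetLike.not_le_iff_exists.1 h2
      have h5 := (Set.ncard_le_ncard (s := {y | ∃ g ∈ B, a g x = y}) (by
        rintro _ ⟨g, hg, rfl⟩
        refine ⟨hs g hg x hx, ?_⟩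
        change a e (a g x) = a g x
        rw [← Equiv.Perm.mul_apply, ← map_mul, (hcomm e he.1 g hg).eq, map_mul, Equiv.Perm.mul_apply,
          show a e x = x from he.2])).trans (L.ncard_fix (hB e he.1) heA)
      rw [hk] at h5 ⊢
      have : k ≤ 2 := by
        by_contra h
        have := Nat.pow_le_pow_right (by norm_num : 0 < 2) (show 3 ≤ k by omega)
        omega
      exact Nat.pow_le_pow_right (by norm_num : 0 < 2) this
    obtain ⟨p, hp21, hpf⟩ : ∃ p : P, (p : ℕ) < 21 ∧ ∀ g ∈ B, a g p = p := by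
      let _ : MulAction B {k : P // (k : ℕ) < 21} :=
        { smul := fun g k => ⟨a g k, hs g g.2 k k.2⟩
          one_smul := fun k => Subtype.ext (by change a 1 k = k; simp)
          mul_smul := fun g g' k => Subtype.ext (by change a (g * g') k = a g (a g' k); simp) }
      obtain ⟨p, hp⟩ := hp.nonempty_fixed_point_of_prime_not_dvd_card {k : P // (k : ℕ) < 21} (by
        rw [show Nat.card {k : P // (k : ℕ) < 21} = 21 from ncard_lt21]; norm_num)
      exact ⟨p, p.2, fun g hg => congrArg Subtype.val (hp ⟨g, hg⟩)⟩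
    obtain ⟨q, r, hq, hr, hT⟩ := tri_thru p hp21
    have h1 := card_eq_orbit_mul a B q
    have h2 := card_eq_orbit_mul a (B ⊓ St q) r
    change _ = _ * Nat.card ↥(B ⊓ St q) at h1
    change _ = _ * Nat.card ↥(B ⊓ St q ⊓ St r) at h2
    have h3 : B ⊓ St q ⊓ St r ≤ B ⊓ Apl τ := fun g hg => ⟨hg.1.1, L.mem_Apl.2 (U.mem_Apl_of_tri
      (by rw [← map_mul, hB g hg.1.1, map_one]) hp21 hq hr hT (hpf g hg.1.1) hg.1.2 hg.2)⟩
    have h5 := card_le_of_le h3
    have h6 := h4 q hq
    have h7 := (Set.ncard_le_ncard (s := {y | ∃ g ∈ B ⊓ St q, a g r = y}) (by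
      rintro _ ⟨g, hg, rfl⟩; exact ⟨g, hg.1, rfl⟩)).trans (h4 r hr)
    have h8 := Nat.mul_le_mul h6 (h2.le.trans (Nat.mul_le_mul h7 h5))
    omega

end Lift

end Cfsg.Agent.TT2
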