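import Cfsg.Agent.TT2.U6Chk

/-!
# Geometry of the 693 points: transitivity, lines, planes, closed hyperovals
-/

set_option autoImplicit false
set_option maxRecDepth 100000

namespace Cfsg.Agent.TT2

open Cfsg.Agent.M24 Subgroup

/-- generators -/
def gensL : List P := [137, 582, 64, 261, 120, 507]
def certG : List ℕ := [596032, 140549, 596229, 65797, 65656, 267384, 140795, 596475, 267771, 123387, 267953, 123569,
  519857, 596480, 66048, 123392, 706048, 65814, 123158, 705814, 123421, 519709, 267382, 519286,
  524406, 284790, 554102, 519681, 706049, 595982, 122894, 705550, 284686, 120846, 525326, 122883,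
  553987, 120835, 525315, 123187, 705843, 121139, 525619, 705849, 524601, 284985, 554297, 123336,
  519624, 121288, 525768, 14792, 320968, 519322, 524442, 284826, 554138, 14490, 3226, 314522,
  320666, 524659, 285043, 121203, 65917, 123261, 705917, 554365, 121213, 525693, 320893, 467325,
  158077, 380285, 123350, 121302, 525782, 3542, 320982, 158166, 380374, 705974, 554422, 14774,
  3510, 314806, 467382, 158134, 380342, 121364, 525844, 14868, 3604, 314900, 321044, 123011,
  120963, 525443, 320643, 157827, 705912, 554360, 14712, 3448, 314744, 467320, 158072, 120873,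
  525353, 14377, 519787, 14955, 314987, 321131, 380523, 120899, 525379, 157763, 448579, 385091,
  519711, 14879, 314911, 321055, 390687, 545311, 134687, 69151, 524942, 285326, 554638, 525966,
  481934, 449166, 545422, 134798, 385678, 634510, 69262, 285144, 14808, 314840, 320984, 380376,
  69080, 554158, 3246, 314542, 320686, 14607, 314639, 320783, 466971, 157723, 390171, 481307,
  134171, 483355, 178203, 14909, 314941, 321085, 69181, 670269, 123107, 121059, 525539, 320739,
  157923, 448739, 134371, 385251, 68835, 669923, 178403, 277731, 27875, 586979, 706081, 285217,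
  467489, 158241, 380449, 390689, 481825, 545313, 385569, 42529, 69153, 556577, 483873, 178721,
  278049, 587297, 121253, 320933, 385445, 670117, 178597, 277925, 28069, 587173, 525887, 321087,
  449087, 634431, 69183, 278079, 28223, 3658, 481866, 449098, 42570, 69194, 28234, 3242, 467114,
  157866, 390314, 481450, 544938, 68778, 669866, 483498, 178346, 466981, 390181, 481317, 134181,
  586789, 431141, 600101, 174117, 321071, 158255, 390703, 449071, 670255, 28207, 587311, 390497,
  481633, 448865, 42337, 558433, 431457, 174433, 467522, 390722, 481858, 42562, 670274, 431682,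
  600642, 390399, 481535, 556287, 483583, 232703, 431359, 589055, 600319, 525728, 448928, 385440,
  178592, 277920, 174496, 361888, 592288, 525335, 390167, 481303, 448535, 42007, 232471, 558103,
  174103, 466954, 379914, 390154, 481290, 544778, 483338, 232458, 431114, 600074, 572426, 361482,
  524890, 390746, 449114, 134746, 385626, 634458, 69210, 483930, 278106, 233050, 589402, 600666,
  174682, 592474, 554536, 467496, 158248, 385576, 42536, 634408, 69160, 178728, 278056, 233000,
  600616, 572968, 592424, 426536, 24104, 467060, 544884, 633972, 483444, 232564, 431220, 174196,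
  361588, 23668, 390175, 448543, 385055, 483359, 586783, 588831, 600095, 174111, 14389, 431157,
  600117, 174133, 565301, 118837, 31797, 448725, 385237, 600277, 38101, 565461, 118997, 31957,
  14783, 320959, 558527, 431551, 174527, 592319, 481687, 670103, 558487, 361879, 23959, 321089,
  158273, 385601, 178753, 28225, 587329, 38465, 592449, 261697, 24129, 10817, 617025, 565825,
  119361, 32321, 481473, 448705, 385217, 634049, 556225, 232641, 431297, 588993, 600257, 174273,
  361665, 23745, 481732, 448964, 174532, 565700, 14639, 314671, 380207, 68911, 38191, 572719,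
  592175, 23855, 616751, 119087, 32047, 670061, 558445, 431469, 174445, 565613, 591213, 197997,
  14825, 314857, 24041, 565737, 481640, 42344, 68968, 277864, 28008, 38248, 572776, 23912,
  119144, 32104, 385360, 591184, 390615, 481751, 483799, 277975, 232919, 600535, 174551, 565719,
  591319, 448619, 544875, 68715, 483435, 42139, 277659, 592027, 31899, 54427, 416923, 197787,
  500891, 482459, 483721, 558473, 600457, 310665, 481332, 174132, 368692, 123227, 121179, 158043,
  600411, 344411, 53595, 705961, 158121, 28073, 174505, 572841, 361897, 592297, 426409, 10665,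
  591273, 109993, 159145, 402857, 121401, 344633, 670197, 361973, 24053, 616949, 119285, 344565,
  482805, 110069, 53749, 321135, 380527, 558703, 174703, 38511, 592495, 261743, 10863, 617071,
  32367, 110191, 403055, 53871, 669725, 600093, 261149, 23581, 616477, 218141, 368669, 344093,
  109597, 402461, 633876, 68628, 483348, 178196, 277524, 431124, 174100, 572436, 591892, 416788,
  482324, 158740, 37937, 591921, 261169, 10289, 616497, 53297, 448544, 483360, 178208, 558112,
  174112, 23584, 10272, 416800, 500768, 27826, 174258, 592050, 426119, 10375, 118919, 31879,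
  482439, 402567, 32903, 23819, 565515, 32011, 344331, 482571, 198295, 501399, 556333, 277805,
  591149, 310573, 501037, 29997, 38171, 23835, 23820, 314407, 261159, 10279, 482343, 109607,
  308263, 314719, 261471, 10591, 482655, 308575, 556400, 670064, 458096, 463216, 482672, 53616,
  587404, 32396, 198284, 501388, 355980, 119440, 218768, 308880, 24039, 679399, 616812, 197996,
  178492, 600380, 261436, 23868, 638268, 320525, 27661, 558093, 31757, 482317, 38232, 592216,
  119128, 198141, 482813, 174257, 344241, 483767, 174519, 218551, 50615, 672183, 352584, 431430,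
  565574, 32070, 310477, 521421, 565264, 232856, 323992, 449944, 600614, 463398, 369190, 352806,
  634335, 361951, 426463, 159199, 450015, 431435, 501067, 368971, 50507, 323915, 323793, 159144,
  174728, 138888, 274056, 40584, 324232, 361953, 592353, 273889, 668129, 174394, 591162, 310532,
  29956, 490756, 352751, 490991, 565556, 308532, 492852, 344603, 499227, 493083, 558244, 323748,
  521380, 321938, 492577, 671817, 418061, 339131, 273636, 668158, 431729, 668273, 426383, 324180,
  368710, 323654, 592162, 506967, 449693, 159319, 679511, 181847, 667820, 40583, 642476, 417339,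
  417000, 261231]
def cert0 : List ℕ := [65536, 140288, 267264, 519168, 595968, 122974, 140382, 519262, 267402, 596106, 123142, 140550,
  519430, 596230, 123403, 267787, 267830, 140407, 267383, 519287, 267928, 123501, 267885, 596589,
  65996, 123340, 140748, 519628, 596428, 267271, 519175, 66065, 140817, 596497, 596412, 267324,
  65620, 267348, 65825, 65626, 140378, 596058, 65590, 122934, 140342, 519222, 519412, 66210,
  519842, 596642, 123132, 140540, 267516, 596220, 65700, 519332, 596132, 66028, 267756, 596460,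
  65815, 123159, 140538, 519418, 596218, 140627, 519507, 596307, 596496, 123369, 596457, 66207,
  267935, 519839, 65715, 123059, 140467, 519347, 123106, 267490, 140963, 267939, 596643, 267602,
  519506, 596306, 65608, 267336, 519240, 65722, 267450, 519354, 65819, 123163, 123320, 123182,
  140590, 267788, 596492, 123568, 140976, 596081, 122922, 140330, 519210, 65638, 140390, 519270,
  519443, 123380, 140435, 267411, 596115, 519463, 596263, 123495, 140903, 267879, 596583, 65696,
  519328, 66044, 140796, 267772, 596476, 596184, 66193, 123537, 596625, 65890, 267618, 123351,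
  519639, 596439, 123313, 66218, 267515, 596219, 65625, 122969, 140377, 519257, 596057, 65644,
  267372, 519276, 122977, 596065, 65576, 519208, 596160, 123287, 267671, 596375, 65817, 267545,
  519449, 267718, 123272, 267656, 267626, 267362, 519266, 65552, 267280, 595984, 65960, 267621,
  519525, 66018, 123362, 140770, 140885, 123014, 140422, 519302, 596102, 140478, 65686, 66166,
  519776, 596576, 519710, 596510, 66058, 267786, 519690, 65711, 122906, 267290, 519194, 65551,
  122895, 123229, 267613, 519517, 65547, 140299, 519179, 267910, 123183, 596271, 65792, 267347,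
  519251, 65936, 140688, 519651, 122912, 140320, 519200, 596000, 267867, 519771, 140956, 267932,
  519836, 267370, 65975, 140727, 267703, 519607, 267901, 519805, 123244, 267628, 596332, 140719,
  267695, 519599, 596399, 267943, 123250, 267634, 65549, 267277, 596538, 123365, 65873, 123567,
  140975, 267951, 65968, 267696, 66221, 140973, 267949, 596653, 596029, 123160, 123207, 267591,
  519495, 123552, 140960, 140926, 267522, 596226, 123406, 140814, 519694, 596494, 519250, 65979,
  267707, 519611, 519212, 123355, 140763, 519374, 596174, 267933, 596637, 65559, 267287, 519191,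
  267897, 123228, 66039, 123383, 140791, 66004, 140954, 519834, 596634, 140974, 519854, 596654,
  519225, 123165, 140573, 267405, 519309, 267359, 519263, 140628, 140805, 267781, 267523, 519427,
  596227, 519556, 519218, 267778, 267642, 66109, 596541, 123034, 596122, 65710, 519342, 519518,
  122938, 140346, 519226, 123257, 267641, 65574, 519206, 66176, 596532, 66035, 123379, 140930,
  122908, 140316, 596333, 65746, 65983, 122933, 65583, 122927, 140335, 519215, 267378, 596082,
  140892, 596572, 140576, 519456, 519573, 267954, 140717, 267693, 519597, 596397, 267288, 595992,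
  123089, 596177, 267917, 519821, 267344, 267701, 123064, 596152, 267355, 65949, 267677, 519581,
  122966, 596054, 65607, 267335, 519239, 123469, 267853, 123020, 519308, 123354, 140762, 267738,
  123010, 267394, 267712, 519616, 65790, 123134, 140542, 519422, 123121, 596209, 123415, 596503,
  66069, 519701, 267449, 65669, 123013, 596101, 123473, 596561, 122968, 140376, 519256, 596056,
  123329, 123471, 65575, 267303, 596007, 267313, 596017, 65837, 140589, 519469, 596269, 267811,
  596515, 140476, 267452, 596156, 519480, 123001, 596083, 596477, 65691, 267419, 66082, 140834,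
  519714, 140789, 267765, 267875, 65592, 140344, 519224, 596024, 267783, 596487, 123240, 596328,
  140389, 596069, 519433, 140949, 596079, 122943, 596031, 66068, 123212, 519277, 65866, 65989,
  267717, 519621, 123178, 267562, 140347, 596456, 122905, 123414, 140822, 519367, 66056, 65708,
  519340, 519255, 267466, 123438, 140846, 140630, 140702, 267678, 267412, 65997, 519442, 65662,
  140414, 596094, 65740, 140843, 267824, 140685, 140786, 66128, 140880, 519760, 519566, 65844,
  267572, 519476, 123332, 596420, 519325, 123140, 519428, 122953, 140361, 123496, 140904, 267880,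
  140772, 596452, 267680, 519584, 140400, 596080, 140398, 267584, 267873, 519777, 123532, 140940,
  596620, 267816, 519720, 66187, 140939, 123196, 123302, 140710, 519590, 596390, 267789, 267780,
  123516, 267900, 66209, 65947, 596376, 65862, 519494, 66225, 519857, 596657, 65654, 123208,
  519496, 267607, 596311, 140624, 596320, 65778, 596378, 140297, 267273, 66079, 123335, 140457,
  140519, 519336, 596396, 519851, 596651, 123026, 596252, 123214, 140622, 267530, 267849, 519811,
  140936, 267578, 519397, 66030, 267758, 596462, 123343, 519631, 140864, 123008, 123281, 140644,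
  596324, 596582, 596334, 267821, 519725, 596525, 140366, 519243, 123326, 596414, 66016, 65932,
  519564, 267447, 596151, 596551, 596045, 267825, 65951, 519458, 140475, 596449, 123058, 267442,
  519742, 596198, 596285, 267266, 267841, 65804, 123543, 123092, 65883, 123366, 519654, 140293,
  519173, 595973, 122983, 596071, 66142, 267881, 519849, 596649, 66047, 519845, 596014, 65665,
  123071, 519359, 519637, 519632, 596023, 267434, 519338, 519786, 596255, 66146, 123490, 596578,
  123042, 596130, 519492, 140647, 123135, 267519, 519423, 123417, 519770, 596570, 519235, 66190,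
  140942, 267483, 596187, 519547, 123398, 596486, 123266, 596354, 65783, 267511, 267388, 123318,
  140726, 140785, 267761, 140922, 65653, 596278, 123256, 519544, 140884, 519750, 65640, 65751,
  140860, 519487, 66074, 519591, 122898, 596232, 66134, 66080, 596148, 65733, 123195, 65957,
  267430, 596113, 66001, 267729, 65699, 519331, 267564, 267465, 123425, 267571, 519475, 595995,
  65588, 267754, 65537, 519169, 267467, 140323, 267776, 596341]
def cert1 : List ℕ := [27649, 28673, 29697, 30721, 35841, 36865, 37889, 38913, 111617, 114689, 115713, 118785,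
  119809, 122881, 123905, 126977, 132097, 133121, 134145, 135169, 136193, 137217, 138241, 139265,
  144385, 145409, 146433, 147457, 156673, 157697, 158721, 159745, 218113, 221185, 222209, 225281,
  226305, 229377, 230401, 233473, 234497, 237569, 238593, 241665, 242689, 245761, 246785, 249857,
  250881, 251905, 254977, 256001, 259073, 260097, 263169, 264193, 269313, 270337, 273409, 274433,
  324609, 327681, 328705, 331777, 332801, 335873, 336897, 339969, 340993, 344065, 345089, 348161,
  365569, 366593, 367617, 368641, 420865, 423937, 424961, 428033, 500737, 501761, 502785, 503809,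
  508929, 509953, 510977, 512001, 545793, 548865, 549889, 552961, 553985, 557057, 558081, 561153,
  564225, 565249, 568321, 569345, 572417, 573441, 576513, 577537, 611329, 614401, 615425, 618497,
  619521, 622593, 623617, 626689, 629761, 630785, 631809, 632833, 637953, 638977, 640001, 641025,
  680961, 684033, 685057, 688129, 697345, 700417, 701441, 704513, 28701, 37917, 38941, 111645,
  114717, 123933, 127005, 259101, 260125, 263197, 264221, 269341, 270365, 273437, 274461, 332829,
  335901, 336925, 339997, 341021, 344093, 345117, 348189, 500765, 501789, 511005, 512029, 545821,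
  548893, 558109, 561181, 631837, 632861, 637981, 639005, 685085, 688157, 697373, 700445, 269349,
  270373, 273445, 274469, 341029, 344101, 345125, 348197, 365699, 366723, 420995, 424067]
def cert2 : List ℕ := [431109, 432133, 437253, 438277, 439301, 440325, 445445, 446469, 480261, 483333, 484357,
  487429, 488453, 491525, 492549, 495621, 627717, 628741, 633861, 634885, 635909, 636933, 642053,
  643077, 676869, 679941, 689157, 692229, 693253, 696325, 705541, 708613, 432557, 437677, 438701,
  480685, 483757, 484781, 487853, 628141, 629165, 634285, 635309, 677293, 680365, 689581, 692653]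
def certM : List ℕ := [5733, 8805, 1153, 8321, 627841, 70, 8262, 627782, 8627, 132531, 72115, 132785, 72369, 8323,
  627843, 445571, 705667, 628072, 72040, 445800, 705896, 72171, 8292, 627812, 445540, 705636,
  368740, 502884, 628095, 445823, 705919, 134527, 134611, 132572, 72156, 134620, 369116, 503260,
  102876, 392668, 478684, 72305, 706161, 103025, 478833, 706199, 134807, 72285, 103005, 679517,
  134538, 640394, 628070, 445798, 705894, 503142, 102758, 487782, 640358, 619878, 102955, 487979,
  679467, 706159, 369263, 103023, 620143, 404079, 102941, 679453, 638269, 392517, 403781, 554309,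
  638177, 488081, 638609, 333457, 628119, 445847, 705943, 478615, 487831, 679319, 403863, 333207,
  487875, 640451, 638403, 706198, 392854, 231062, 673430, 488065, 638593, 333441, 333278, 678366,
  619974, 367046, 673222, 656838, 488079, 678543, 404128, 568992, 379552, 657056, 671392, 554370,
  103068, 673436, 367125, 638485, 417301, 673130, 677928, 367156, 679088]
def certOut : List ℕ := [31746, 32770, 39938, 40962, 52226, 54274, 62466, 71682, 72706, 74754, 82946, 84994, 93186,
  102402, 103426, 105474, 111618, 115714, 119810, 123906, 132098, 134146, 161794, 172034, 180226,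
  183298, 190466, 200706, 208898, 211970, 223234, 224258, 226306, 230402, 234498, 238594, 242690,
  243714, 244738, 249858, 282626, 290818, 295938, 307202, 315394, 320514, 324610, 328706, 332802,
  336898, 340994, 342018, 343042, 348162, 366594, 368642, 370690, 378882, 392194, 395266, 403458,
  416770, 429058, 430082, 447490, 448514, 456706, 461826, 463874, 464898, 473090, 478210, 489474,
  490498, 502786, 512002, 545794, 550914, 551938, 553986, 568322, 577538, 611330, 616450, 617474,
  619522, 637954, 640002, 654338, 656386, 670722, 672770, 677890, 678914, 684034, 688130, 40986,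
  52250, 54298, 72730, 74778, 82970, 85018, 93210, 102426, 103450, 105498, 111642, 115738,
  119834, 123930, 161818, 172058, 183322, 190490, 200730, 208922, 211994, 223258, 224282, 226330,
  230426, 234522, 238618, 242714, 243738, 244762, 249882, 282650, 295962, 307226, 315418, 320538,
  324634, 328730, 332826, 336922, 341018, 342042, 343066, 348186, 370714, 395290, 403482, 416794,
  429082, 430106, 447514, 448538, 456730, 461850, 464922, 478234, 489498, 502810, 512026, 551962,
  554010, 568346, 577562, 617498, 619546, 637978, 640026, 654362, 656410, 670746, 672794, 678938,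
  684058, 688154, 52249, 54297, 72729, 74777, 82969, 85017, 103449, 105497, 111641, 115737,
  119833, 123929, 161817, 172057, 183321, 190489, 200729, 211993, 223257, 224281, 226329, 230425,
  234521, 238617, 242713, 243737, 244761, 249881, 282649, 295961, 307225, 320537, 324633, 328729,
  332825, 336921, 341017, 342041, 343065, 348185, 370713, 395289, 429081, 430105, 448537, 461849,
  464921, 478233, 502809, 512025, 554009, 568345, 577561, 619545, 637977, 640025, 654361, 656409,
  670745, 672793, 684057, 688153, 52258, 72738, 74786, 82978, 85026, 93218, 102434, 103458,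
  105506, 111650, 115746, 119842, 123938, 161826, 183330, 190498, 200738, 208930, 212002, 223266,
  224290, 226338, 230434, 234530, 238626, 243746, 244770, 295970, 307234, 315426, 320546, 324642,
  328738, 332834, 336930, 342050, 343074, 395298, 403490, 416802, 429090, 430114, 464930, 478242,
  489506, 502818, 551970, 554018, 568354, 617506, 619554, 637986, 640034, 670754, 672802, 678946,
  684066, 688162, 52257, 62497, 72737, 74785, 82977, 103457, 105505, 111649, 115745, 119841,
  123937, 161825, 180257, 183329, 190497, 212001, 223265, 224289, 226337, 230433, 234529, 238625,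
  243745, 244769, 290849, 295969, 320545, 324641, 328737, 332833, 336929, 342049, 343073, 378913,
  429089, 430113, 490529, 502817, 550945, 554017, 568353, 616481, 619553, 637985, 640033, 677921,
  684065, 688161, 85044, 93236, 102452, 103476, 105524, 132148, 134196, 190516, 200756, 208948,
  212020, 223284, 226356, 234548, 242740, 244788, 307252, 315444, 320564, 324660, 332852, 341044,
  343092, 366644, 368692, 370740, 378932, 392244, 429108, 447540, 461876, 464948, 473140, 489524,
  502836, 512052, 545844, 550964, 568372, 577588, 611380, 616500, 638004, 640052, 654388, 656436,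
  677940, 83329, 93569, 102785, 103809, 105857, 120193, 124289, 162177, 180609, 201089, 209281,
  224641, 226689, 230785, 244097, 291201, 307585, 315777, 324993, 329089, 342401, 395649, 403841,
  430465, 464257, 473473, 478593, 489857, 490881, 503169, 546177, 568705, 611713, 678273, 83337,
  102793, 103817, 105865, 112009, 116105, 162185, 201097, 209289, 224649, 238985, 244105, 307593,
  315785, 337289, 342409, 395657, 403849, 430473, 447881, 448905, 512393, 577929, 73106, 75154,
  85394, 93586, 162194, 190866, 201106, 209298, 212370, 223634, 224658, 243090, 307602, 315794,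
  320914, 341394, 465298, 489874, 503186, 552338, 554386, 568722, 617874, 619922, 638354, 640402,
  671122, 673170, 684434, 688530, 83350, 105878, 224662, 366998, 369046, 395670, 403862, 417174,
  429462, 551318, 656790, 83348, 162196, 366996, 369044, 395668, 403860, 417172, 429460, 616852,
  654740, 132178, 134226, 161874, 224338, 242770, 341074, 502866, 552018, 568402, 617554, 638034,
  640082, 670802, 672850, 209257, 230761, 315753, 329065, 447849, 490857, 503145, 568681, 238961,
  337265, 162170, 224634, 243066, 341370, 503162, 551290, 568698, 616826, 638330, 640378, 654714,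
  656762, 132212, 328820, 366708, 502900, 512116, 554100, 619636, 134256, 230512, 368752, 554096,
  568432, 619632, 132220, 337020, 366716, 688252, 134264, 238712, 368760, 684152, 230617, 238809,
  242905, 324825, 333017, 226520, 234712, 328920, 337112, 223280, 243760, 366640, 244814, 366670,
  640250]
def mP0 : ℕ := 0x13333333200000001ffff3332000000019999333200000001e1e133320000000187864c8000000000001e00013333320000000000019866673333333200000000000001e01e1fe133320000000000000000078781fffff
def mP01 : ℕ := 0x1201320120000000187860000000000000000000000000000000133320000000187860000000000000000000000000000000000000000000000000000000000000000000000000000000000000000000000000001fffff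
def mM0 : ℕ := 0x2000310c280028002c0202c200000001008002c20000000100801d00840684068005800800404800405478790e22222b01002b01000000010e2222c02b010042b01004000000a022220b0080a02c020280181800c0123

theorem gens_closed {S : Set P} (hcl : ∀ g ∈ S, ∀ a ∈ S, op g a ∈ S) (h : ∀ i ∈ gensL, i ∈ S)
    (i : P) : i ∈ S := by
  have : force (reach2 certG (lm gensL)) (fun m => nall 693 (tb m)) = true := by decide +kernel
  rw [force_eq] at this
  exact (reach2_sound hcl certG (inM_lm h)).mem (forallP this i)

theorem trans0 (i : P) : ∃ σ ∈ TG Set.univ, σ 0 = i := by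
  have : force (reach (lm gensL) cert0 (lm [0])) (fun m => nall 693 (tb m)) = true := by
    decide +kernel
  rw [force_eq] at this
  exact orbit_cert (inM_lm fun _ _ => trivial) cert0 0 i (forallP this i)

theorem mP0_iff (i : P) : tb mP0 i = true ↔ perp 0 i := by
  have : nall 693 (fun i => tb mP0 i == pp 0 i) = true := by decide +kernel
  rw [← pp_iff, beq_iff_eq.1 (forallP this i)]
  rfl

theorem mP01_iff (i : P) : tb mP01 i = true ↔ perp 0 i ∧ perp 1 i := by
  have : nall 693 (fun i => tb mP01 i == band (pp 0 i) (pp 1 i)) = true := by decide +kernel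
  rw [← pp_iff, ← pp_iff, beq_iff_eq.1 (forallP this i), band_eq, Bool.and_eq_true]
  rfl

theorem trans1 {i : P} (h : perp 0 i) (h0 : i ≠ 0) : ∃ σ ∈ TG {j | perp 0 j}, σ 1 = i := by
  have : reach mP0 cert1 (lm [1]) = Nat.xor mP0 1 := by decide +kernel
  refine orbit_cert (inM_of (by decide +kernel) fun j hj => (mP0_iff j).1 hj) cert1 1 i ?_
  rw [this, tb_eq]
  have h1 : (mP0 ^^^ 2 ^ 0).testBit i = true := by
    rw [Nat.testBit_xor, Nat.testBit_two_pow, ← tb_eq, (mP0_iff i).2 h]
    have : ¬ 0 = (i : ℕ) := fun h => h0 (Fin.ext h.symm)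
    simp [this]
  exact h1

theorem trans2 {i : P} (h0 : perp 0 i) (h1 : perp 1 i) (h5 : 5 ≤ (i : ℕ)) :
    ∃ σ ∈ TG {j | perp 0 j ∧ perp 1 j}, σ 5 = i := by
  have : force (reach mP01 cert2 (lm [5])) (fun m => nall 693 fun i =>
    bor (tb m i) (bor (Nat.blt i 5) (!tb mP01 i))) = true := by decide +kernel
  rw [force_eq] at this
  refine orbit_cert (inM_of (by decide +kernel) fun j hj => (mP01_iff j).1 hj) cert2 5 i ?_
  have h := forallP this i
  rw [(mP01_iff i).2 ⟨h0, h1⟩] at h
  simpa [show ¬ (i : ℕ) < 5 by omega] using h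

theorem lt21 {i : P} (h0 : perp 0 i) (h1 : perp 1 i) (h5 : perp 5 i) : (i : ℕ) < 21 := by
  have : nall 693 (fun i => bor (Nat.blt i 21) (bor (!tb mP01 i) (!pp 5 i))) = true := by
    decide +kernel
  have h := forallP this i
  rw [(mP01_iff i).2 ⟨h0, h1⟩, show pp 5 i = true from (pp_iff 5 i).2 h5] at h
  simpa using h

theorem perp_of_lt {i j : P} (hi : (i : ℕ) < 21) (hj : (j : ℕ) < 21) : perp i j := by
  have : nall 21 (fun i => nall 21 fun j => pp i j) = true := by decide +kernel
  exact (pp_iff i j).1 ((nall_iff _ _).1 ((nall_iff _ _).1 this i hi) j hj)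

theorem line_perp {a b : P} (ha : (a : ℕ) < 5) (hb : (b : ℕ) < 5) (hab : a ≠ b) {m : P}
    (h1 : perp a m) (h2 : perp b m) {k : P} (hk : (k : ℕ) < 5) : perp k m := by
  have : nall 693 (fun m => force (b2n (pp 0 m) + b2n (pp 1 m) + b2n (pp 2 m) + b2n (pp 3 m) +
    b2n (pp 4 m)) fun s => bor (Nat.beq s 1) (Nat.beq s 5)) = true := by decide +kernel
  have h := forallP this m
  rw [← pp_iff] at h1 h2 ⊢
  have hab' : (a : ℕ) ≠ b := fun h => hab (Fin.ext h)
  simp only [force_eq, bor_eq, Bool.or_eq_true, Nat.beq_eq, b2n_eq] at h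
  generalize (a : ℕ) = a at *
  generalize (b : ℕ) = b at *
  generalize (k : ℕ) = k at *
  interval_cases a <;> interval_cases b <;> interval_cases k <;> first | assumption | omega | skip
  all_goals
    by_contra h3
    simp only [h1, h2, h3, if_true, if_false, Bool.false_eq_true] at h
    split_ifs at h <;> omega

theorem line_exists (m : P) : ∃ k : P, (k : ℕ) < 5 ∧ perp k m := by
  have : nall 693 (fun m => nany 5 fun k => pp k m) = true := by decide +kernel
  obtain ⟨k, hk, h⟩ := (nany_iff _ _).1 (forallP this m)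
  exact ⟨⟨k, by omega⟩, hk, (pp_iff _ _).1 h⟩

theorem col_lt5 {a b : P} (ha : (a : ℕ) < 5) (hb : (b : ℕ) < 5) (hab : a ≠ b) (k : P) :
    col a b k ↔ (k : ℕ) < 5 := by
  refine ⟨fun h => ?_, fun hk m h1 h2 => line_perp ha hb hab h1 h2 hk⟩
  have h' : col 0 1 k := fun m h1 h2 => h m (line_perp (by decide) (by decide) (by decide) h1 h2 ha)
    (line_perp (by decide) (by decide) (by decide) h1 h2 hb)
  have hk := lt21 (h' 0 (perp_refl _) (by decide +kernel)).symm
    (h' 1 (by decide +kernel) (perp_refl _)).symm
    (h' 5 (by decide +kernel) (by decide +kernel)).symm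
  have h613 := (pp_iff _ _).2 (h' 613 (by decide +kernel) (by decide +kernel))
  have : nall 21 (fun k => bor (Nat.blt k 5) (!pp k 613)) = true := by decide +kernel
  have h2 := (nall_iff _ _).1 this k hk
  rw [show pp k 613 = true from h613] at h2
  simpa using h2

theorem col01 (k : P) : col 0 1 k ↔ (k : ℕ) < 5 := col_lt5 (by decide) (by decide) (by decide) k

theorem lt5_iff (k : P) : (k : ℕ) < 5 ↔ k = 0 ∨ k = 1 ∨ k = 2 ∨ k = 3 ∨ k = 4 := by
  simp only [Fin.ext_iff]
  change _ ↔ (k : ℕ) = 0 ∨ (k : ℕ) = 1 ∨ (k : ℕ) = 2 ∨ (k : ℕ) = 3 ∨ (k : ℕ) = 4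
  omega

theorem col_aut {σ : Equiv.Perm P} (h : σ ∈ Aut) (k : P) :
    col (σ 0) (σ 1) k ↔ k = σ 0 ∨ k = σ 1 ∨ k = σ 2 ∨ k = σ 3 ∨ k = σ 4 := by
  obtain ⟨k, rfl⟩ := σ.surjective k
  simp only [Aut.col_iff h, col01, lt5_iff, σ.injective.eq_iff]

theorem col_list (w : List P) {a b c d e : P}
    (h : List.map (wact w) [0, 1, 2, 3, 4] = [a, b, c, d, e]) (k : P) :
    col a b k ↔ k = a ∨ k = b ∨ k = c ∨ k = d ∨ k = e := by
  simp only [List.map_cons, List.map_nil, List.cons.injEq, and_true, ← wp_apply] at h
  obtain ⟨rfl, rfl, rfl, rfl, rfl⟩ := h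
  exact col_aut (wp_mem_Aut w) k

theorem pair_trans {i j : P} (h : perp i j) (hne : i ≠ j) :
    ∃ σ ∈ TG Set.univ, σ 0 = i ∧ σ 1 = j := by
  obtain ⟨σ, hσ, rfl⟩ := trans0 i
  obtain ⟨j, rfl⟩ := σ.surjective j
  obtain ⟨σ', hσ', rfl⟩ := trans1 ((Aut.perp_iff (TG_le_Aut _ hσ)).1 h)
    (fun h => hne (by rw [h]))
  refine ⟨σ * σ', mul_mem hσ (TG_mono (Set.subset_univ _) hσ'), ?_, rfl⟩
  rw [Equiv.Perm.mul_apply, TG_fix hσ' fun i hi => perp.symm hi]

/-- a triangle: three pairwise perpendicular points, not on a line -/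
structure Tri (i j k : P) : Prop where
  ij : perp i j
  ik : perp i k
  jk : perp j k
  ne : i ≠ j
  ncol : ¬ col i j k

theorem tri_trans {i j k : P} (h : Tri i j k) :
    ∃ σ ∈ TG Set.univ, σ 0 = i ∧ σ 1 = j ∧ σ 5 = k := by
  obtain ⟨σ, hσ, rfl, rfl⟩ := pair_trans h.ij h.ne
  obtain ⟨k, rfl⟩ := σ.surjective k
  have hA := TG_le_Aut _ hσ
  obtain ⟨σ', hσ', rfl⟩ := trans2 ((Aut.perp_iff hA).1 h.ik) ((Aut.perp_iff hA).1 h.jk)
    (by have := h.ncol; rw [Aut.col_iff hA, col01] at this; omega)
  refine ⟨σ * σ', mul_mem hσ (TG_mono (Set.subset_univ _) hσ'), ?_, ?_, rfl⟩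
  · rw [Equiv.Perm.mul_apply, TG_fix hσ' fun i hi => perp.symm hi.1]
  · rw [Equiv.Perm.mul_apply, TG_fix hσ' fun i hi => perp.symm hi.2]

theorem clique_pair {Y : Set P} (hY : ∀ i ∈ Y, ∀ j ∈ Y, perp i j) {i j : P} (hi : i ∈ Y)
    (hj : j ∈ Y) (hne : i ≠ j) :
    ∃ σ ∈ TG Set.univ, σ i = 0 ∧ σ j = 1 ∧ ∀ y ∈ Y, (σ y : ℕ) < 21 := by
  by_cases h : ∃ k ∈ Y, ¬ col i j k
  · obtain ⟨k, hk, hc⟩ := h
    obtain ⟨σ, hσ, rfl, rfl, rfl⟩ := tri_trans ⟨hY i hi j hj, hY i hi k hk, hY j hj k hk, hne, hc⟩
    have hA := TG_le_Aut _ hσ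
    refine ⟨σ⁻¹, inv_mem hσ, by simp, by simp, fun y hy => ?_⟩
    obtain ⟨y, rfl⟩ := σ.surjective y
    simpa using lt21 ((Aut.perp_iff hA).1 (hY _ hi _ hy)) ((Aut.perp_iff hA).1 (hY _ hj _ hy))
      ((Aut.perp_iff hA).1 (hY _ hk _ hy))
  · push Not at h
    obtain ⟨σ, hσ, rfl, rfl⟩ := pair_trans (hY i hi j hj) hne
    have hA := TG_le_Aut _ hσ
    refine ⟨σ⁻¹, inv_mem hσ, by simp, by simp, fun y hy => ?_⟩
    obtain ⟨y, rfl⟩ := σ.surjective y
    have := h _ hy
    rw [Aut.col_iff hA, col01] at this
    simp; omega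

theorem clique {Y : Set P} (hY : ∀ i ∈ Y, ∀ j ∈ Y, perp i j) :
    ∃ σ ∈ TG Set.univ, ∀ y ∈ Y, (σ y : ℕ) < 21 := by
  by_cases h : Y.Subsingleton
  · rcases h.eq_empty_or_singleton with rfl | ⟨i, rfl⟩
    · exact ⟨1, one_mem _, by simp⟩
    · obtain ⟨σ, hσ, rfl⟩ := trans0 i
      exact ⟨σ⁻¹, inv_mem hσ, by simp⟩
  · obtain ⟨i, hi, j, hj, hne⟩ := Set.not_subsingleton_iff.1 h
    obtain ⟨σ, h1, -, -, h2⟩ := clique_pair hY hi hj hne
    exact ⟨σ, h1, h2⟩

theorem col.perp_left {i j k : P} (h : col i j k) (hp : perp i j) : perp i k :=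
  (h i (perp_refl i) hp.symm).symm

theorem col.perp_right {i j k : P} (h : col i j k) (hp : perp i j) : perp j k :=
  (h j hp (perp_refl j)).symm

theorem col.perp {i j k l : P} (hp : perp i j) (h : col i j k) (h' : col i j l) : perp k l :=
  h l (h'.perp_left hp) (h'.perp_right hp)

theorem col_change {i j a b : P} (hp : perp i j) (hne : i ≠ j) (ha : col i j a) (hb : col i j b)
    (hab : a ≠ b) (k : P) : col a b k ↔ col i j k := by
  obtain ⟨σ, hσ, rfl, rfl⟩ := pair_trans hp hne
  have hA := TG_le_Aut _ hσ
  obtain ⟨a, rfl⟩ := σ.surjective a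
  obtain ⟨b, rfl⟩ := σ.surjective b
  obtain ⟨k, rfl⟩ := σ.surjective k
  rw [Aut.col_iff hA, col01] at ha hb
  rw [Aut.col_iff hA, Aut.col_iff hA, col01, col_lt5 ha hb fun h => hab (by rw [h])]

theorem one_point {i j r : P} (hp : perp i j) (hne : i ≠ j) (hr : ¬ perp i r) :
    ∃! k, col i j k ∧ perp k r := by
  have ex : ∃ k, col i j k ∧ perp k r := by
    obtain ⟨σ, hσ, rfl, rfl⟩ := pair_trans hp hne
    have hA := TG_le_Aut _ hσ
    obtain ⟨r, rfl⟩ := σ.surjective r
    obtain ⟨k, hk, h⟩ := line_exists r
    exact ⟨σ k, by rwa [Aut.col_iff hA, col01], Aut.perp hA h⟩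
  obtain ⟨k, hk⟩ := ex
  refine ⟨k, hk, fun l hl => ?_⟩
  by_contra h
  exact hr ((col_change hp hne hl.1 hk.1 h i).2 (col_left i j) r hl.2 hk.2)

theorem ncard_col {i j : P} (hp : perp i j) (hne : i ≠ j) : {k | col i j k}.ncard = 5 := by
  obtain ⟨σ, hσ, rfl, rfl⟩ := pair_trans hp hne
  have hA := TG_le_Aut _ hσ
  have : {k | col (σ 0) (σ 1) k} = σ '' {k | (k : ℕ) < 5} := by
    ext k
    obtain ⟨k, rfl⟩ := σ.surjective k
    simp [Aut.col_iff hA, col01]
  rw [this, Set.ncard_image_of_injective _ σ.injective,
    ncard_eq_bsum (fun k => Nat.blt k 5) _ (by simp)]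
  decide +kernel

theorem ncard_perp (i : P) : {k | perp i k}.ncard = 181 := by
  obtain ⟨σ, hσ, rfl⟩ := trans0 i
  have hA := TG_le_Aut _ hσ
  have : {k | perp (σ 0) k} = σ '' {k | perp 0 k} := by
    ext k
    obtain ⟨k, rfl⟩ := σ.surjective k
    simp [Aut.perp_iff hA]
  rw [this, Set.ncard_image_of_injective _ σ.injective,
    ncard_eq_bsum (tb mP0) {k | perp 0 k} (fun i => (mP0_iff i).symm)]
  decide +kernel

theorem ncard_perp01 : {k : P | perp 0 k ∧ perp 1 k ∧ 5 ≤ (k : ℕ)}.ncard = 48 := by
  rw [ncard_eq_bsum (fun k => band (tb mP01 k) (Nat.ble 5 k)) _ (fun i => by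
    simp [mP01_iff, and_assoc])]
  decide +kernel

theorem ncard_lt21 : {k : P | (k : ℕ) < 21}.ncard = 21 := by
  rw [ncard_eq_bsum (fun k => Nat.blt k 21) _ (by simp)]
  decide +kernel

theorem col_0_5 (k : P) : col 0 5 k ↔ k = 0 ∨ k = 5 ∨ k = 6 ∨ k = 10 ∨ k = 9 :=
  col_list [37, 27] (by decide +kernel) k

theorem col_1_5 (k : P) : col 1 5 k ↔ k = 1 ∨ k = 5 ∨ k = 7 ∨ k = 15 ∨ k = 13 :=
  col_list [24, 21, 37, 27] (by decide +kernel) k

theorem col_0_7 (k : P) : col 0 7 k ↔ k = 0 ∨ k = 7 ∨ k = 8 ∨ k = 12 ∨ k = 11 :=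
  col_list [357, 129] (by decide +kernel) k

theorem col_0_613 (k : P) : col 0 613 k ↔ k = 0 ∨ k = 613 ∨ k = 664 ∨ k = 661 ∨ k = 614 :=
  col_list [267, 35] (by decide +kernel) k

theorem col_0_129 (k : P) : col 0 129 k ↔ k = 0 ∨ k = 129 ∨ k = 216 ∨ k = 213 ∨ k = 130 :=
  col_list [131] (by decide +kernel) k

theorem col_1_70 (k : P) : col 1 70 k ↔ k = 1 ∨ k = 70 ∨ k = 378 ∨ k = 76 ∨ k = 384 :=
  col_list [24, 21, 267] (by decide +kernel) k

/-- A closed hyperoval: a non-empty set of points closed under `op` and meeting every line in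
no or two points. -/
structure HO (M : Set P) : Prop where
  ne : M.Nonempty
  cl : ∀ i ∈ M, ∀ j ∈ M, op i j ∈ M
  ho : ∀ i ∈ M, ∀ j, j ≠ i → perp i j → ∃! k, k ∈ M ∧ k ≠ i ∧ col i j k

theorem HO.comap {M : Set P} (h : HO M) {σ : Equiv.Perm P} (hσ : σ ∈ Aut) : HO (σ ⁻¹' M) := by
  refine ⟨h.ne.preimage σ.surjective, fun i hi j hj => ?_, fun i hi j hne hp => ?_⟩
  · rw [Set.mem_preimage, hσ]; exact h.cl _ hi _ hj
  · obtain ⟨k, hk, hu⟩ := h.ho _ hi (σ j) (σ.injective.ne hne) (Aut.perp hσ hp)
    obtain ⟨k, rfl⟩ := σ.surjective k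
    refine ⟨k, ⟨hk.1, fun h => hk.2.1 (by rw [h]), (Aut.col_iff hσ).1 hk.2.2⟩, fun l hl => ?_⟩
    exact σ.injective (hu _ ⟨hl.1, σ.injective.ne hl.2.1, (Aut.col_iff hσ).2 hl.2.2⟩)

theorem HO.not_mem {M : Set P} (h : HO M) {i j k : P} (hi : i ∈ M) (hj : j ∈ M) (hne : j ≠ i)
    (hp : perp i j) (hk : col i j k) (hki : k ≠ i) (hkj : k ≠ j) : k ∉ M := fun hM =>
  hkj ((h.ho i hi j hne hp).unique ⟨hM, hki, hk⟩ ⟨hj, hne, col_right i j⟩)

/-- the standard closed hyperoval -/
def M0 : Set P := {i | tb mM0 i = true}

noncomputable instance decM0 (i : P) : Decidable (i ∈ M0) :=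
  inferInstanceAs (Decidable (tb mM0 i = true))

theorem inM_M0 : InM mM0 M0 := inM_of (by decide +kernel) fun _ h => h

theorem ncard_M0 : M0.ncard = 126 := by
  rw [ncard_eq_bsum (tb mM0) M0 fun _ => Iff.rfl]
  decide +kernel

theorem out_M0 {S : Set P} (hcl : ∀ g ∈ M0, ∀ a ∈ S, op g a ∈ S) (h2 : 2 ∈ S) {i : P}
    (hi : i ∉ M0) : i ∈ S := by
  have : force (reach mM0 certOut (lm [2])) (fun m => nall 693 fun i => bor (tb m i) (tb mM0 i))
    = true := by decide +kernel
  rw [force_eq] at this
  refine (reach_sound hcl inM_M0 certOut (inM_lm (L := [2]) (by simpa using h2))).mem ?_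
  have h := forallP this i
  have hi' : tb mM0 i = false := by simpa [M0] using hi
  simpa [hi'] using h

theorem out_trans {i : P} (hi : i ∉ M0) : ∃ σ ∈ TG M0, σ 2 = i := by
  refine out_M0 (S := {j | ∃ σ ∈ TG M0, σ 2 = j}) ?_ ⟨1, one_mem _, rfl⟩ hi
  rintro g hg _ ⟨σ, hσ, rfl⟩
  exact ⟨tp g * σ, mul_mem (tp_mem_TG hg) hσ, rfl⟩

theorem HO.eq_M0 {M : Set P} (h : HO M) (hb : ∀ i ∈ ([0, 1, 5, 8, 613, 129] : List P), i ∈ M) :
    M = M0 := by
  have h0 : 0 ∈ M := hb _ (by simp)
  have h1 : 1 ∈ M := hb _ (by simp)
  have hout : ∀ k : P, (k : ℕ) < 5 → 2 ≤ (k : ℕ) → k ∉ M := fun k hk hk2 =>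
    h.not_mem h0 h1 (by decide) (by decide +kernel) ((col01 k).2 hk)
      (fun h => by simp [h] at hk2) (fun h => by simp [h] at hk2)
  have hz : ∀ (z : P) (L : List ℕ) (k : P), z ∈ M → (k : ℕ) < 5 → 2 ≤ (k : ℕ) →
      tb (reach2 L (lm (z :: [0, 1, 5, 8, 613, 129]))) k = true → False := by
    intro z L k hz hk hk2 hr
    refine hout k hk hk2 ((reach2_sound h.cl L (inM_lm fun i hi => ?_)).mem hr)
    rcases List.mem_cons.1 hi with rfl | hi
    exacts [hz, hb i hi]
  have h70 : 70 ∈ M := by
    obtain ⟨k, ⟨hk, hk1, hc⟩, -⟩ := h.ho 1 h1 70 (by decide) (by decide +kernel)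
    have e76 := hz 76 [5733, 8805, 8321, 627788, 78259, 132785, 628072, 487005, 675133, 64908] 2
    have e378 := hz 378 [5733, 8805, 1153, 8570, 387507, 132785, 8323, 71261, 691558, 199974] 4
    have e384 := hz 384 [5733, 8321, 8576, 628096, 132531, 369101, 386673, 302378] 2
    rcases (col_1_70 k).1 hc with rfl | rfl | rfl | rfl | rfl <;>
    first
    | exact hk
    | exact absurd rfl hk1
    | exact (e76 hk (by decide) (by decide) (by decide +kernel)).elim
    | exact (e378 hk (by decide) (by decide) (by decide +kernel)).elim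
    | exact (e384 hk (by decide) (by decide) (by decide +kernel)).elim
  have hsub : M0 ⊆ M := by
    have : reach2 certM (lm (70 :: [0, 1, 5, 8, 613, 129])) = mM0 := by decide +kernel
    intro i hi
    refine (reach2_sound h.cl certM (inM_lm (L := 70 :: [0, 1, 5, 8, 613, 129])
      fun i hi => ?_)).mem (by rw [this]; exact hi)
    rcases List.mem_cons.1 hi with rfl | hi
    exacts [h70, hb i hi]
  refine Set.Subset.antisymm (fun i hi => ?_) hsub
  by_contra hi0
  refine out_M0 (S := Mᶜ) (fun g hg a ha hM => ha ?_) (hout 2 (by decide) (by decide)) hi0 hi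
  simpa [op_op] using h.cl g (hsub hg) _ hM

theorem HO.step {M : Set P} (h : HO M) {L : List P} (hL : ∀ i ∈ L, i ∈ M) {σ : Equiv.Perm P}
    (hσ : σ ∈ Aut) (hfix : ∀ i ∈ L, σ i = i) {a : P} (ha : σ a ∈ M) :
    HO (σ ⁻¹' M) ∧ ∀ i ∈ a :: L, i ∈ σ ⁻¹' M := by
  refine ⟨h.comap hσ, fun i hi => ?_⟩
  rcases List.mem_cons.1 hi with rfl | hi
  · exact ha
  · rw [Set.mem_preimage, hfix i hi]; exact hL i hi

/-- Classification of the closed hyperovals. -/
theorem HO.classify {M : Set P} (h : HO M) : ∃ σ ∈ Aut, σ ⁻¹' M = M0 := by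
  have red : ∀ (L : List P) (a : P),
      (∀ M, HO M → (∀ i ∈ a :: L, i ∈ M) → ∃ σ ∈ Aut, σ ⁻¹' M = M0) →
      (∀ M, HO M → (∀ i ∈ L, i ∈ M) → ∃ σ ∈ Aut, (∀ i ∈ L, σ i = i) ∧ σ a ∈ M) →
      ∀ M, HO M → (∀ i ∈ L, i ∈ M) → ∃ σ ∈ Aut, σ ⁻¹' M = M0 := by
    intro L a H1 H2 M h hL
    obtain ⟨σ, hσ, hf, ha⟩ := H2 M h hL
    obtain ⟨h1, h2⟩ := h.step hL hσ hf ha
    obtain ⟨σ', hσ', e⟩ := H1 _ h1 h2
    exact ⟨σ * σ', mul_mem hσ hσ', e⟩
  have wd : ∀ (L w : List P) (a k : P) (M : Set P), k ∈ M → List.map (wact w) (a :: L) = k :: L →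
      ∃ σ ∈ Aut, (∀ i ∈ L, σ i = i) ∧ σ a ∈ M := by
    intro L w a k M hk e
    simp only [List.map_cons, List.cons.injEq] at e
    refine ⟨wp w, wp_mem_Aut w, fun i hi => ?_, by rwa [wp_apply, e.1]⟩
    rw [wp_apply]
    exact List.map_inj_left.1 (e.2.trans (List.map_id L).symm) i hi
  refine red [] 0 (red [0] 1 (red [1, 0] 5 (red [5, 1, 0] 8 (red [8, 5, 1, 0] 613
    (red [613, 8, 5, 1, 0] 129 ?_ ?_) ?_) ?_) ?_) ?_) ?_ M h (by simp)
  · intro M h hL
    exact ⟨1, one_mem _, h.eq_M0 fun i hi => hL i (by
      simp only [List.mem_cons, List.not_mem_nil] at hi ⊢; tauto)⟩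
  · intro M h hL
    obtain ⟨k, ⟨hk, hk1, hc⟩, -⟩ := h.ho 0 (hL _ (by simp)) 129 (by decide) (by decide +kernel)
    rcases (col_0_129 k).1 hc with rfl | rfl | rfl | rfl | rfl <;>
    first
    | exact absurd rfl hk1
    | exact wd _ [] _ _ M hk (by decide +kernel)
    | exact wd _ [4, 1] _ _ M hk (by decide +kernel)
    | exact wd _ [3, 1] _ _ M hk (by decide +kernel)
    | exact wd _ [2, 1] _ _ M hk (by decide +kernel)
  · intro M h hL
    obtain ⟨k, ⟨hk, hk1, hc⟩, -⟩ := h.ho 0 (hL _ (by simp)) 613 (by decide) (by decide +kernel)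
    rcases (col_0_613 k).1 hc with rfl | rfl | rfl | rfl | rfl <;>
    first
    | exact absurd rfl hk1
    | exact wd _ [] _ _ M hk (by decide +kernel)
    | exact wd _ [9, 5] _ _ M hk (by decide +kernel)
    | exact wd _ [10, 5] _ _ M hk (by decide +kernel)
    | exact wd _ [6, 5] _ _ M hk (by decide +kernel)
  · intro M h hL
    obtain ⟨k, ⟨hk, hk1, hc⟩, -⟩ := h.ho 0 (hL _ (by simp)) 7 (by decide) (by decide +kernel)
    have h7 : 7 ∉ M := h.not_mem (hL 1 (by simp)) (hL 5 (by simp)) (by decide) (by decide +kernel)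
      ((col_1_5 7).2 (by decide)) (by decide) (by decide)
    have hf : ∀ i ∈ ([5, 1, 0] : List P), phiP i = i := by decide +kernel
    have : k = 8 ∨ k = 11 ∨ k = 12 := by
      rcases (col_0_7 k).1 hc with rfl | rfl | rfl | rfl | rfl <;>
      first | exact absurd rfl hk1 | exact absurd hk h7 | decide
    rcases this with rfl | rfl | rfl
    · exact ⟨1, one_mem _, fun _ _ => rfl, hk⟩
    · exact ⟨phiP, phiP_mem, hf, by rwa [show phiP 8 = 11 by decide +kernel]⟩
    · exact ⟨phiP * phiP, mul_mem phiP_mem phiP_mem, fun i hi => by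
        rw [Equiv.Perm.mul_apply, hf i hi, hf i hi],
        by rwa [show (phiP * phiP) 8 = 12 by decide +kernel]⟩
  · intro M h hL
    obtain ⟨k, ⟨hk, hk1, hc⟩, -⟩ := h.ho 0 (hL _ (by simp)) 5 (by decide) (by decide +kernel)
    have hlt : 5 ≤ (k : ℕ) ∧ (k : ℕ) < 21 := by
      rcases (col_0_5 k).1 hc with rfl | rfl | rfl | rfl | rfl <;>
      first | exact absurd rfl hk1 | decide
    obtain ⟨σ, hσ, rfl⟩ := trans2 (perp_of_lt (by decide) hlt.2) (perp_of_lt (by decide) hlt.2) hlt.1
    refine ⟨σ, TG_le_Aut _ hσ, fun i hi => TG_fix hσ fun j hj => ?_, hk⟩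
    simp only [List.mem_cons, List.not_mem_nil, or_false] at hi
    rcases hi with rfl | rfl
    exacts [hj.2.symm, hj.1.symm]
  · intro M h hL
    obtain ⟨k, ⟨hk, hk1, hc⟩, -⟩ := h.ho 0 (hL _ (by simp)) 1 (by decide) (by decide +kernel)
    obtain ⟨σ, hσ, rfl⟩ := trans1 (hc.perp_left (by decide +kernel)) hk1
    refine ⟨σ, TG_le_Aut _ hσ, fun i hi => TG_fix hσ fun j hj => ?_, hk⟩
    obtain rfl := List.mem_singleton.1 hi
    exact perp.symm hj
  · intro M h _
    obtain ⟨k, hk⟩ := h.ne
    obtain ⟨σ, hσ, rfl⟩ := trans0 k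
    exact ⟨σ, TG_le_Aut _ hσ, by simp, hk⟩

theorem HO.ncard {M : Set P} (h : HO M) : M.ncard = 126 := by
  obtain ⟨σ, -, e⟩ := h.classify
  rw [← ncard_M0, ← e, Set.ncard_preimage_of_injective_subset_range σ.injective (by simp)]

theorem HO.exists_perp {M : Set P} (h : HO M) (x : P) : ∃ y ∈ M, perp y x := by
  obtain ⟨σ, hσ, e⟩ := h.classify
  have h0 : HO M0 := e ▸ h.comap hσ
  obtain ⟨x, rfl⟩ := σ.surjective x
  suffices ∃ y ∈ M0, perp y x by
    obtain ⟨y, hy, hp⟩ := this
    exact ⟨σ y, by rwa [← e] at hy, Aut.perp hσ hp⟩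
  by_cases hx : x ∈ M0
  · exact ⟨x, hx, perp_refl x⟩
  · obtain ⟨σ', hσ', rfl⟩ := out_trans hx
    exact ⟨σ' 0, (TG_mem hσ' h0.cl).2 (by decide +kernel),
      Aut.perp (TG_le_Aut _ hσ') (by decide +kernel)⟩

end Cfsg.Agent.TT2
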