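import Cfsg.Agent.TT2.U6Op
import Cfsg.Agent.Cl.UStd
import Cfsg.Agent.Cl.OGrp
import Cfsg.Agent.TT.Basic

/-!
# The transvections of `PSU₆(2)` realise the operation `op`
-/

set_option autoImplicit false

namespace Cfsg.Agent.TT2

open Cfsg.Agent.M24 Cfsg.Agent.Cl Cfsg.Agent.Cl.Uni Subgroup

/-- `i` and `j` are perpendicular (or equal) -/
def perp (i j : P) : Prop := op i j = j

/-- A family of involutions multiplying according to `op`. -/
structure Rep {G : Type*} [Group G] (τ : P → G) : Prop where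
  inj : Function.Injective τ
  sq : ∀ i, τ i * τ i = 1
  conj : ∀ i j, τ i * τ j * τ i = τ (op i j)

/-- The properties of the class of transvections of `PSU₆(2)` that are used. -/
structure U6 {X : Type*} [Group X] (t : P → X) : Prop extends Rep t where
  gen : closure (Set.range t) = ⊤
  center : center X = ⊥
  card : Nat.card X = 9196830720
  invol : ∀ g : X, g * g = 1 → ∃ Y : Set P, (∀ i ∈ Y, ∀ j ∈ Y, perp i j) ∧
    ∀ k, (∀ i ∈ Y, perp i k) → g * t k = t k * g

section Link

variable {K : Type} [Field K] [StarRing K]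

/-- a field with four elements and a primitive cube root of unity -/
structure F4 (ω : K) : Prop where
  frob : IsFrob K 2
  hw : ω * ω = ω + 1

/-- a bit as a field element -/
def bt (K : Type) [Field K] (b : Bool) : K := if b then 1 else 0

/-- the vector with a given code -/
def vec (ω : K) (c : ℕ) : Fin 6 → K := fun i => bt K (tb c i) + bt K (tb c (i + 6)) * ω

variable {ω : K}

theorem F4.two (H : F4 ω) : (2 : K) = 0 := by
  have := H.frob.fin
  have := Fintype.ofFinite K
  have h := FiniteField.cast_card_eq_zero K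
  rw [← Nat.card_eq_fintype_card, H.frob.card] at h
  have : (2 : K) * 2 = 0 := by rw [← h]; norm_num
  simpa using this

theorem F4.add_self (H : F4 ω) (x : K) : x + x = 0 := by rw [← two_mul, H.two, zero_mul]

theorem F4.neg_eq (H : F4 ω) (x : K) : -x = x := neg_eq_of_add_eq_zero_left (H.add_self x)

theorem F4.star_w (H : F4 ω) : star ω = ω + 1 := by rw [H.frob.star_eq, pow_two, H.hw]

theorem F4.w_ne (H : F4 ω) : ω ≠ 0 := by
  intro h; have := H.hw; simp [h] at this

theorem F4.w1_ne (H : F4 ω) : 1 + ω ≠ 0 := by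
  intro h
  have h1 : ω * ω = 0 := by rw [H.hw, add_comm, h]
  exact H.w_ne (by simpa using h1)

theorem F4.norm_one (H : F4 ω) {a : K} (ha : a ≠ 0) : a * star a = 1 := by
  have := H.frob.fin
  have := Fintype.ofFinite K
  have h := FiniteField.pow_card_sub_one_eq_one a ha
  rw [← Nat.card_eq_fintype_card, H.frob.card] at h
  rw [H.frob.star_eq, ← pow_succ']; exact h

theorem F4.bt_xor (H : F4 ω) (a b : Bool) : bt K (xor a b) = bt K a + bt K b := by
  cases a <;> cases b <;> simp [bt, H.add_self]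

theorem bt_and (a b : Bool) : bt K (a && b) = bt K a * bt K b := by
  cases a <;> cases b <;> simp [bt]

theorem star_bt (a : Bool) : star (bt K a) = bt K a := by cases a <;> simp [bt]

theorem F4.vec_xor (H : F4 ω) (a b : ℕ) : vec ω (Nat.xor a b) = vec ω a + vec ω b := by
  funext i
  have : ∀ j, tb (Nat.xor a b) j = xor (tb a j) (tb b j) := fun j => by
    simp only [tb_eq]; exact Nat.testBit_xor a b j
  simp only [vec, Pi.add_apply, this, H.bt_xor]; ring

theorem vec_zero : vec ω 0 = 0 := by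
  funext i; simp [vec, tb_eq, bt]

theorem bits {c : ℕ} (hc : c < 4096) (i : Fin 6) :
    tb (mw c) i = tb c (i + 6) ∧ tb (mw c) (i + 6) = xor (tb c i) (tb c (i + 6)) ∧
    tb (du0 c) i = xor (tb c i) (tb c (i + 6)) ∧ tb (du0 c) (i + 6) = tb c (i + 6) ∧
    tb (du1 c) i = tb c (i + 6) ∧ tb (du1 c) (i + 6) = tb c i := by
  have := (nall_iff _ _).1 (ball_zero chk_bits c hc) i i.2
  simpa only [band_eq, Bool.and_eq_true, beq_iff_eq, Nat.add_eq] using this

theorem F4.vec_mw (H : F4 ω) {c : ℕ} (hc : c < 4096) : vec ω (mw c) = ω • vec ω c := by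
  funext i
  obtain ⟨h1, h2, -⟩ := bits hc i
  simp only [vec, Pi.smul_apply, smul_eq_mul, h1, h2, H.bt_xor]
  linear_combination (-bt K (tb c (i + 6))) * H.hw

theorem F4.cast_par (H : F4 ω) {m : ℕ} (hm : m < 4096) :
    (par m : K) = ∑ i : Fin 6, (bt K (tb m i) + bt K (tb m (i + 6))) := by
  have h := ball_zero chk_par m hm
  rw [Nat.beq_eq] at h
  have hb : ∀ b, ((b2n b : ℕ) : K) = bt K b := fun b => by cases b <;> simp [b2n_eq, bt]
  have hmod : ∀ n : ℕ, ((Nat.mod n 2 : ℕ) : K) = n := fun n => by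
    have := congrArg (Nat.cast : ℕ → K) (Nat.mod_add_div n 2)
    push_cast at this
    rw [H.two, zero_mul, add_zero] at this
    exact this
  rw [h, hmod]
  simp only [Fin.sum_univ_six, Nat.cast_add, hb]
  norm_num
  ring

theorem tb_land (a b j : ℕ) : tb (Nat.land a b) j = (tb a j && tb b j) := by
  simp only [tb_eq]; exact Nat.testBit_and a b j

theorem F4.h_vec (H : F4 ω) {x w : ℕ} (hx : x < 4096) (hw : w < 4096) :
    stdH K 6 (vec ω x) (vec ω w) =
      (par (Nat.land x (du0 w)) : K) + (par (Nat.land x (du1 w)) : K) * ω := by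
  have h0 : Nat.land x (du0 w) < 4096 := lt_of_le_of_lt Nat.and_le_left hx
  have h1 : Nat.land x (du1 w) < 4096 := lt_of_le_of_lt Nat.and_le_left hx
  rw [H.cast_par h0, H.cast_par h1, stdH_apply, Finset.sum_mul, ← Finset.sum_add_distrib]
  refine Finset.sum_congr rfl fun i _ => ?_
  obtain ⟨-, -, h3, h4, h5, h6⟩ := bits hw i
  simp only [vec, tb_land, bt_and, h3, h4, h5, h6, H.bt_xor, star_add, star_mul, star_bt, H.star_w]
  linear_combination (bt K (tb x (i + 6)) * bt K (tb w (i + 6))) * H.hw +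
    (bt K (tb x (i + 6)) * bt K (tb w (i + 6)) * ω) * H.two

theorem par_lt (m : ℕ) : par m < 2 := Nat.mod_lt _ (by norm_num)

theorem vec_mul_par (m c : ℕ) : vec ω (Nat.mul (par m) c) = (par m : K) • vec ω c := by
  have := par_lt m
  interval_cases h : par m
  · simp [Nat.mul_eq, vec_zero]
  · simp [Nat.mul_eq]

theorem F4.eq_zero_of_bt (H : F4 ω) {a b : Bool} (h : bt K a + bt K b * ω = 0) :
    a = false ∧ b = false := by
  cases a <;> cases b <;> simp [bt, H.w_ne, H.w1_ne] at h ⊢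

theorem F4.vec_eq_zero (H : F4 ω) {c : ℕ} (hc : c < 4096) (h : vec ω c = 0) : c = 0 := by
  apply Nat.eq_of_testBit_eq
  intro j
  rw [Nat.zero_testBit, ← tb_eq]
  by_cases hj : j < 6
  · exact (H.eq_zero_of_bt (congrFun h ⟨j, hj⟩)).1
  by_cases hj' : j < 12
  · have := (H.eq_zero_of_bt (congrFun h ⟨j - 6, by omega⟩)).2
    simp only at this
    rwa [show j - 6 + 6 = j by omega] at this
  · rw [tb_eq]
    exact Nat.testBit_lt_two_pow (lt_of_lt_of_le hc (by
      calc 4096 = 2 ^ 12 := by norm_num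
        _ ≤ 2 ^ j := Nat.pow_le_pow_right (by norm_num) (by omega)))

theorem xor_lt {a b : ℕ} (ha : a < 4096) (hb : b < 4096) : Nat.xor a b < 4096 :=
  Nat.xor_lt_two_pow (n := 12) ha hb

theorem F4.vec_inj (H : F4 ω) {a b : ℕ} (ha : a < 4096) (hb : b < 4096)
    (h : vec ω a = vec ω b) : a = b := by
  have : vec ω (Nat.xor a b) = 0 := by
    rw [H.vec_xor, h]; funext i; exact H.add_self _
  exact Nat.xor_eq_zero_iff.1 (H.vec_eq_zero (xor_lt ha hb) this)

theorem F4.vec_surj (H : F4 ω) (v : Fin 6 → K) : ∃ c < 4096, vec ω c = v := by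
  have := H.frob.fin
  have hb : Function.Bijective (fun c : Fin 4096 => vec ω c) := by
    rw [Nat.bijective_iff_injective_and_card]
    refine ⟨fun a b h => Fin.ext (H.vec_inj a.2 b.2 h), ?_⟩
    rw [Nat.card_fun, H.frob.card]; simp
  obtain ⟨c, hc⟩ := hb.2 v
  exact ⟨c, c.2, hc⟩

theorem F4.cases (H : F4 ω) {a : K} (ha : a ≠ 0) : a = 1 ∨ a = ω ∨ a = ω * ω := by
  have h := H.norm_one ha
  rw [H.frob.star_eq] at h
  have : (a - 1) * (a - ω) * (a - ω * ω) = 0 := by
    linear_combination h + (-a ^ 2 + a * (ω + 1 + 1) - ω - 1) * H.hw +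
      (-a ^ 2 * (ω + 1) + a * (2 * ω + 1) - ω) * H.two
  rcases mul_eq_zero.1 this with h | h
  · rcases mul_eq_zero.1 h with h | h
    · exact Or.inl (sub_eq_zero.1 h)
    · exact Or.inr (Or.inl (sub_eq_zero.1 h))
  · exact Or.inr (Or.inr (sub_eq_zero.1 h))

theorem cd_lt (i : ℕ) : cd i < 4096 := Nat.mod_lt _ (by norm_num)

theorem ent_spec (i : P) : eW (ent i) = cd i ∧ eM (ent i) = mw (cd i) ∧ eA (ent i) = du0 (cd i) ∧
    eB (ent i) = du1 (cd i) ∧ ix (cd i) = i ∧ 0 < cd i ∧ par (Nat.land (cd i) (du0 (cd i))) = 0 ∧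
    par (Nat.land (cd i) (du1 (cd i))) = 0 := by
  have := (nall_iff _ _).1 chk_ent i i.2
  simpa only [force_eq, band_eq, Bool.and_eq_true, Nat.beq_eq, Nat.blt_eq] using this

theorem ix_spec {c : ℕ} (hc : c < 4096) : mw c < 4096 ∧ ix (mw c) = ix c ∧
    (c = 0 ∨ par (Nat.land c (du0 c)) = 1 ∨ cd (ix c) = c ∨ cd (ix c) = mw c ∨
      cd (ix c) = mw (mw c)) := by
  have := ball_zero chk_ix c hc
  simpa only [force_eq, band_eq, bor_eq, Bool.and_eq_true, Bool.or_eq_true, Nat.beq_eq,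
    Nat.blt_eq] using this

/-- the vector of a point -/
def pv (ω : K) (i : P) : Fin 6 → K := vec ω (cd i)

theorem F4.pv_ne (H : F4 ω) (i : P) : pv ω i ≠ 0 := fun h =>
  (ent_spec i).2.2.2.2.2.1.ne' (H.vec_eq_zero (cd_lt i) h)

theorem F4.pv_iso (H : F4 ω) (i : P) : stdH K 6 (pv ω i) (pv ω i) = 0 := by
  rw [pv, H.h_vec (cd_lt _) (cd_lt _), (ent_spec i).2.2.2.2.2.2.1, (ent_spec i).2.2.2.2.2.2.2]
  simp

theorem F4.ix_smul (H : F4 ω) {c c' : ℕ} (hc : c < 4096) (hc' : c' < 4096) {a : K} (ha : a ≠ 0)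
    (h : vec ω c' = a • vec ω c) : ix c' = ix c := by
  have h1 := ix_spec hc
  have h2 := ix_spec h1.1
  rcases H.cases ha with rfl | rfl | rfl
  · rw [H.vec_inj hc' hc (by rw [h, one_smul])]
  · rw [H.vec_inj hc' h1.1 (by rw [h, H.vec_mw hc]), h1.2.1]
  · rw [H.vec_inj hc' h2.1 (by rw [h, H.vec_mw h1.1, H.vec_mw hc, smul_smul]), h2.2.1, h1.2.1]

theorem F4.pv_inj (H : F4 ω) {i j : P} {a : K} (h : pv ω i = a • pv ω j) : i = j := by
  have ha : a ≠ 0 := by rintro rfl; exact H.pv_ne i (by simpa using h)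
  have := H.ix_smul (cd_lt j) (cd_lt i) ha h
  rw [(ent_spec i).2.2.2.2.1, (ent_spec j).2.2.2.2.1] at this
  exact Fin.ext this

theorem F4.pv_ix (H : F4 ω) {c : ℕ} (hc : c < 4096) (h0 : vec ω c ≠ 0)
    (hi : stdH K 6 (vec ω c) (vec ω c) = 0) :
    ∃ a : K, a ≠ 0 ∧ pv ω ⟨ix c, ix_lt c⟩ = a • vec ω c := by
  have h1 := ix_spec hc
  rcases h1.2.2 with h | h | h | h | h
  · subst h; exact absurd vec_zero h0
  · rw [H.h_vec hc hc, h] at hi
    have := par_lt (Nat.land c (du1 c))
    interval_cases par (Nat.land c (du1 c))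
    · simp at hi
    · exact absurd (by simpa using hi) H.w1_ne
  · exact ⟨1, one_ne_zero, by rw [pv, one_smul]; exact congrArg _ h⟩
  · exact ⟨ω, H.w_ne, by rw [pv, ← H.vec_mw hc]; exact congrArg _ h⟩
  · exact ⟨ω * ω, mul_ne_zero H.w_ne H.w_ne, by
      rw [pv, ← smul_smul, ← H.vec_mw hc, ← H.vec_mw h1.1]; exact congrArg _ h⟩

theorem F4.exists_pv (H : F4 ω) {v : Fin 6 → K} (h0 : v ≠ 0) (hi : stdH K 6 v v = 0) :
    ∃ (i : P) (a : K), a ≠ 0 ∧ pv ω i = a • v := by
  obtain ⟨c, hc, rfl⟩ := H.vec_surj v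
  exact ⟨_, H.pv_ix hc h0 hi⟩

theorem F4.one_add_star (H : F4 ω) : (1 : K) + star 1 = 0 := by rw [star_one, H.add_self]

/-- the transvection with centre an isotropic vector -/
def F4.tv (H : F4 ω) (w : Fin 6 → K) (hw : stdH K 6 w w = 0) : UG (stdH K 6) :=
  eich _ w 0 1 (EC.zero hw H.one_add_star)

theorem F4.tv_apply (H : F4 ω) {w : Fin 6 → K} (hw : stdH K 6 w w = 0) (x : Fin 6 → K) :
    (H.tv w hw).1 x = x + stdH K 6 x w • w := by
  rw [F4.tv, eich_apply, HForm.zero_right, one_mul, zero_smul, smul_zero, add_zero, sub_zero,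
    sub_eq_add_neg, ← neg_smul, H.neg_eq]

theorem F4.tv_smul (H : F4 ω) {w w' : Fin 6 → K} (hw : stdH K 6 w w = 0)
    (hw' : stdH K 6 w' w' = 0) {a : K} (ha : a ≠ 0) (h : w' = a • w) :
    H.tv w' hw' = H.tv w hw := by
  subst h
  refine UG.ext' fun x => ?_
  rw [H.tv_apply, H.tv_apply, HForm.smul_right, smul_smul, mul_right_comm, mul_comm (star a),
    H.norm_one ha, one_mul]

theorem F4.conj_tv (H : F4 ω) (g : UG (stdH K 6)) {w : Fin 6 → K} (hw : stdH K 6 w w = 0) :
    g * H.tv w hw * g⁻¹ = H.tv (g.1 w) (by rw [UG.h_apply, hw]) := by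
  refine UG.ext' fun x => ?_
  rw [UG.mul_apply, UG.mul_apply, H.tv_apply, H.tv_apply, map_add, map_smul, UG.apply_inv_apply,
    UG.h_inv]

/-- the transvection of a point -/
def F4.tp (H : F4 ω) (i : P) : UG (stdH K 6) := H.tv (pv ω i) (H.pv_iso i)

theorem F4.conj_tp (H : F4 ω) (g : UG (stdH K 6)) {i j : P} {a : K} (ha : a ≠ 0)
    (h : pv ω j = a • g.1 (pv ω i)) : g * H.tp i * g⁻¹ = H.tp j := by
  rw [F4.tp, H.conj_tv]
  exact (H.tv_smul _ _ ha h).symm

theorem F4.exists_conj_tp (H : F4 ω) (g : UG (stdH K 6)) (i : P) :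
    ∃ j, g * H.tp i * g⁻¹ = H.tp j := by
  obtain ⟨j, a, ha, h⟩ := H.exists_pv (UG.apply_ne_zero g (H.pv_ne i))
    (by rw [UG.h_apply, H.pv_iso])
  exact ⟨j, H.conj_tp g ha h⟩

theorem F4.tp_sq (H : F4 ω) (i : P) : H.tp i * H.tp i = 1 := by
  refine UG.ext' fun x => ?_
  rw [UG.mul_apply, F4.tp, H.tv_apply, H.tv_apply, HForm.add_left, HForm.smul_left, H.pv_iso,
    mul_zero, add_zero, add_assoc, ← add_smul, H.add_self, zero_smul, add_zero, UG.one_apply]

theorem F4.pv_op (H : F4 ω) (i j : P) :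
    ∃ a : K, a ≠ 0 ∧ pv ω (op i j) = a • (H.tp i).1 (pv ω j) := by
  obtain ⟨e1, e2, e3, e4, -⟩ := ent_spec i
  have hm := (ix_spec (cd_lt i)).1
  have hp : ∀ m c, c < 4096 → Nat.mul (par m) c < 4096 := fun m c hc => by
    have := par_lt m
    interval_cases par m <;> simp [Nat.mul_eq, hc]
  have hc : opV (ent i) (cd j) < 4096 := by
    unfold opV
    rw [e1, e2]
    exact xor_lt (xor_lt (cd_lt _) (hp _ _ (cd_lt _))) (hp _ _ hm)
  have hv : vec ω (opV (ent i) (cd j)) = (H.tp i).1 (pv ω j) := by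
    unfold opV
    rw [e1, e2, e3, e4, H.vec_xor, H.vec_xor, vec_mul_par, vec_mul_par, F4.tp, H.tv_apply, pv, pv,
      H.h_vec (cd_lt _) (cd_lt _), H.vec_mw (cd_lt _), smul_smul, add_smul, add_assoc]
  have := H.pv_ix hc (by rw [hv]; exact UG.apply_ne_zero _ (H.pv_ne j))
    (by rw [hv, UG.h_apply, H.pv_iso])
  rw [hv] at this
  have e : op i j = ⟨ix (opV (ent i) (cd j)), ix_lt _⟩ := Fin.ext (by simp [op, opN])
  rwa [e]

theorem F4.tp_conj (H : F4 ω) (i j : P) : H.tp i * H.tp j * H.tp i = H.tp (op i j) := by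
  obtain ⟨a, ha, h⟩ := H.pv_op i j
  rw [← H.conj_tp (H.tp i) ha h, TT.inv_of_sq (H.tp_sq i)]

theorem F4.tp_inj (H : F4 ω) : Function.Injective H.tp := by
  intro i j h
  obtain ⟨x, hx⟩ := (nondeg_stdH (F := K) 6).exists_one (H.pv_ne i)
  have := congrArg (fun g : UG (stdH K 6) => g.1 x) h
  simp only [F4.tp, H.tv_apply, hx, one_smul, add_right_inj] at this
  exact H.pv_inj this

theorem F4.rep (H : F4 ω) : Rep H.tp := ⟨H.tp_inj, H.tp_sq, H.tp_conj⟩

theorem F4.perp_iff (H : F4 ω) (i j : P) : perp i j ↔ stdH K 6 (pv ω j) (pv ω i) = 0 := by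
  obtain ⟨a, ha, h⟩ := H.pv_op i j
  rw [F4.tp, H.tv_apply] at h
  constructor
  · intro hp
    rw [hp] at h
    by_contra hne
    have h1 : (a * stdH K 6 (pv ω j) (pv ω i)) • pv ω i = (1 - a) • pv ω j := by
      rw [smul_add, smul_smul] at h
      linear_combination (norm := module) -h
    have h2 : pv ω i = ((a * stdH K 6 (pv ω j) (pv ω i))⁻¹ * (1 - a)) • pv ω j := by
      rw [← smul_smul, ← h1, smul_smul, inv_mul_cancel₀ (mul_ne_zero ha hne), one_smul]
    have := H.pv_inj h2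
    subst this
    exact hne (H.pv_iso i)
  · intro h0
    rw [h0, zero_smul, add_zero] at h
    exact H.pv_inj h

theorem F4.op_comm (H : F4 ω) {i j : P} (h : ¬ perp i j) : op i j = op j i := by
  obtain ⟨a, ha, h1⟩ := H.pv_op i j
  obtain ⟨b, hb, h2⟩ := H.pv_op j i
  rw [H.perp_iff] at h
  rw [F4.tp, H.tv_apply] at h1 h2
  have hn := H.norm_one h
  rw [HForm.star_symm] at hn
  refine H.pv_inj (a := a * stdH K 6 (pv ω j) (pv ω i) * b⁻¹) ?_
  rw [h1, h2, smul_smul, mul_assoc, inv_mul_cancel₀ hb, mul_one, ← smul_smul, smul_add (_ : K) (pv ω i),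
    smul_smul _ _ (pv ω j), hn, one_smul, add_comm]

theorem exists_F4 {K : Type} [Field K] [Fintype K] (hK : Fintype.card K = 4) :
    ∃ (_ : StarRing K) (ω : K), F4 ω := by
  obtain ⟨_, H⟩ := exists_isFrob (F := K) (q := 2) hK
  classical
  obtain ⟨ω, hω⟩ : ∃ ω : K, ω ∉ ({0, 1} : Finset K) := by
    by_contra h
    push Not at h
    have := Finset.card_le_card (s := Finset.univ) (t := ({0, 1} : Finset K)) fun x _ => h x
    have h2 : ({0, 1} : Finset K).card ≤ 2 := Finset.card_le_two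
    rw [Finset.card_univ, hK] at this
    omega
  simp only [Finset.mem_insert, Finset.mem_singleton, not_or] at hω
  refine ⟨inferInstance, ω, H, ?_⟩
  have h := FiniteField.pow_card_sub_one_eq_one ω hω.1
  rw [hK] at h
  have h2 : (2 : K) * 2 = 0 := by
    have := FiniteField.cast_card_eq_zero K
    rw [hK] at this
    rw [← this]; norm_num
  have h3 : (2 : K) = 0 := by simpa using h2
  have : (ω - 1) * (ω * ω - (ω + 1)) = 0 := by
    linear_combination h + (-ω ^ 2 + 1) * h3
  exact sub_eq_zero.1 ((mul_eq_zero.1 this).resolve_left (sub_ne_zero.2 hω.2))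

/-- the transvection of a point, in the special unitary group -/
def F4.te (H : F4 ω) (i : P) : EG (stdH K 6) := ⟨H.tp i, eich_mem_EG (EC.zero (H.pv_iso i) H.one_add_star)⟩

/-- the transvection of a point, in the projective special unitary group -/
def F4.tq (H : F4 ω) (i : P) : EG (stdH K 6) ⧸ center (EG (stdH K 6)) :=
  QuotientGroup.mk (H.te i)

theorem F4.pow_three_of_center (H : F4 ω) {g : EG (stdH K 6)} (hg : g ∈ center (EG (stdH K 6))) :
    g ^ 3 = 1 := by
  have := H.frob.card_center (n := 6) (by norm_num)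
  have h := pow_card_eq_one' (x := (⟨g, hg⟩ : center (EG (stdH K 6))))
  rw [this] at h
  exact congrArg Subtype.val h

theorem F4.rep_tq (H : F4 ω) : Rep H.tq := by
  have hs : ∀ i, H.te i * H.te i = 1 := fun i => Subtype.ext (H.tp_sq i)
  have hc : ∀ i j, H.te i * H.te j * H.te i = H.te (op i j) := fun i j => Subtype.ext (H.tp_conj i j)
  refine ⟨fun i j h => ?_, fun i => ?_, fun i j => ?_⟩
  · have h1 := QuotientGroup.eq.1 h
    have h2 := H.pow_three_of_center h1
    have h3 : ((H.te i)⁻¹ * H.te j) ^ 2 = 1 := by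
      have := (mem_center_iff.1 h1 (H.te i))
      rw [TT.inv_of_sq (hs i)] at this ⊢
      rw [TT.sq_cancel (hs i)] at this
      rw [pow_two, ← mul_assoc, ← this, hs]
    have := TT.eq_one_of_pow_coprime (by norm_num) h3 h2
    exact H.tp_inj (congrArg Subtype.val (inv_mul_eq_one.1 this))
  · rw [F4.tq, ← QuotientGroup.mk_mul, hs, QuotientGroup.mk_one]
  · rw [F4.tq, F4.tq, F4.tq, ← QuotientGroup.mk_mul, ← QuotientGroup.mk_mul, hc]

theorem op_7_0 : op 21 0 ≠ 0 := by decide +kernel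

theorem F4.u6 (H : F4 ω) : U6 H.tq := by
  have := H.frob.fin
  have := Fintype.ofFinite K
  obtain ⟨e, f, Hy⟩ := H.frob.exists_hyp (n := 6) (by norm_num)
  have hsimple := isSimpleGroup_EG H.frob.nt (nondeg_stdH 6) Hy
    (H.frob.EG_perfect (n := 6) (by norm_num) (by norm_num))
  have R := H.rep_tq
  have hcj : ∀ (g : EG (stdH K 6) ⧸ center (EG (stdH K 6))) i, ∃ j, g * H.tq i * g⁻¹ = H.tq j := by
    intro g i
    obtain ⟨g, rfl⟩ := QuotientGroup.mk_surjective g
    obtain ⟨j, hj⟩ := H.exists_conj_tp g.1 i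
    refine ⟨j, ?_⟩
    rw [F4.tq, F4.tq, ← QuotientGroup.mk_inv, ← QuotientGroup.mk_mul, ← QuotientGroup.mk_mul]
    exact congrArg _ (Subtype.ext hj)
  have hnc : H.tq 21 * H.tq 0 ≠ H.tq 0 * H.tq 21 := by
    intro h
    have := R.conj 21 0
    rw [h, mul_assoc, R.sq, mul_one] at this
    exact op_7_0 (R.inj this).symm
  refine ⟨R, ?_, ?_, ?_, ?_⟩
  · have hN : (closure (Set.range H.tq)).Normal := ⟨fun n hn g => by
      induction hn using closure_induction with
      | mem x hx =>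
        obtain ⟨i, rfl⟩ := hx
        obtain ⟨j, hj⟩ := hcj g i
        exact subset_closure ⟨j, hj.symm⟩
      | one => simp
      | mul x y _ _ hx hy =>
        have := mul_mem hx hy
        rwa [show g * x * g⁻¹ * (g * y * g⁻¹) = g * (x * y) * g⁻¹ by group] at this
      | inv x _ hx =>
        have := inv_mem hx
        rwa [show (g * x * g⁻¹)⁻¹ = g * x⁻¹ * g⁻¹ by group] at this⟩
    refine (hN.eq_bot_or_eq_top).resolve_left fun h => hnc ?_
    have : H.tq 0 = 1 := mem_bot.1 (h ▸ subset_closure ⟨0, rfl⟩)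
    rw [this, mul_one, one_mul]
  · refine ((inferInstance : (center _).Normal).eq_bot_or_eq_top).resolve_right fun h => hnc ?_
    exact mem_center_iff.1 (h ▸ mem_top (H.tq 0)) _
  · have h := H.frob.card_psu (n := 6) (by norm_num)
    rw [Nat.card_congr (quotCenterEquiv (H.frob.suEquivEG (n := 6) (by norm_num))).toEquiv] at h
    norm_num [Finset.prod_range_succ, Nat.even_iff, -Nat.card_eq_fintype_card] at h
    omega
  · intro g hg
    obtain ⟨g0, rfl⟩ := QuotientGroup.mk_surjective g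
    have h2 : g0 * g0 ∈ center (EG (stdH K 6)) := by
      rw [← QuotientGroup.mk_mul, QuotientGroup.eq_one_iff] at hg; exact hg
    have h3 := H.pow_three_of_center h2
    set g1 := g0 ^ 3 with hg1
    have hq : (QuotientGroup.mk g0 : EG (stdH K 6) ⧸ center (EG (stdH K 6))) =
        QuotientGroup.mk g1 := by
      rw [hg1, QuotientGroup.mk_pow, pow_succ, pow_two, hg, one_mul]
    have h11 : g1.1 * g1.1 = 1 := by
      have : g1 * g1 = 1 := by rw [← h3, hg1, ← pow_two, ← pow_two, ← pow_mul, ← pow_mul]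
      exact congrArg Subtype.val this
    have hinv : (g1.1)⁻¹ = g1.1 := TT.inv_of_sq h11
    have hgg : ∀ x, g1.1.1 (g1.1.1 x) = x := fun x => by
      rw [← UG.mul_apply, h11, UG.one_apply]
    have hadj : ∀ x y, stdH K 6 (g1.1.1 x - x) y = stdH K 6 x (g1.1.1 y - y) := fun x y => by
      rw [HForm.sub_left, HForm.sub_right, ← UG.h_inv, hinv]
    have hN : ∀ x y, stdH K 6 (g1.1.1 x - x) (g1.1.1 y - y) = 0 := fun x y => by
      rw [hadj, map_sub, hgg]
      have : y - g1.1.1 y - (g1.1.1 y - y) = (2 : K) • (y - g1.1.1 y) := by module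
      rw [this, H.two, zero_smul, HForm.zero_right]
    refine ⟨{i | ∃ (x : Fin 6 → K) (a : K), pv ω i = a • (g1.1.1 x - x)}, ?_, ?_⟩
    · rintro i ⟨x, a, hx⟩ j ⟨y, b, hy⟩
      rw [H.perp_iff, hx, hy, HForm.smul_left, HForm.smul_right, hN, mul_zero, mul_zero]
    · intro k hk
      have hfix : g1.1.1 (pv ω k) = pv ω k := by
        rw [← sub_eq_zero]
        by_contra hne
        obtain ⟨x, hx⟩ := (nondeg_stdH (F := K) 6).exists_ne hne
        rw [← hadj] at hx
        have h0 : g1.1.1 x - x ≠ 0 := fun h => hx (by rw [h, HForm.zero_left])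
        obtain ⟨i, a, ha, hi⟩ := H.exists_pv h0 (hN x x)
        have := (H.perp_iff i k).1 (hk i ⟨x, a, hi⟩)
        rw [hi, HForm.smul_right, mul_eq_zero] at this
        rcases this with h | h
        · exact ha (star_eq_zero.1 h)
        · exact hx ((stdH K 6).eq_zero_symm h)
      have := H.conj_tp g1.1 (i := k) (j := k) one_ne_zero (by rw [hfix, one_smul])
      rw [hq, F4.tq, ← QuotientGroup.mk_mul, ← QuotientGroup.mk_mul]
      exact congrArg _ (Subtype.ext (mul_inv_eq_iff_eq_mul.1 this))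

theorem chk_phi : ball (fun c => band (Nat.blt (phiV c) 4096) (nall 6 fun i =>
    bif' (Nat.blt i 2) (band (tb (phiV c) i == tb c (Nat.add i 6))
      (tb (phiV c) (Nat.add i 6) == xor (tb c i) (tb c (Nat.add i 6))))
      (band (tb (phiV c) i == tb c i) (tb (phiV c) (Nat.add i 6) == tb c (Nat.add i 6))))) 12 0
    = true := by decide +kernel

/-- the diagonal automorphism on points -/
def phi (i : P) : P := ⟨phiN i, ix_lt _⟩

/-- a diagonal map -/
def dgL (d : Fin 6 → K) : (Fin 6 → K) →ₗ[K] (Fin 6 → K) where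
  toFun v i := d i * v i
  map_add' x y := by funext i; simp [mul_add]
  map_smul' a x := by funext i; simp [mul_left_comm]

theorem F4.phi_op (H : F4 ω) (i j : P) : phi (op i j) = op (phi i) (phi j) := by
  let d : Fin 6 → K := fun i => if (i : ℕ) < 2 then ω else 1
  have hd : ∀ i, d i * star (d i) = 1 := fun i => H.norm_one (by
    simp only [d]; split_ifs; exacts [H.w_ne, one_ne_zero])
  let g : UG (stdH K 6) := UG.mk' (dgL d) (dgL fun i => star (d i))
    (fun v => by funext i; simp only [dgL, LinearMap.coe_mk, AddHom.coe_mk]; rw [← mul_assoc, hd, one_mul])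
    (fun v => by
      funext i; simp only [dgL, LinearMap.coe_mk, AddHom.coe_mk]
      rw [← mul_assoc, mul_comm (star _), hd, one_mul])
    (fun u v => by
      simp only [stdH_apply, dgL, LinearMap.coe_mk, AddHom.coe_mk, star_mul]
      exact Finset.sum_congr rfl fun i _ => by linear_combination (u i * star (v i)) * hd i)
  have hg : ∀ i, g * H.tp i * g⁻¹ = H.tp (phi i) := by
    intro i
    have h := ball_zero chk_phi (cd i) (cd_lt i)
    simp only [band_eq, Bool.and_eq_true, nall_iff, Nat.blt_eq, bif'_eq, Nat.add_eq] at h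
    have hv : vec ω (phiV (cd i)) = g.1 (pv ω i) := by
      funext k
      have hk := h.2 k k.2
      change _ = d k * vec ω (cd i) k
      simp only [d, vec]
      split_ifs at hk ⊢ with h1
      · simp only [Bool.and_eq_true, beq_iff_eq] at hk
        rw [hk.1, hk.2, H.bt_xor]
        linear_combination (-bt K (tb (cd i) (k + 6))) * H.hw
      · simp only [Bool.and_eq_true, beq_iff_eq] at hk
        rw [hk.1, hk.2, one_mul]
    obtain ⟨a, ha, h2⟩ := H.pv_ix h.1 (by rw [hv]; exact UG.apply_ne_zero _ (H.pv_ne i))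
      (by rw [hv, UG.h_apply, H.pv_iso])
    rw [hv] at h2
    exact H.conj_tp g ha h2
  apply H.tp_inj
  rw [← hg, ← H.tp_conj, ← H.tp_conj, ← hg, ← hg]
  group

end Link

theorem exists_U6 {K : Type} [Field K] [Fintype K] (hK : Fintype.card K = 4) :
    ∃ t : P → Cfsg.PSU 6 K 2, U6 t := by
  obtain ⟨_, ω, H⟩ := exists_F4 hK
  have U := H.u6
  let e := (quotCenterEquiv (H.frob.suEquivEG (n := 6) (by norm_num))).symm
  refine ⟨fun i => e (H.tq i), ⟨fun i j h => U.inj (e.injective h), fun i => ?_, fun i j => ?_⟩,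
    ?_, ?_, ?_, ?_⟩
  · rw [← map_mul, U.sq, map_one]
  · rw [← map_mul, ← map_mul, U.conj]
  · have := congrArg (Subgroup.map e.toMonoidHom) U.gen
    rw [MonoidHom.map_closure, ← Set.range_comp,
      map_top_of_surjective e.toMonoidHom e.surjective] at this
    exact this
  · rw [← map_center_equiv e, U.center, Subgroup.map_bot]
  · rw [← U.card]; exact Nat.card_congr e.symm.toEquiv
  · intro g hg
    obtain ⟨Y, h1, h2⟩ := U.invol (e.symm g) (by rw [← map_mul, hg, map_one])
    refine ⟨Y, h1, fun k hk => ?_⟩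
    have := congrArg e (h2 k hk)
    simpa using this

theorem exists_F4' : ∃ (K : Type) (_ : Field K) (_ : StarRing K) (ω : K), F4 ω := by
  have : Fact (Nat.Prime 2) := ⟨Nat.prime_two⟩
  have := Fintype.ofFinite (GaloisField 2 2)
  obtain ⟨_, ω, H⟩ := exists_F4 (K := GaloisField 2 2) (by
    rw [← Nat.card_eq_fintype_card, GaloisField.card 2 2 (by norm_num)]; rfl)
  exact ⟨_, _, _, ω, H⟩

theorem op_comm {i j : P} (h : ¬ perp i j) : op i j = op j i := by
  obtain ⟨K, _, _, ω, H⟩ := exists_F4'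
  exact H.op_comm h

theorem phi_op (i j : P) : phi (op i j) = op (phi i) (phi j) := by
  obtain ⟨K, _, _, ω, H⟩ := exists_F4'
  exact H.phi_op i j

theorem exists_rep : ∃ (X : Type) (_ : Group X) (t : P → X), U6 t := by
  obtain ⟨K, _, _, ω, H⟩ := exists_F4'
  exact ⟨_, _, _, H.u6⟩

end Cfsg.Agent.TT2
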