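import Cfsg.Agent.TT2.U6Tab

/-!
# The operation `op i j` (image of the point `j` under the transvection with centre `i`) on codes
-/

set_option autoImplicit false

namespace Cfsg.Agent.TT2

open Cfsg.Agent.M24

/-- bit test -/
def tb (m i : ℕ) : Bool := Nat.beq (Nat.mod (Nat.shiftRight m i) 2) 1

theorem tb_eq (m i : ℕ) : tb m i = m.testBit i := by
  unfold tb
  rw [Nat.testBit_eq_decide_div_mod_eq]
  have : Nat.mod (Nat.shiftRight m i) 2 = m / 2 ^ i % 2 := by
    rw [← Nat.shiftRight_eq_div_pow]; rfl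
  rw [this]
  rw [Bool.eq_iff_iff, Nat.beq_eq, decide_eq_true_iff]

def par (m : ℕ) : ℕ := Nat.mod (Nat.shiftRight parTab m) 2
def ent (i : ℕ) : ℕ := Nat.mod (Nat.shiftRight cdTab (Nat.mul 48 i)) 281474976710656
def eW (e : ℕ) : ℕ := Nat.mod e 4096
def eM (e : ℕ) : ℕ := Nat.mod (Nat.shiftRight e 12) 4096
def eA (e : ℕ) : ℕ := Nat.mod (Nat.shiftRight e 24) 4096
def eB (e : ℕ) : ℕ := Nat.shiftRight e 36
def cd (i : ℕ) : ℕ := Nat.mod (Nat.shiftRight cdTab (Nat.mul 48 i)) 4096
def ix (c : ℕ) : ℕ := Nat.mod (Nat.mod (Nat.shiftRight ixTab (Nat.mul 10 c)) 1024) 693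

/-- code of `ω` times a vector -/
def mw (c : ℕ) : ℕ :=
  Nat.lor (Nat.shiftRight c 6) (Nat.shiftLeft (Nat.land (Nat.xor c (Nat.shiftRight c 6)) 63) 6)
def du0 (c : ℕ) : ℕ :=
  Nat.lor (Nat.land (Nat.xor c (Nat.shiftRight c 6)) 63) (Nat.shiftLeft (Nat.shiftRight c 6) 6)
def du1 (c : ℕ) : ℕ := Nat.lor (Nat.shiftRight c 6) (Nat.shiftLeft (Nat.land c 63) 6)

noncomputable def opV (e x : ℕ) : ℕ :=
  Nat.xor (Nat.xor x (Nat.mul (par (Nat.land x (eA e))) (eW e)))
    (Nat.mul (par (Nat.land x (eB e))) (eM e))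

/-- the operation on indices -/
noncomputable def opN (i j : ℕ) : ℕ :=
  force (ent i) fun e => force (cd j) fun x => ix (opV e x)

theorem ix_lt (c : ℕ) : ix c < 693 := Nat.mod_lt _ (by norm_num)

theorem opN_lt (i j : ℕ) : opN i j < 693 := by
  simp only [opN, force_eq]; exact ix_lt _

/-- the points -/
abbrev P : Type := Fin 693

/-- `op i j` is the image of `j` under the transvection with centre `i` -/
noncomputable def op (i j : P) : P := ⟨opN i j, opN_lt _ _⟩

theorem op_val (i j : P) : (op i j : ℕ) = opN i j := rfl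

/-- the diagonal automorphism `diag(ω, ω, 1, 1, 1, 1)` on vector codes -/
def phiV (c : ℕ) : ℕ := Nat.xor (Nat.land c 3900) (mw (Nat.land c 195))

def phiN (i : ℕ) : ℕ := ix (phiV (cd i))

theorem chk_ent : nall 693 (fun i => force (ent i) fun e => force (cd i) fun c =>
    band (Nat.beq (eW e) c) (band (Nat.beq (eM e) (mw c)) (band (Nat.beq (eA e) (du0 c))
      (band (Nat.beq (eB e) (du1 c)) (band (Nat.beq (ix c) i) (band (Nat.blt 0 c)
        (band (Nat.beq (par (Nat.land c (du0 c))) 0) (Nat.beq (par (Nat.land c (du1 c))) 0))))))))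
    = true := by decide +kernel

theorem chk_bits : ball (fun c => nall 6 fun i =>
    band (tb (mw c) i == tb c (Nat.add i 6))
    (band (tb (mw c) (Nat.add i 6) == xor (tb c i) (tb c (Nat.add i 6)))
    (band (tb (du0 c) i == xor (tb c i) (tb c (Nat.add i 6)))
    (band (tb (du0 c) (Nat.add i 6) == tb c (Nat.add i 6))
    (band (tb (du1 c) i == tb c (Nat.add i 6))
    (tb (du1 c) (Nat.add i 6) == tb c i)))))) 12 0 = true := by decide +kernel

theorem chk_par : ball (fun c => Nat.beq (par c)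
    (Nat.mod (b2n (tb c 0) + b2n (tb c 6) + (b2n (tb c 1) + b2n (tb c 7) + (b2n (tb c 2) +
      b2n (tb c 8) + (b2n (tb c 3) + b2n (tb c 9) + (b2n (tb c 4) + b2n (tb c 10) +
      (b2n (tb c 5) + b2n (tb c 11))))))) 2)) 12 0 = true := by decide +kernel

theorem chk_ix : ball (fun c => band (Nat.blt (mw c) 4096) (band (Nat.beq (ix (mw c)) (ix c))
    (bor (Nat.beq c 0) (bor (Nat.beq (par (Nat.land c (du0 c))) 1)
      (force (cd (ix c)) fun w => bor (Nat.beq w c) (bor (Nat.beq w (mw c))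
        (Nat.beq w (mw (mw c))))))))) 12 0 = true := by decide +kernel

end Cfsg.Agent.TT2
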